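/-
Lyons' theorem, base: the group `T64` (Sylow 2-subgroup of `U₃(4)`), its automorphism `tau` of order 15,
the group `Q = T64 : 5`, the fusion data `Fus` and the permutation model.
An element is `a + 16 c` with `a` in the field of 16 elements (`x⁴ = x + 1`, bits) and `c` in the centre.
-/
import Cfsg.Agent.Blk.ZCor

set_option autoImplicit false

namespace CA.Ly

structure T64 where
  v : Fin 64

theorem T64.ext' {x y : T64} (h : x.v = y.v) : x = y := by cases x; cases y; cases h; rfl

instance : DecidableEq T64 := fun x y =>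
  if h : x.v.val = y.v.val then isTrue (T64.ext' (Fin.ext h)) else isFalse fun e => h (e ▸ rfl)

def T64.eqv : T64 ≃ Fin 64 := ⟨T64.v, T64.mk, fun _ => rfl, fun _ => rfl⟩

instance : Fintype T64 := Fintype.ofEquiv _ T64.eqv.symm

def mk (n : ℕ) : T64 := ⟨⟨n % 64, Nat.mod_lt _ (by decide)⟩⟩

def BT : ℕ := 6572386672189381740864248090750204941530202883645749731786398955779924041031939550595641694276721309304890859111282697048506751672417307250951008815153152
def IT : ℕ := 29074986372210466909978292639039100783291236871964119124392548466449772642454450766405305299719182854688018577368128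
def TT : ℕ := 28311988691387262421590313501327332303726906659582303077866191672508010981963478157345045828628147898714122964519040
def TI : ℕ := 38548242138203063317814085114064901100393873573525919913430514893372704448647497736248859090175290921106318754388544

def mulN (x y : ℕ) : ℕ := x ^^^ y ^^^ ((BT >>> (2 * (16 * (x % 16) + y % 16))) % 4 * 16)

instance : Mul T64 := ⟨fun x y => mk (mulN x.v y.v)⟩
instance : One T64 := ⟨mk 0⟩
instance : Inv T64 := ⟨fun x => mk (IT >>> (6 * x.v.val))⟩

/-- Boolean quantifier for `decide +kernel` checks -/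
def allT (p : T64 → Bool) : Bool := (List.range 64).all fun i => p (mk i)

theorem mk_v (x : T64) : mk x.v = x := T64.ext' (Fin.ext (Nat.mod_eq_of_lt x.v.2))

theorem allT_spec {p : T64 → Bool} (h : allT p = true) (x : T64) : p x = true :=
  mk_v x ▸ List.all_eq_true.1 h x.v (List.mem_range.2 x.v.2)

theorem assoc_chk : allT (fun x => allT fun y => allT fun z => decide (x * y * z = x * (y * z))) = true := by
  decide +kernel

instance : Group T64 := Group.ofLeftAxioms
  (fun x y z => of_decide_eq_true (allT_spec (allT_spec (allT_spec assoc_chk x) y) z))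
  (fun x => of_decide_eq_true (allT_spec (p := fun x => decide (1 * x = x)) (by decide +kernel) x))
  (fun x => of_decide_eq_true (allT_spec (p := fun x => decide (x⁻¹ * x = 1)) (by decide +kernel) x))

theorem card_T64 : Nat.card T64 = 64 := by rw [Nat.card_congr T64.eqv]; simp

def tauF (x : T64) : T64 := mk (TT >>> (6 * x.v.val))
def tauI (x : T64) : T64 := mk (TI >>> (6 * x.v.val))

/-- the automorphism of order 15: multiplication by a generator on `T/Z` -/
def tau : MulAut T64 where
  toFun := tauF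
  invFun := tauI
  left_inv x := of_decide_eq_true (allT_spec (p := fun x => decide (tauI (tauF x) = x)) (by decide +kernel) x)
  right_inv x := of_decide_eq_true (allT_spec (p := fun x => decide (tauF (tauI x) = x)) (by decide +kernel) x)
  map_mul' x y := of_decide_eq_true (allT_spec (allT_spec
    (p := fun x => allT fun y => decide (tauF (x * y) = tauF x * tauF y)) (by decide +kernel) x) y)

theorem tau_pow (n : ℕ) (x : T64) : (tau ^ n) x = tauF^[n] x := by
  induction n with
  | zero => rfl
  | succ n ih => rw [pow_succ', Function.iterate_succ_apply', ← ih]; rfl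

theorem tau15 : tau ^ 15 = 1 := MulEquiv.ext fun x => by
  rw [tau_pow]
  exact of_decide_eq_true (allT_spec (p := fun x => decide (tauF^[15] x = x)) (by decide +kernel) x)

def z1 : T64 := mk 16
def z2 : T64 := mk 32
def z3 : T64 := mk 48
/-- `u0 * u0 = z1` -/
def u0 : T64 := mk 1

theorem sq_eq_one {x : T64} (h : x * x = 1) : x = 1 ∨ x = z1 ∨ x = z2 ∨ x = z3 := by
  have := allT_spec (p := fun x => decide (x * x = 1 → x = 1 ∨ x = z1 ∨ x = z2 ∨ x = z3)) (by decide +kernel) x
  exact of_decide_eq_true this h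

theorem central {x : T64} (h : x * x = 1) (y : T64) : x * y = y * x := by
  have := allT_spec (allT_spec (p := fun x => allT fun y => decide (x * x = 1 → x * y = y * x))
    (by decide +kernel) x) y
  exact of_decide_eq_true this h

theorem pow_four (x : T64) : x * x * (x * x) = 1 :=
  of_decide_eq_true (allT_spec (p := fun x => decide (x * x * (x * x) = 1)) (by decide +kernel) x)

/-- the action of the group of order 5 -/
def phi5 : Multiplicative (ZMod 5) →* MulAut T64 := MonoidHom.mk' (fun i => tau ^ (3 * i.toAdd.val)) fun a b => by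
  rw [toAdd_mul, ZMod.val_add, ← pow_add, ← Nat.mul_add]
  conv_rhs => rw [← Nat.mod_add_div (a.toAdd.val + b.toAdd.val) 5, Nat.mul_add, pow_add, ← Nat.mul_assoc,
    pow_mul _ (3 * 5), tau15, one_pow, mul_one]

theorem phi5_apply (i : Multiplicative (ZMod 5)) (x : T64) : phi5 i x = tauF^[3 * i.toAdd.val] x := tau_pow _ x

/-- `C(z) / O(C(z))`, of order 320 -/
abbrev Q := T64 ⋊[phi5] Multiplicative (ZMod 5)

/-- `ι` is onto a Sylow 2-subgroup `T`, `h` acts on it as `tau ^ m` (`m = 1` or `5`), and `N(T)` acts on `T / Z(T)`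
as `⟨tau ^ m⟩` -/
structure Fus {G : Type*} [Group G] (ι : T64 →* G) (h : G) (m : ℕ) : Prop where
  inj : Function.Injective ι
  odd : Odd ι.range.index
  hodd : Odd (orderOf h)
  conj : ∀ t, h * ι t * h⁻¹ = ι ((tau ^ m) t)
  norm : ∀ g ∈ Subgroup.normalizer (ι.range : Set G), ∃ j : ℕ, ∀ t, ∃ c, c * c = 1 ∧
    g * ι t * g⁻¹ = ι ((tau ^ (m * j)) t * c)

theorem mem_cent {G : Type*} [Group G] (ι : T64 →* G) (t : T64) : ι t ∈ Subgroup.centralizer ({ι z1} : Set G) :=
  Subgroup.mem_centralizer_singleton_iff.2 (by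
    rw [← map_mul, ← map_mul, central (x := z1) (by decide +kernel)])

/-- `ι` as a map to `C(z)` -/
def iC {G : Type*} [Group G] (ι : T64 →* G) : T64 →* Subgroup.centralizer ({ι z1} : Set G) :=
  ι.codRestrict _ (mem_cent ι)

/-- case `|N(T) : T C(T)| = 15`: `C(z) / O(C(z)) = Q` -/
structure Pi15 {G : Type*} [Group G] (ι : T64 →* G) (π : Subgroup.centralizer ({ι z1} : Set G) →* Q) : Prop where
  surj : Function.Surjective π
  odd : Odd (Nat.card π.ker)
  on : ∀ t, π (iC ι t) = SemidirectProduct.inl t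

/-- case `|N(T) : T C(T)| = 3`: `C(z) / O(C(z)) = T` -/
structure Pi3 {G : Type*} [Group G] (ι : T64 →* G) (π : Subgroup.centralizer ({ι z1} : Set G) →* T64) : Prop where
  odd : Odd (Nat.card π.ker)
  on : ∀ t, π (iC ι t) = t

end CA.Ly

theorem CA.realizeEqns_Ly_Base : True := by
  have := @CA.Ly.tauF.eq_1
  have := @CA.Ly.tauF.eq_def
  have := @CA.Ly.tauF.congr_simp
  have := @CA.Ly.z1.eq_1
  have := @CA.Ly.z1.eq_def
  have := @CA.Ly.z1.congr_simp
  have := @CA.Ly.TT.eq_1
  have := @CA.Ly.TT.eq_def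
  have := @CA.Ly.TT.congr_simp
  have := @CA.Ly.IT.eq_1
  have := @CA.Ly.IT.eq_def
  have := @CA.Ly.IT.congr_simp
  have := @CA.Ly.tauI.eq_1
  have := @CA.Ly.tauI.eq_def
  have := @CA.Ly.tauI.congr_simp
  have := @CA.Ly.Q.eq_1
  have := @CA.Ly.Q.eq_def
  have := @CA.Ly.Q.congr_simp
  have := @CA.Ly.tau.eq_1
  have := @CA.Ly.tau.eq_def
  have := @CA.Ly.tau.congr_simp
  have := @CA.Ly.TI.eq_1
  have := @CA.Ly.TI.eq_def
  have := @CA.Ly.TI.congr_simp
  have := @CA.Ly.allT.eq_1
  have := @CA.Ly.allT.eq_def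
  have := @CA.Ly.allT.congr_simp
  have := @CA.Ly.u0.eq_1
  have := @CA.Ly.u0.eq_def
  have := @CA.Ly.u0.congr_simp
  have := @CA.Ly.z3.eq_1
  have := @CA.Ly.z3.eq_def
  have := @CA.Ly.z3.congr_simp
  have := @CA.Ly.BT.eq_1
  have := @CA.Ly.BT.eq_def
  have := @CA.Ly.BT.congr_simp
  have := @CA.Ly.iC.eq_1.{0}
  have := @CA.Ly.iC.eq_def.{0}
  have := @CA.Ly.iC.congr_simp.{0}
  have := @CA.Ly.mulN.eq_1
  have := @CA.Ly.mulN.eq_def
  have := @CA.Ly.mulN.congr_simp
  have := @CA.Ly.mk.eq_1
  have := @CA.Ly.mk.eq_def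
  have := @CA.Ly.mk.congr_simp
  have := @CA.Ly.T64.eqv.eq_1
  have := @CA.Ly.T64.eqv.eq_def
  have := @CA.Ly.T64.eqv.congr_simp
  have := @CA.Ly.phi5.eq_1
  have := @CA.Ly.phi5.eq_def
  have := @CA.Ly.phi5.congr_simp
  have := @CA.Ly.z2.eq_1
  have := @CA.Ly.z2.eq_def
  have := @CA.Ly.z2.congr_simp
  trivial
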