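/-
Lyons' theorem: the arithmetic data read off from the principal 2-block.
-/
import Cfsg.Agent.Ly.Base

set_option autoImplicit false

namespace CA.Ly

/-- the value at the involution -/
def zeta {I : Type*} (a : I → ℤ) (b : Fin 5 → I → ℤ) (i : I) : ℤ := 4 * ∑ k, b k i - 5 * a i

structure Ar {I : Type*} [Fintype I] (a : I → ℤ) (b : Fin 5 → I → ℤ) (d ν : I → ℤ) (σ : Equiv.Perm I) (o : I)
    (s : ℚ) : Prop where
  aa : ∑ i, a i * a i = 16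
  ab : ∀ k, ∑ i, a i * b k i = 4
  bb : ∀ k l, ∑ i, b k i * b l i = if k = l then 5 else 1
  oa : a o = -1
  ob : ∀ k, b k o = if k = 0 then -1 else 0
  od : d o = 1
  on : ν o = 1
  d1 : ∀ i, i ≠ o → 1 < d i
  dz : ∀ i, i ≠ o → |zeta a b i| < d i
  dv : ∀ i, 64 ∣ d i + 3 * zeta a b i - 60 * a i
  n1 : ∀ i, 0 ≤ d i + 3 * zeta a b i - 60 * a i
  n2 : ∀ i, 0 ≤ d i + 3 * zeta a b i + 4 * a i
  sa : ∀ i, a (σ i) = a i
  sd : ∀ i, d (σ i) = d i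
  sn : ∀ i, ν (σ i) = ν i
  sb : ∀ k i, b k (σ i) = b (2 * k) i
  la : ∑ i, a i * d i = 0
  lb : ∀ k, ∑ i, b k i * d i = 0
  ra : ∑ i, (a i * zeta a b i ^ 2 / d i : ℚ) = 0
  rb : ∀ k, ∑ i, (b k i * zeta a b i ^ 2 / d i : ℚ) = s
  sp : 0 < s
  fa : ∑ i, ν i * a i = 0
  fb : ∀ k, ∑ i, ν i * b k i = 1
  nu : ∀ i, ν i = 0 ∨ ν i = 1 ∨ ν i = -1
  nr : ∀ i, ν i ≠ 0 → b 1 i = b 4 i ∧ b 2 i = b 3 i
  p1 : ∀ i, ν i = 1 → 2 ∣ a i - ∑ k, b k i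
  p2 : ∀ i, ν i = -1 → 2 ∣ a i

/-- the statement of package AR -/
def ArMain.{u} : Prop := ∀ (I : Type u) [Fintype I] (a : I → ℤ) (b : Fin 5 → I → ℤ) (d ν : I → ℤ) (σ : Equiv.Perm I) (o : I)
  (s : ℚ), Ar a b d ν σ o s → s = 32 / 195 ∧ ∃ i, d i = 12 ∧ zeta a b i = -4

end CA.Ly

theorem CA.realizeEqns_Ly_ArDef : True := by
  have := @CA.Ly.ArMain.eq_1.{0}
  have := @CA.Ly.ArMain.eq_def.{0}
  have := @CA.Ly.ArMain.congr_simp.{0}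
  have := @CA.Ly.zeta.eq_1.{0}
  have := @CA.Ly.zeta.eq_def.{0}
  have := @CA.Ly.zeta.congr_simp.{0}
  trivial
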