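/-
Lyons' theorem, package AR: the checker (branch and bound on the degrees) and its soundness.
-/
import Cfsg.Agent.Ly.ArDef

set_option autoImplicit false

namespace CA.Ly

/-- a row `(a; b₀, …, b₄)` -/
structure Rw where
  a : ℤ
  b0 : ℤ
  b1 : ℤ
  b2 : ℤ
  b3 : ℤ
  b4 : ℤ

def Rw.eqb (r s : Rw) : Bool := r.a == s.a && r.b0 == s.b0 && r.b1 == s.b1 && r.b2 == s.b2 && r.b3 == s.b3 && r.b4 == s.b4

theorem Rw.eq_of {r s : Rw} (h : r.eqb s = true) : r = s := by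
  cases r; cases s; simp [Rw.eqb] at h; simp [h]

def Rw.sig (r : Rw) : Rw := ⟨r.a, r.b0, r.b2, r.b4, r.b1, r.b3⟩
def Rw.key (r : Rw) : ℤ := ((r.b1 * 8 + r.b2) * 8 + r.b3) * 8 + r.b4

/-- the length of the Galois orbit for its largest member, else `0` -/
def Rw.w (r : Rw) : ℕ :=
  if r.sig.key ≤ r.key ∧ r.sig.sig.key ≤ r.key ∧ r.sig.sig.sig.key ≤ r.key then
    if r.sig.key = r.key then 1 else if r.sig.sig.key = r.key then 2 else 4 else 0

def Rw.z (r : Rw) : ℤ := 4 * (r.b0 + r.b1 + r.b2 + r.b3 + r.b4) - 5 * r.a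
def Rw.A (r : Rw) : ℤ := r.w * (4 * r.a)
def Rw.B (r : Rw) : ℤ := r.w * (4 * r.b0)
def Rw.C (r : Rw) : ℤ := r.w * (r.b1 + r.b2 + r.b3 + r.b4)
def Rw.lb (r : Rw) : ℤ := max (max 2 (|r.z| + 1)) (max (60 * r.a - 3 * r.z) (-4 * r.a - 3 * r.z))
def Rw.fst (r : Rw) : ℤ := r.lb + (60 * r.a - 3 * r.z - r.lb) % 64

/-- a row with its degree and indicator -/
structure En where
  r : Rw
  d : ℤ
  ν : ℤ

structure En.Loc (e : En) : Prop where
  lb : e.r.lb ≤ e.d
  dv : 64 ∣ e.d + 3 * e.r.z - 60 * e.r.a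
  nu : e.ν = 0 ∨ e.ν = 1 ∨ e.ν = -1
  nr : e.ν ≠ 0 → e.r.b1 = e.r.b4 ∧ e.r.b2 = e.r.b3
  p1 : e.ν = 1 → 2 ∣ e.r.a - (e.r.b0 + e.r.b1 + e.r.b2 + e.r.b3 + e.r.b4)
  p2 : e.ν = -1 → 2 ∣ e.r.a

structure Eqs (M : Multiset En) (s : ℚ) : Prop where
  loc : ∀ e ∈ M, e.Loc
  l1 : (M.map fun e => e.r.A * e.d).sum = 4
  l2 : (M.map fun e => e.r.B * e.d).sum = 4
  l3 : (M.map fun e => e.r.C * e.d).sum = 0
  r1 : (M.map fun e => (e.r.A * e.r.z ^ 2 / e.d : ℚ)).sum = 4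
  r2 : (M.map fun e => (e.r.B * e.r.z ^ 2 / e.d : ℚ)).sum = 4 * s + 4
  r3 : (M.map fun e => (e.r.C * e.r.z ^ 2 / e.d : ℚ)).sum = 4 * s
  sp : 0 < s
  f1 : (M.map fun e => e.ν * e.r.A).sum = 4
  f2 : (M.map fun e => e.ν * e.r.B).sum = 8
  f3 : (M.map fun e => e.ν * e.r.C).sum = 4

def Concl (M : Multiset En) (s : ℚ) : Prop := s = 32 / 195 ∧ ∃ e ∈ M, e.d = 12 ∧ e.r.z = -4

/-- what is known of an entry: its degree is `M`, or at least `M` -/
structure Sl where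
  A : ℤ
  B : ℤ
  C : ℤ
  z : ℤ
  M : ℤ
  fx : Bool

structure Mt (e : En) (s : Sl) : Prop where
  A : e.r.A = s.A
  B : e.r.B = s.B
  C : e.r.C = s.C
  z : e.r.z = s.z
  pos : 0 < s.M
  le : s.M ≤ e.d
  dv : 64 ∣ e.d - s.M
  eq : s.fx = true → e.d = s.M

def lgo (c : ℤ × ℤ × ℤ) : List Sl → ℤ → Bool
  | [], n => decide (4 * c.1 + 4 * c.2.1 < n)
  | s :: S, n => (s.fx || decide (0 ≤ c.1 * s.A + c.2.1 * s.B + c.2.2 * s.C)) &&
      lgo c S (n + (c.1 * s.A + c.2.1 * s.B + c.2.2 * s.C) * s.M)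

theorem lgo_sound (c : ℤ × ℤ × ℤ) {L : List En} {S : List Sl} (h : List.Forall₂ Mt L S) : ∀ n x : ℤ, n ≤ x →
    lgo c S n = true → 4 * c.1 + 4 * c.2.1 < x + (c.1 * (L.map fun e => e.r.A * e.d).sum +
      c.2.1 * (L.map fun e => e.r.B * e.d).sum + c.2.2 * (L.map fun e => e.r.C * e.d).sum) := by
  induction h with
  | nil => intro n x h1 h2; simp [lgo] at h2 ⊢; omega
  | @cons e s _ _ m _ ih =>
    intro n x h1 h2
    simp only [lgo, Bool.and_eq_true, Bool.or_eq_true, decide_eq_true_eq] at h2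
    have := ih _ (x + (c.1 * s.A + c.2.1 * s.B + c.2.2 * s.C) * e.d) (by
      rcases h2.1 with h | h
      · rw [m.eq h]; omega
      · have := mul_le_mul_of_nonneg_left m.le h; omega) h2.2
    simp only [List.map_cons, List.sum_cons, m.A, m.B, m.C]
    linarith

def rk (c : ℤ × ℤ × ℤ) (s : Sl) : ℤ := (c.1 * s.A + c.2.1 * (s.B - s.C) + c.2.2 * s.C) * (s.z * s.z)

def rgo (c : ℤ × ℤ × ℤ) : List Sl → ℤ → ℤ → Bool → Bool
  | [], n, d, f => decide (n < (4 * c.1 + 4 * c.2.1) * d) || (f && decide (n ≤ (4 * c.1 + 4 * c.2.1) * d))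
  | s :: S, n, d, f => if s.fx || decide (0 ≤ rk c s) then rgo c S (n * s.M + rk c s * d) (d * s.M) f
      else rgo c S n d true

theorem rgo_sound (c : ℤ × ℤ × ℤ) {L : List En} {S : List Sl} (h : List.Forall₂ Mt L S) : ∀ (n d : ℤ) (f : Bool) (x : ℚ),
    0 < d → x ≤ n / d → (f = true → x < n / d) → rgo c S n d f = true →
    x + (c.1 * (L.map fun e => (e.r.A * e.r.z ^ 2 / e.d : ℚ)).sum +
      c.2.1 * ((L.map fun e => (e.r.B * e.r.z ^ 2 / e.d : ℚ)).sum - (L.map fun e => (e.r.C * e.r.z ^ 2 / e.d : ℚ)).sum) +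
      c.2.2 * (L.map fun e => (e.r.C * e.r.z ^ 2 / e.d : ℚ)).sum) < 4 * c.1 + 4 * c.2.1 := by
  induction h with
  | nil =>
    intro n d f x h0 h1 h2 h3
    have h0' : (0 : ℚ) < d := by exact_mod_cast h0
    simp only [rgo, Bool.or_eq_true, Bool.and_eq_true, decide_eq_true_eq] at h3
    simp only [List.map_nil, List.sum_nil, mul_zero, sub_zero, add_zero]
    rcases h3 with h | h
    · exact h1.trans_lt ((div_lt_iff₀ h0').2 (by exact_mod_cast h))
    · exact (h2 h.1).trans_le ((div_le_iff₀ h0').2 (by exact_mod_cast h.2))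
  | @cons e s _ _ m _ ih =>
    intro n d f x h0 h1 h2 h3
    have h0' : (0 : ℚ) < d := by exact_mod_cast h0
    have hM : (0 : ℚ) < s.M := by exact_mod_cast m.pos
    have hd : (s.M : ℚ) ≤ e.d := by exact_mod_cast m.le
    have key := fun n' d' f' => ih n' d' f' (x + rk c s / e.d)
    simp only [List.map_cons, List.sum_cons, m.A, m.B, m.C, m.z]
    rw [rgo] at h3
    split_ifs at h3 with h
    · have h4 : (rk c s : ℚ) / e.d ≤ rk c s / s.M := by
        rcases Bool.or_eq_true _ _ ▸ h with h | h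
        · rw [m.eq h]
        · exact div_le_div_of_nonneg_left (by exact_mod_cast of_decide_eq_true h) hM hd
      have h5 : ((n * s.M + rk c s * d : ℤ) : ℚ) / (d * s.M : ℤ) = n / d + rk c s / s.M := by push_cast; field_simp
      refine lt_of_eq_of_lt ?_ (key _ _ f (mul_pos h0 m.pos) (by rw [h5]; linarith) (fun e => by
        rw [h5]; linarith [h2 e]) h3)
      simp only [rk]; push_cast; ring
    · have h4 : (rk c s : ℚ) / e.d < 0 := div_neg_of_neg_of_pos (by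
        simp only [Bool.or_eq_true, decide_eq_true_eq, not_or, not_le] at h; exact_mod_cast h.2) (hM.trans_le hd)
      refine lt_of_eq_of_lt ?_ (key _ _ true h0 (by linarith) (fun _ => by linarith) h3)
      simp only [rk]; push_cast; ring

def upd (g : Sl → Sl) : ℕ → List Sl → List Sl
  | _, [] => []
  | 0, s :: S => g s :: S
  | j + 1, s :: S => s :: upd g j S

def Sl.fix (s : Sl) : Sl := ⟨s.A, s.B, s.C, s.z, s.M, true⟩
def Sl.inc (s : Sl) : Sl := ⟨s.A, s.B, s.C, s.z, s.M + 64, false⟩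

theorem upd_sound {L : List En} {S : List Sl} (h : List.Forall₂ Mt L S) (j : ℕ) :
    List.Forall₂ Mt L (upd Sl.fix j S) ∨ List.Forall₂ Mt L (upd Sl.inc j S) := by
  induction h generalizing j with
  | nil => cases j <;> exact Or.inl .nil
  | @cons e s _ _ m t ih =>
    cases j with
    | zero =>
      have := m.le; have := m.dv; have := m.pos
      by_cases h : e.d = s.M
      · exact Or.inl (.cons ⟨m.A, m.B, m.C, m.z, m.pos, m.le, m.dv, fun _ => h⟩ t)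
      · exact Or.inr (.cons ⟨m.A, m.B, m.C, m.z, by simp only [Sl.inc]; omega, by simp only [Sl.inc]; omega,
          by simp only [Sl.inc]; omega, fun h => by simp [Sl.inc] at h⟩ t)
    | succ j => exact (ih j).imp (.cons m) (.cons m)

/-- the slot to branch on -/
def pick : List Sl → ℕ → ℕ → ℤ → ℤ → ℕ
  | [], _, b, _, _ => b
  | s :: S, j, b, k, M =>
    if !s.fx && decide (k * s.M < s.z * s.z * max |s.A| (max |s.B - s.C| |s.C|) * M) then
      pick S (j + 1) j (s.z * s.z * max |s.A| (max |s.B - s.C| |s.C|)) s.M else pick S (j + 1) b k M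

def fin (S : List Sl) : Bool := S.all (·.fx) &&
  decide ((S.map fun s => (s.C * s.z ^ 2 / s.M : ℚ)).sum = 128 / 195) && S.any fun s => s.M == 12 && s.z == -4

def bb (lin rec : List (ℤ × ℤ × ℤ)) : ℕ → List Sl → Bool
  | 0, _ => false
  | n + 1, S => (rec.any fun c => decide (0 ≤ c.2.2) && rgo c S 0 1 (decide (0 < c.2.2))) || (lin.any fun c => lgo c S 0) ||
      fin S || (bb lin rec n (upd Sl.fix (pick S 0 0 0 1) S) && bb lin rec n (upd Sl.inc (pick S 0 0 0 1) S))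

theorem fin_sound {L : List En} {s : ℚ} (H : Eqs L s) {S : List Sl} (h : List.Forall₂ Mt L S) (hf : fin S = true) :
    Concl L s := by
  simp only [fin, Bool.and_eq_true, List.all_eq_true, decide_eq_true_eq, List.any_eq_true, beq_iff_eq] at hf
  obtain ⟨⟨h1, h2⟩, t, ht, h3⟩ := hf
  have h4 := H.r3
  rw [Multiset.map_coe, Multiset.sum_coe] at h4
  have : ((L.map fun e => (e.r.C * e.r.z ^ 2 / e.d : ℚ)) = S.map fun s => (s.C * s.z ^ 2 / s.M : ℚ)) ∧
      ∀ t ∈ S, ∃ e ∈ L, e.d = t.M ∧ e.r.z = t.z := by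
    clear h2 h4 ht H
    induction h with
    | nil => simp
    | @cons e s _ _ m _ ih =>
      obtain ⟨i1, i2⟩ := ih fun x hx => h1 x (List.mem_cons_of_mem _ hx)
      have := m.eq (h1 s List.mem_cons_self)
      refine ⟨by simp [i1, this, m.C, m.z], fun t ht => ?_⟩
      rcases List.mem_cons.1 ht with rfl | ht
      · exact ⟨e, List.mem_cons_self, this, m.z⟩
      · obtain ⟨e', a, b⟩ := i2 t ht
        exact ⟨e', List.mem_cons_of_mem _ a, b⟩
  obtain ⟨e, he, a, b⟩ := this.2 t ht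
  exact ⟨by rw [this.1, h2] at h4; linarith, e, he, a.trans h3.1, b.trans h3.2⟩

theorem bb_sound {lin rec : List (ℤ × ℤ × ℤ)} {L : List En} {s : ℚ} (H : Eqs L s) (n : ℕ) :
    ∀ S, List.Forall₂ Mt L S → bb lin rec n S = true → Concl L s := by
  induction n with
  | zero => intro S _ h; simp [bb] at h
  | succ n ih =>
    intro S h hb
    simp only [bb, Bool.or_eq_true, List.any_eq_true, Bool.and_eq_true, decide_eq_true_eq] at hb
    rcases hb with ((⟨c, -, c0, hc⟩ | ⟨c, -, hc⟩) | hb) | hb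
    · have c0' : (0 : ℚ) ≤ c.2.2 := by exact_mod_cast c0
      have := H.sp
      have := rgo_sound c h 0 1 _ (-(c.2.2 * (4 * s))) one_pos (by simp; positivity) (fun e => by
        have : (0 : ℚ) < c.2.2 := by exact_mod_cast of_decide_eq_true e
        simp; positivity) hc
      have h1 := H.r1; have h2 := H.r2; have h3 := H.r3
      rw [Multiset.map_coe, Multiset.sum_coe] at h1 h2 h3
      rw [h1, h2, h3] at this
      linarith
    · have := lgo_sound c h 0 0 le_rfl hc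
      have h1 := H.l1; have h2 := H.l2; have h3 := H.l3
      rw [Multiset.map_coe, Multiset.sum_coe] at h1 h2 h3
      rw [h1, h2, h3] at this
      omega
    · exact fin_sound H h hb
    · exact (upd_sound h _).elim (fun h => ih _ h hb.1) fun h => ih _ h hb.2

/-- a row with its precomputed data -/
structure Dt where
  r : Rw
  A : ℤ
  B : ℤ
  C : ℤ
  z : ℤ
  f : ℤ
  p : Bool
  m : Bool

def Dt.ok (x : Dt) : Bool := x.r.A == x.A && x.r.B == x.B && x.r.C == x.C && x.r.z == x.z && x.r.fst == x.f &&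
  (x.p || !(x.r.b1 == x.r.b4 && x.r.b2 == x.r.b3 && (x.r.a - (x.r.b0 + x.r.b1 + x.r.b2 + x.r.b3 + x.r.b4)) % 2 == 0)) &&
  (x.m || !(x.r.b1 == x.r.b4 && x.r.b2 == x.r.b3 && x.r.a % 2 == 0))

def Dt.sl (x : Dt) : Sl := ⟨x.A, x.B, x.C, x.z, x.f, false⟩

theorem Dt.mt {x : Dt} (h : x.ok = true) {e : En} (l : e.Loc) (he : e.r = x.r) :
    Mt e x.sl ∧ (e.ν = 1 → x.p = true) ∧ (e.ν = -1 → x.m = true) := by
  simp only [Dt.ok, Bool.and_eq_true, beq_iff_eq, Bool.or_eq_true, Bool.not_eq_true', Bool.and_eq_false_iff,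
    beq_eq_false_iff_ne, ← he] at h
  obtain ⟨⟨⟨⟨⟨⟨h1, h2⟩, h3⟩, h4⟩, h5⟩, h6⟩, h7⟩ := h
  have := l.lb; have := l.dv
  have : 2 ≤ e.r.lb := le_max_of_le_left (le_max_left _ _)
  refine ⟨⟨h1, h2, h3, h4, ?_, ?_, ?_, fun h => by simp [Dt.sl] at h⟩, fun e1 => h6.resolve_right ?_,
    fun e1 => h7.resolve_right ?_⟩
  iterate 3 simp only [Dt.sl, ← h5, Rw.fst]; omega
  · have := l.nr (by omega); have := l.p1 e1; omega
  · have := l.nr (by omega); have := l.p2 e1; omega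

/-- the entry has one of the two rows -/
def Pm (e : En) (p : Dt × Dt) : Prop := p.1.ok = true ∧ p.2.ok = true ∧ (e.r = p.1.r ∨ e.r = p.2.r)

def sgn (lin rec : List (ℤ × ℤ × ℤ)) : List (Dt × Dt) → List Sl → Bool
  | [], S => bb lin rec 40 S
  | p :: P, S => sgn lin rec P (p.1.sl :: S) && (p.1.r.eqb p.2.r || sgn lin rec P (p.2.sl :: S))

theorem sgn_sound {lin rec : List (ℤ × ℤ × ℤ)} {M : Multiset En} {s : ℚ} (H : Eqs M s) {L : List En} {P : List (Dt × Dt)}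
    (h : List.Forall₂ Pm L P) : ∀ (L' : List En) (S : List Sl), M = ↑(L ++ L') → List.Forall₂ Mt L' S →
      sgn lin rec P S = true → Concl M s := by
  induction h with
  | nil => rintro L' S rfl h hb; exact bb_sound H _ S h hb
  | @cons e p L _ m _ ih =>
    intro L' S hM h hb
    simp only [sgn, Bool.and_eq_true, Bool.or_eq_true] at hb
    have hM' : M = ↑(L ++ e :: L') := hM.trans (Multiset.coe_eq_coe.2 List.perm_middle.symm)
    have l := H.loc e (hM ▸ Multiset.mem_coe.2 List.mem_cons_self)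
    rcases m.2.2 with a | a
    · exact ih _ _ hM' (.cons (Dt.mt m.1 l a).1 h) hb.1
    · rcases hb.2 with b | b
      · exact ih _ _ hM' (.cons (Dt.mt m.1 l (a.trans (Rw.eq_of b).symm)).1 h) hb.1
      · exact ih _ _ hM' (.cons (Dt.mt m.2.1 l a).1 h) b

def nus (lin rec : List (ℤ × ℤ × ℤ)) : List (Dt × Dt) → List (Dt × Dt) → ℤ → ℤ → ℤ → Bool
  | [], P, x, y, z => !(x == 4 && y == 8 && z == 4) || sgn lin rec P []
  | p :: T, P, x, y, z => nus lin rec T (p :: P) x y z &&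
      (!p.1.p || nus lin rec T ((p.1, p.1) :: P) (x + p.1.A) (y + p.1.B) (z + p.1.C)) &&
      (!p.1.m || nus lin rec T ((p.1, p.1) :: P) (x - p.1.A) (y - p.1.B) (z - p.1.C)) &&
      (!p.2.p || nus lin rec T ((p.2, p.2) :: P) (x + p.2.A) (y + p.2.B) (z + p.2.C)) &&
      (!p.2.m || nus lin rec T ((p.2, p.2) :: P) (x - p.2.A) (y - p.2.B) (z - p.2.C))

theorem nus_sound {lin rec : List (ℤ × ℤ × ℤ)} {M : Multiset En} {s : ℚ} (H : Eqs M s) {L : List En} {T : List (Dt × Dt)}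
    (h : List.Forall₂ Pm L T) : ∀ (L' : List En) (P : List (Dt × Dt)) (x y z : ℤ), M = ↑(L ++ L') → List.Forall₂ Pm L' P →
      (L'.map fun e => e.ν * e.r.A).sum = x → (L'.map fun e => e.ν * e.r.B).sum = y →
      (L'.map fun e => e.ν * e.r.C).sum = z → nus lin rec T P x y z = true → Concl M s := by
  induction h with
  | nil =>
    rintro L' P x y z rfl h rfl rfl rfl hb
    have h1 := H.f1; have h2 := H.f2; have h3 := H.f3
    rw [Multiset.map_coe, Multiset.sum_coe, List.nil_append] at h1 h2 h3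
    simp only [nus, h1, h2, h3] at hb
    exact sgn_sound H h [] [] (by simp) .nil hb
  | @cons e p L _ m _ ih =>
    rintro L' P x y z hM h rfl rfl rfl hb
    simp only [nus, Bool.and_eq_true, Bool.or_eq_true, Bool.not_eq_true'] at hb
    obtain ⟨⟨⟨⟨b0, b1⟩, b2⟩, b3⟩, b4⟩ := hb
    have hM' : M = ↑(L ++ e :: L') := hM.trans (Multiset.coe_eq_coe.2 List.perm_middle.symm)
    have l := H.loc e (hM ▸ Multiset.mem_coe.2 List.mem_cons_self)
    rcases l.nu with n | n | n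
    · exact ih _ _ _ _ _ hM' (.cons m h) (by simp [n]) (by simp [n]) (by simp [n]) b0
    · rcases m.2.2 with a | a
      · obtain ⟨t, t1, -⟩ := Dt.mt m.1 l a
        exact ih _ _ _ _ _ hM' (.cons (b := (p.1, p.1)) ⟨m.1, m.1, Or.inl a⟩ h) (by simp [n, t.A, Dt.sl, add_comm])
          (by simp [n, t.B, Dt.sl, add_comm]) (by simp [n, t.C, Dt.sl, add_comm]) (b1.resolve_left (by simp [t1 n]))
      · obtain ⟨t, t1, -⟩ := Dt.mt m.2.1 l a
        exact ih _ _ _ _ _ hM' (.cons (b := (p.2, p.2)) ⟨m.2.1, m.2.1, Or.inl a⟩ h) (by simp [n, t.A, Dt.sl, add_comm])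
          (by simp [n, t.B, Dt.sl, add_comm]) (by simp [n, t.C, Dt.sl, add_comm]) (b3.resolve_left (by simp [t1 n]))
    · rcases m.2.2 with a | a
      · obtain ⟨t, -, t1⟩ := Dt.mt m.1 l a
        exact ih _ _ _ _ _ hM' (.cons (b := (p.1, p.1)) ⟨m.1, m.1, Or.inl a⟩ h) (by simp [n, t.A, Dt.sl]; ring)
          (by simp [n, t.B, Dt.sl]; ring) (by simp [n, t.C, Dt.sl]; ring) (b2.resolve_left (by simp [t1 n]))
      · obtain ⟨t, -, t1⟩ := Dt.mt m.2.1 l a
        exact ih _ _ _ _ _ hM' (.cons (b := (p.2, p.2)) ⟨m.2.1, m.2.1, Or.inl a⟩ h) (by simp [n, t.A, Dt.sl]; ring)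
          (by simp [n, t.B, Dt.sl]; ring) (by simp [n, t.C, Dt.sl]; ring) (b4.resolve_left (by simp [t1 n]))

end CA.Ly

theorem CA.realizeEqns_Ly_ArA : True := by
  have := @CA.Ly.bb.eq_1
  have := @CA.Ly.bb.eq_2
  have := @CA.Ly.bb.eq_def
  have := @CA.Ly.bb.congr_simp
  have := @CA.Ly.sgn.eq_1
  have := @CA.Ly.sgn.eq_2
  have := @CA.Ly.sgn.eq_def
  have := @CA.Ly.sgn.congr_simp
  have := @CA.Ly.pick.eq_1
  have := @CA.Ly.pick.eq_2
  have := @CA.Ly.pick.eq_def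
  have := @CA.Ly.pick.congr_simp
  have := @CA.Ly.Rw.key.eq_1
  have := @CA.Ly.Rw.key.eq_def
  have := @CA.Ly.Rw.key.congr_simp
  have := @CA.Ly.Pm.eq_1
  have := @CA.Ly.Pm.eq_def
  have := @CA.Ly.Pm.congr_simp
  have := @CA.Ly.lgo.eq_1
  have := @CA.Ly.lgo.eq_2
  have := @CA.Ly.lgo.eq_def
  have := @CA.Ly.lgo.congr_simp
  have := @CA.Ly.Dt.sl.eq_1
  have := @CA.Ly.Dt.sl.eq_def
  have := @CA.Ly.Dt.sl.congr_simp
  have := @CA.Ly.rk.eq_1
  have := @CA.Ly.rk.eq_def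
  have := @CA.Ly.rk.congr_simp
  have := @CA.Ly.Rw.B.eq_1
  have := @CA.Ly.Rw.B.eq_def
  have := @CA.Ly.Rw.B.congr_simp
  have := @CA.Ly.Rw.z.eq_1
  have := @CA.Ly.Rw.z.eq_def
  have := @CA.Ly.Rw.z.congr_simp
  have := @CA.Ly.fin.eq_1
  have := @CA.Ly.fin.eq_def
  have := @CA.Ly.fin.congr_simp
  have := @CA.Ly.Rw.lb.eq_1
  have := @CA.Ly.Rw.lb.eq_def
  have := @CA.Ly.Rw.lb.congr_simp
  have := @CA.Ly.Rw.sig.eq_1
  have := @CA.Ly.Rw.sig.eq_def
  have := @CA.Ly.Rw.sig.congr_simp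
  have := @CA.Ly.Rw.w.eq_1
  have := @CA.Ly.Rw.w.eq_def
  have := @CA.Ly.Rw.w.congr_simp
  have := @CA.Ly.upd.eq_1
  have := @CA.Ly.upd.eq_2
  have := @CA.Ly.upd.eq_3
  have := @CA.Ly.upd.eq_def
  have := @CA.Ly.upd.congr_simp
  have := @CA.Ly.Rw.eqb.eq_1
  have := @CA.Ly.Rw.eqb.eq_def
  have := @CA.Ly.Rw.eqb.congr_simp
  have := @CA.Ly.Rw.A.eq_1
  have := @CA.Ly.Rw.A.eq_def
  have := @CA.Ly.Rw.A.congr_simp
  have := @CA.Ly.Sl.inc.eq_1
  have := @CA.Ly.Sl.inc.eq_def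
  have := @CA.Ly.Sl.inc.congr_simp
  have := @CA.Ly.Sl.fix.eq_1
  have := @CA.Ly.Sl.fix.eq_def
  have := @CA.Ly.Sl.fix.congr_simp
  have := @CA.Ly.Rw.fst.eq_1
  have := @CA.Ly.Rw.fst.eq_def
  have := @CA.Ly.Rw.fst.congr_simp
  have := @CA.Ly.rgo.eq_1
  have := @CA.Ly.rgo.eq_2
  have := @CA.Ly.rgo.eq_def
  have := @CA.Ly.rgo.congr_simp
  have := @CA.Ly.Rw.C.eq_1
  have := @CA.Ly.Rw.C.eq_def
  have := @CA.Ly.Rw.C.congr_simp
  have := @CA.Ly.Dt.ok.eq_1
  have := @CA.Ly.Dt.ok.eq_def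
  have := @CA.Ly.Dt.ok.congr_simp
  have := @CA.Ly.Concl.eq_1
  have := @CA.Ly.Concl.eq_def
  have := @CA.Ly.Concl.congr_simp
  have := @CA.Ly.nus.eq_1
  have := @CA.Ly.nus.eq_2
  have := @CA.Ly.nus.eq_def
  have := @CA.Ly.nus.congr_simp
  trivial
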