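/-
Lyons' theorem, package AR: the enumeration of the solutions of the orthogonality relations.
-/
import Cfsg.Agent.Ly.ArA

set_option autoImplicit false

namespace CA.Ly

def dotr (c r : Rw) : ℤ := c.a * r.a + c.b0 * r.b0 + c.b1 * r.b1 + c.b2 * r.b2 + c.b3 * r.b3 + c.b4 * r.b4

def Fq (r c : Rw) : ℕ := r.w * ((dotr c r).natAbs ^ 2 + (dotr c r.sig).natAbs ^ 2 + (dotr c r.sig.sig).natAbs ^ 2 +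
  (dotr c r.sig.sig.sig).natAbs ^ 2)

structure Ty where
  x : Dt
  y : Dt
  v : List ℕ

def leL : List ℕ → List ℕ → Bool
  | b :: B, a :: A => Nat.ble b a && leL B A
  | _, _ => true

def enum (leaf : List (Dt × Dt) → Bool) : ℕ → List Ty → List ℕ → List (Dt × Dt) → Bool
  | 0, _, _, _ => false
  | _ + 1, [], rem, acc => !(rem.all (· == 0)) || leaf acc
  | n + 1, τ :: T, rem, acc => enum leaf n T rem acc &&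
      (!leL τ.v rem || enum leaf n (τ :: T) (List.zipWith Nat.sub rem τ.v) ((τ.x, τ.y) :: acc))

def Sm (cs : List Rw) (L : Multiset En) (rem : List ℕ) : Prop :=
  List.Forall₂ (fun c x => (L.map fun e => Fq e.r c).sum = x) cs rem

theorem Sm.cons {cs : List Rw} {e : En} {L : Multiset En} {rem : List ℕ} (h : Sm cs (e ::ₘ L) rem) :
    leL (cs.map (Fq e.r)) rem = true ∧ Sm cs L (List.zipWith Nat.sub rem (cs.map (Fq e.r))) := by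
  induction h with
  | nil => exact ⟨rfl, .nil⟩
  | cons h _ ih =>
    rw [Multiset.map_cons, Multiset.sum_cons] at h
    subst h
    exact ⟨by simp [leL, ih.1], List.Forall₂.cons (Nat.add_sub_cancel_left _ _).symm ih.2⟩

theorem Sm.zero {cs : List Rw} {rem : List ℕ} (h : Sm cs 0 rem) : rem.all (· == 0) = true := by
  induction h with
  | nil => rfl
  | cons h _ ih => simp at h; simpa [← h] using ih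

def Ty.ok (cs : List Rw) (τ : Ty) : Bool := τ.x.ok && τ.y.ok && τ.v == cs.map (Fq τ.x.r) && τ.v == cs.map (Fq τ.y.r)

theorem enum_sound {cs : List Rw} {leaf : List (Dt × Dt) → Bool} {M : Multiset En} {C : Prop}
    (hl : ∀ (A : List En) acc, M = ↑A → List.Forall₂ Pm A acc → leaf acc = true → C) (n : ℕ) :
    ∀ (T : List Ty) rem acc (L : Multiset En) (A : List En), (∀ τ ∈ T, τ.ok cs = true) → M = ↑A + L →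
      (∀ e ∈ L, ∃ τ ∈ T, e.r = τ.x.r ∨ e.r = τ.y.r) → Sm cs L rem → List.Forall₂ Pm A acc →
      enum leaf n T rem acc = true → C := by
  induction n with
  | zero => intro T rem acc L A _ _ _ _ _ h; simp [enum] at h
  | succ n ih =>
    intro T rem acc L A ok hM hT hs hA h
    cases T with
    | nil =>
      obtain rfl : L = 0 := Multiset.eq_zero_of_forall_notMem fun e he => by simpa using hT e he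
      simp only [enum, hs.zero] at h
      exact hl A acc (by simpa using hM) hA h
    | cons τ T =>
      simp only [enum, Bool.and_eq_true, Bool.or_eq_true, Bool.not_eq_true'] at h
      by_cases hx : ∃ e ∈ L, e.r = τ.x.r ∨ e.r = τ.y.r
      · obtain ⟨e, he, hr⟩ := hx
        obtain ⟨L, rfl⟩ := Multiset.exists_cons_of_mem he
        have o := ok τ List.mem_cons_self
        simp only [Ty.ok, Bool.and_eq_true, beq_iff_eq] at o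
        have hv : cs.map (Fq e.r) = τ.v := hr.elim (fun a => a ▸ o.1.2.symm) fun a => a ▸ o.2.symm
        obtain ⟨s1, s2⟩ := hs.cons
        rw [hv] at s1 s2
        exact ih _ _ _ L (e :: A) ok (by rw [hM, ← Multiset.cons_coe, Multiset.add_cons, Multiset.cons_add])
          (fun x hx => hT x (Multiset.mem_cons_of_mem hx)) s2 (.cons (b := (τ.x, τ.y)) ⟨o.1.1.1, o.1.1.2, hr⟩ hA)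
          (h.2.resolve_left (by simp [s1]))
      · refine ih T rem acc L A (fun x hx => ok x (List.mem_cons_of_mem _ hx)) hM (fun e he => ?_) hs hA h.1
        obtain ⟨σ, h1, h2⟩ := hT e he
        exact ⟨σ, (List.mem_cons.1 h1).resolve_left fun a => hx ⟨e, he, a ▸ h2⟩, h2⟩

def cs : List Rw := [⟨1, 0, 0, 0, 0, 0⟩, ⟨0, 1, 0, 0, 0, 0⟩, ⟨0, 0, 1, 0, 0, 0⟩, ⟨-1, 4, 0, 0, 0, 0⟩, ⟨-1, 0, 4, 0, 0, 0⟩, ⟨0, 1, -1, 0, 0, 0⟩, ⟨0, 1, 1, 0, 0, 0⟩, ⟨0, 0, 1, -1, 0, 0⟩, ⟨0, 0, 1, 1, 0, 0⟩, ⟨0, 0, 1, 0, 0, -1⟩, ⟨0, 0, 1, 0, 0, 1⟩, ⟨1, -1, 0, 0, 0, 0⟩, ⟨1, 0, -1, 0, 0, 0⟩, ⟨-1, 1, 1, 1, 1, 1⟩, ⟨-1, 0, 1, 1, 1, 1⟩, ⟨0, 0, 1, -1, -1, 1⟩, ⟨-1, 1, 1, 0, 0, 1⟩, ⟨-1, 0, 1, 0, 0, 1⟩, ⟨-1, 0, 1, 1, 0, 0⟩, ⟨-5, 4, 4, 4, 4, 4⟩, ⟨-1, 1, 1, 0, 0, 0⟩, ⟨0, 0, 1, 1,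 1, 1⟩, ⟨-2, 1, 1, 1, 1, 1⟩]

def tgt : List ℕ := [60, 16, 20, 220, 252, 28, 44, 32, 48, 32, 48, 52, 48, 84, 60, 64, 52, 44, 44, 1276, 48, 128, 112]

def TY : List Ty := [
  ⟨⟨⟨1, 0, 1, 1, 1, -1⟩, 16, 0, 8, 3, 51, false, false⟩, ⟨⟨-1, 0, 1, -1, -1, -1⟩, -16, 0, -8, -3, 13, false, false⟩,
    [16, 0, 16, 16, 208, 16, 16, 32, 32, 32, 32, 16, 16, 16, 16, 64, 16, 16, 16, 144, 16, 64, 0]⟩,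
  ⟨⟨⟨1, 0, 2, 0, 0, 0⟩, 16, 0, 8, 3, 51, false, false⟩, ⟨⟨-1, 0, 0, 0, 0, -2⟩, -16, 0, -8, -3, 13, false, false⟩,
    [16, 0, 16, 16, 208, 16, 16, 32, 32, 32, 32, 16, 16, 16, 16, 64, 16, 16, 16, 144, 16, 64, 0]⟩,
  ⟨⟨⟨1, 1, 1, -1, 0, 0⟩, 16, 16, 0, -1, 63, false, false⟩, ⟨⟨-1, -1, 1, 0, -1, 0⟩, -16, -16, 0, 1, 65, false, false⟩,
    [16, 16, 8, 144, 144, 24, 24, 24, 8, 16, 16, 0, 24, 0, 16, 64, 16, 32, 24, 16, 8, 0, 16]⟩,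
  ⟨⟨⟨1, 1, 1, 0, -1, 0⟩, 16, 16, 0, -1, 63, false, false⟩, ⟨⟨-1, -1, 1, -1, 0, 0⟩, -16, -16, 0, 1, 65, false, false⟩,
    [16, 16, 8, 144, 144, 24, 24, 24, 8, 16, 16, 0, 24, 0, 16, 64, 16, 32, 24, 16, 8, 0, 16]⟩,
  ⟨⟨⟨1, 1, 1, 0, 0, -1⟩, 16, 16, 0, -1, 63, false, false⟩, ⟨⟨-1, -1, 1, 0, 0, -1⟩, -16, -16, 0, 1, 65, false, false⟩,
    [16, 16, 8, 144, 144, 24, 24, 16, 16, 32, 0, 0, 24, 0, 16, 0, 0, 16, 32, 16, 8, 0, 16]⟩,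
  ⟨⟨⟨1, 1, 1, 1, 0, 0⟩, 16, 16, 8, 7, 39, false, false⟩, ⟨⟨-1, -1, 0, 0, -1, -1⟩, -16, -16, -8, -7, 25, false, false⟩,
    [16, 16, 8, 144, 80, 8, 40, 8, 24, 16, 16, 0, 8, 64, 16, 0, 16, 0, 8, 784, 8, 64, 16]⟩,
  ⟨⟨⟨1, 0, 1, -1, 0, 0⟩, 16, 0, 0, -5, 75, false, false⟩, ⟨⟨-1, 0, 1, 0, -1, 0⟩, -16, 0, 0, 5, 53, false, false⟩,
    [16, 0, 8, 16, 144, 8, 8, 24, 8, 16, 16, 16, 24, 16, 16, 64, 32, 32, 24, 400, 24, 0, 64]⟩,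
  ⟨⟨⟨1, 0, 1, 0, -1, 0⟩, 16, 0, 0, -5, 75, false, false⟩, ⟨⟨-1, 0, 1, -1, 0, 0⟩, -16, 0, 0, 5, 53, false, false⟩,
    [16, 0, 8, 16, 144, 8, 8, 24, 8, 16, 16, 16, 24, 16, 16, 64, 32, 32, 24, 400, 24, 0, 64]⟩,
  ⟨⟨⟨1, 0, 1, 0, 0, -1⟩, 16, 0, 0, -5, 75, false, false⟩, ⟨⟨-1, 0, 1, 0, 0, -1⟩, -16, 0, 0, 5, 53, false, false⟩,
    [16, 0, 8, 16, 144, 8, 8, 16, 16, 32, 0, 16, 24, 16, 16, 0, 16, 16, 32, 400, 24, 0, 64]⟩,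
  ⟨⟨⟨1, 0, 1, 1, 0, 0⟩, 16, 0, 8, 3, 51, false, false⟩, ⟨⟨-1, 0, 0, 0, -1, -1⟩, -16, 0, -8, -3, 13, false, false⟩,
    [16, 0, 8, 16, 80, 8, 8, 8, 24, 16, 16, 16, 8, 16, 16, 0, 0, 0, 8, 144, 8, 64, 0]⟩,
  ⟨⟨⟨0, 0, 1, 0, -1, 0⟩, 0, 0, 0, 0, 64, false, false⟩, ⟨⟨0, 0, 1, -1, 0, 0⟩, 0, 0, 0, 0, 64, false, false⟩,
    [0, 0, 8, 0, 128, 8, 8, 24, 8, 16, 16, 0, 8, 0, 0, 64, 16, 16, 8, 0, 8, 0, 0]⟩,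
  ⟨⟨⟨0, 0, 1, 0, 0, -1⟩, 0, 0, 0, 0, 64, false, false⟩, ⟨⟨0, 0, 1, 0, 0, -1⟩, 0, 0, 0, 0, 64, false, false⟩,
    [0, 0, 8, 0, 128, 8, 8, 16, 16, 32, 0, 0, 8, 0, 0, 0, 0, 0, 16, 0, 8, 0, 0]⟩,
  ⟨⟨⟨3, 2, 1, 1, 1, 1⟩, 12, 8, 4, 9, 153, false, false⟩, ⟨⟨-3, -2, -1, -1, -1, -1⟩, -12, -8, -4, -9, 39, false, false⟩,
    [36, 16, 4, 100, 4, 4, 36, 0, 16, 0, 16, 4, 16, 36, 4, 0, 4, 4, 4, 324, 0, 64, 0]⟩,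
  ⟨⟨⟨1, 1, 1, 0, 0, 0⟩, 16, 16, 4, 3, 51, false, false⟩, ⟨⟨-1, -1, 0, 0, 0, -1⟩, -16, -16, -4, -3, 13, false, false⟩,
    [16, 16, 4, 144, 48, 12, 28, 8, 8, 8, 8, 0, 12, 16, 0, 16, 8, 8, 8, 144, 4, 16, 0]⟩,
  ⟨⟨⟨2, 2, 1, 1, 1, 1⟩, 8, 8, 4, 14, 78, true, true⟩, ⟨⟨-2, -2, -1, -1, -1, -1⟩, -8, -8, -4, -14, 50, true, true⟩,
    [16, 16, 4, 144, 16, 4, 36, 0, 16, 0, 16, 0, 4, 64, 16, 0, 16, 0, 0, 784, 4, 64, 16]⟩,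
  ⟨⟨⟨2, 1, 1, 0, 0, 1⟩, 16, 8, 4, 2, 114, false, true⟩, ⟨⟨-2, -1, 0, -1, -1, 0⟩, -16, -8, -4, -2, 14, false, true⟩,
    [32, 8, 4, 32, 32, 4, 20, 8, 8, 0, 16, 8, 20, 8, 0, 32, 8, 16, 8, 32, 4, 32, 8]⟩,
  ⟨⟨⟨1, -1, 1, 0, 0, 1⟩, 8, -8, 4, -1, 63, true, false⟩, ⟨⟨-1, 1, 0, -1, -1, 0⟩, -8, 8, -4, 1, 65, true, false⟩,
    [8, 8, 4, 200, 40, 20, 4, 8, 8, 0, 16, 32, 4, 0, 8, 32, 16, 8, 0, 8, 20, 32, 8]⟩,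
  ⟨⟨⟨1, 1, 1, 0, 0, 1⟩, 8, 8, 4, 7, 39, true, false⟩, ⟨⟨-1, -1, 0, -1, -1, 0⟩, -8, -8, -4, -7, 25, true, false⟩,
    [8, 8, 4, 72, 40, 4, 20, 8, 8, 0, 16, 0, 4, 32, 8, 32, 16, 8, 0, 392, 4, 32, 8]⟩,
  ⟨⟨⟨0, 1, 0, -1, -1, 0⟩, 0, 8, -4, -4, 12, false, true⟩, ⟨⟨0, -1, 1, 0, 0, 1⟩, 0, -8, 4, 4, 52, false, true⟩,
    [0, 8, 4, 128, 64, 20, 4, 8, 8, 0, 16, 8, 4, 8, 32, 32, 8, 16, 8, 128, 4, 32, 8]⟩,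
  ⟨⟨⟨0, 1, 1, 0, 0, 1⟩, 0, 8, 4, 12, 28, false, true⟩, ⟨⟨0, -1, 0, -1, -1, 0⟩, 0, -8, -4, -12, 36, false, true⟩,
    [0, 8, 4, 128, 64, 4, 20, 8, 8, 0, 16, 8, 4, 72, 32, 32, 40, 16, 8, 1152, 20, 32, 72]⟩,
  ⟨⟨⟨3, 1, 1, 1, 1, 1⟩, 12, 4, 4, 5, 165, true, false⟩, ⟨⟨-3, -1, -1, -1, -1, -1⟩, -12, -4, -4, -5, 27, true, false⟩,
    [36, 4, 4, 4, 4, 0, 16, 0, 16, 0, 16, 16, 16, 16, 4, 0, 0, 4, 4, 100, 4, 64, 4]⟩,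
  ⟨⟨⟨2, -1, 1, 1, 1, 1⟩, 8, -4, 4, 2, 114, false, true⟩, ⟨⟨-2, 1, -1, -1, -1, -1⟩, -8, 4, -4, -2, 14, false, true⟩,
    [16, 4, 4, 144, 16, 16, 0, 0, 16, 0, 16, 36, 4, 4, 16, 0, 4, 0, 0, 16, 16, 64, 4]⟩,
  ⟨⟨⟨2, 1, 1, 1, 1, 1⟩, 8, 4, 4, 10, 90, false, true⟩, ⟨⟨-2, -1, -1, -1, -1, -1⟩, -8, -4, -4, -10, 38, false, true⟩,
    [16, 4, 4, 16, 16, 0, 16, 0, 16, 0, 16, 4, 4, 36, 16, 0, 4, 0, 0, 400, 0, 64, 4]⟩,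
  ⟨⟨⟨1, -1, 1, 1, 1, 1⟩, 4, -4, 4, 7, 39, true, false⟩, ⟨⟨-1, 1, -1, -1, -1, -1⟩, -4, 4, -4, -7, 25, true, false⟩,
    [4, 4, 4, 100, 36, 16, 0, 0, 16, 0, 16, 16, 0, 16, 36, 0, 0, 4, 4, 196, 4, 64, 4]⟩,
  ⟨⟨⟨1, 1, 1, 1, 1, 1⟩, 4, 4, 4, 15, 79, true, false⟩, ⟨⟨-1, -1, -1, -1, -1, -1⟩, -4, -4, -4, -15, 49, true, false⟩,
    [4, 4, 4, 36, 36, 0, 16, 0, 16, 0, 16, 0, 0, 64, 36, 0, 16, 4, 4, 900, 4, 64, 36]⟩,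
  ⟨⟨⟨3, 0, 1, 1, 1, 1⟩, 12, 0, 4, 1, 177, false, false⟩, ⟨⟨-3, 0, -1, -1, -1, -1⟩, -12, 0, -4, -1, 15, false, false⟩,
    [36, 0, 4, 36, 4, 4, 4, 0, 16, 0, 16, 36, 16, 4, 4, 0, 4, 4, 4, 4, 16, 64, 16]⟩,
  ⟨⟨⟨2, 0, 1, 0, 0, 1⟩, 16, 0, 4, -2, 126, true, true⟩, ⟨⟨-2, 0, 0, -1, -1, 0⟩, -16, 0, -4, 2, 66, true, true⟩,
    [32, 0, 4, 32, 32, 4, 4, 8, 8, 0, 16, 32, 20, 0, 0, 32, 16, 16, 8, 32, 20, 32, 32]⟩,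
  ⟨⟨⟨1, 0, 1, 0, 0, 0⟩, 16, 0, 4, -1, 63, false, false⟩, ⟨⟨-1, 0, 0, 0, 0, -1⟩, -16, 0, -4, 1, 65, false, false⟩,
    [16, 0, 4, 16, 48, 4, 4, 8, 8, 8, 8, 16, 12, 0, 0, 16, 8, 8, 8, 16, 12, 16, 16]⟩,
  ⟨⟨⟨2, 0, 1, 1, 1, 1⟩, 8, 0, 4, 6, 102, true, true⟩, ⟨⟨-2, 0, -1, -1, -1, -1⟩, -8, 0, -4, -6, 26, true, true⟩,
    [16, 0, 4, 16, 16, 4, 4, 0, 16, 0, 16, 16, 4, 16, 16, 0, 0, 0, 0, 144, 4, 64, 0]⟩,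
  ⟨⟨⟨1, 0, 1, 0, 0, 1⟩, 8, 0, 4, 3, 51, false, false⟩, ⟨⟨-1, 0, 0, -1, -1, 0⟩, -8, 0, -4, -3, 13, false, false⟩,
    [8, 0, 4, 8, 40, 4, 4, 8, 8, 0, 16, 8, 4, 8, 8, 32, 8, 8, 0, 72, 4, 32, 0]⟩,
  ⟨⟨⟨1, 0, 1, 1, 1, 1⟩, 4, 0, 4, 11, 27, false, false⟩, ⟨⟨-1, 0, -1, -1, -1, -1⟩, -4, 0, -4, -11, 37, false, false⟩,
    [4, 0, 4, 4, 36, 4, 4, 0, 16, 0, 16, 4, 0, 36, 36, 0, 4, 4, 4, 484, 0, 64, 16]⟩,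
  ⟨⟨⟨0, 0, 1, 0, 0, 0⟩, 0, 0, 4, 4, 52, false, false⟩, ⟨⟨0, 0, 0, 0, 0, -1⟩, 0, 0, -4, -4, 12, false, false⟩,
    [0, 0, 4, 0, 64, 4, 4, 8, 8, 8, 8, 0, 4, 16, 16, 16, 8, 8, 8, 256, 4, 16, 16]⟩,
  ⟨⟨⟨0, 0, 1, 0, 0, 1⟩, 0, 0, 4, 8, 40, true, true⟩, ⟨⟨0, 0, 0, -1, -1, 0⟩, 0, 0, -4, -8, 24, true, true⟩,
    [0, 0, 4, 0, 64, 4, 4, 8, 8, 0, 16, 0, 4, 32, 32, 32, 16, 16, 8, 512, 4, 32, 32]⟩,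
  ⟨⟨⟨3, 2, 0, 0, 0, 0⟩, 12, 8, 0, -7, 201, false, false⟩, ⟨⟨-3, -2, 0, 0, 0, 0⟩, -12, -8, 0, 7, 55, false, false⟩,
    [36, 16, 0, 100, 36, 16, 16, 0, 0, 0, 0, 4, 36, 4, 36, 0, 4, 36, 36, 196, 4, 0, 64]⟩,
  ⟨⟨⟨2, 2, 0, 0, 0, 0⟩, 8, 8, 0, -2, 126, true, true⟩, ⟨⟨-2, -2, 0, 0, 0, 0⟩, -8, -8, 0, 2, 66, true, true⟩,
    [16, 16, 0, 144, 16, 16, 16, 0, 0, 0, 0, 0, 16, 0, 16, 0, 0, 16, 16, 16, 0, 0, 16]⟩,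
  ⟨⟨⟨1, 2, 0, 0, 0, 0⟩, 4, 8, 0, 3, 51, false, false⟩, ⟨⟨-1, -2, 0, 0, 0, 0⟩, -4, -8, 0, -3, 13, false, false⟩,
    [4, 16, 0, 196, 4, 16, 16, 0, 0, 0, 0, 4, 4, 4, 4, 0, 4, 4, 4, 36, 4, 0, 0]⟩,
  ⟨⟨⟨3, 1, 0, 0, 0, 0⟩, 12, 4, 0, -11, 213, true, false⟩, ⟨⟨-3, -1, 0, 0, 0, 0⟩, -12, -4, 0, 11, 43, true, false⟩,
    [36, 4, 0, 4, 36, 4, 4, 0, 0, 0, 0, 16, 36, 16, 36, 0, 16, 36, 36, 484, 16, 0, 100]⟩,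
  ⟨⟨⟨2, -1, 0, 0, 0, 0⟩, 8, -4, 0, -14, 162, false, true⟩, ⟨⟨-2, 1, 0, 0, 0, 0⟩, -8, 4, 0, 14, 30, false, true⟩,
    [16, 4, 0, 144, 16, 4, 4, 0, 0, 0, 0, 36, 16, 36, 16, 0, 36, 16, 16, 784, 36, 0, 100]⟩,
  ⟨⟨⟨2, 1, 0, 0, 0, 0⟩, 8, 4, 0, -6, 138, false, true⟩, ⟨⟨-2, -1, 0, 0, 0, 0⟩, -8, -4, 0, 6, 54, false, true⟩,
    [16, 4, 0, 16, 16, 4, 4, 0, 0, 0, 0, 4, 16, 4, 16, 0, 4, 16, 16, 144, 4, 0, 36]⟩,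
  ⟨⟨⟨1, -1, 0, 0, 0, 0⟩, 4, -4, 0, -9, 87, true, false⟩, ⟨⟨-1, 1, 0, 0, 0, 0⟩, -4, 4, 0, 9, 41, true, false⟩,
    [4, 4, 0, 100, 4, 4, 4, 0, 0, 0, 0, 16, 4, 16, 4, 0, 16, 4, 4, 324, 16, 0, 36]⟩,
  ⟨⟨⟨1, 1, 0, 0, 0, 0⟩, 4, 4, 0, -1, 63, true, false⟩, ⟨⟨-1, -1, 0, 0, 0, 0⟩, -4, -4, 0, 1, 65, true, false⟩,
    [4, 4, 0, 36, 4, 4, 4, 0, 0, 0, 0, 0, 4, 0, 4, 0, 0, 4, 4, 4, 0, 0, 4]⟩,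
  ⟨⟨⟨0, 1, 0, 0, 0, 0⟩, 0, 4, 0, 4, 52, false, true⟩, ⟨⟨0, -1, 0, 0, 0, 0⟩, 0, -4, 0, -4, 12, false, true⟩,
    [0, 4, 0, 64, 0, 4, 4, 0, 0, 0, 0, 4, 0, 4, 0, 0, 4, 0, 0, 64, 4, 0, 4]⟩,
  ⟨⟨⟨2, 0, 0, 0, 0, 0⟩, 8, 0, 0, -10, 150, true, true⟩, ⟨⟨-2, 0, 0, 0, 0, 0⟩, -8, 0, 0, 10, 42, true, true⟩,
    [16, 0, 0, 16, 16, 0, 0, 0, 0, 0, 0, 16, 16, 16, 16, 0, 16, 16, 16, 400, 16, 0, 64]⟩,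
  ⟨⟨⟨1, 0, 0, 0, 0, 0⟩, 4, 0, 0, -5, 75, false, false⟩, ⟨⟨-1, 0, 0, 0, 0, 0⟩, -4, 0, 0, 5, 53, false, false⟩,
    [4, 0, 0, 4, 4, 0, 0, 0, 0, 0, 0, 4, 4, 4, 4, 0, 4, 4, 4, 100, 4, 0, 16]⟩]

def LIN : List (ℤ × ℤ × ℤ) := [(0, 0, 1), (0, 1, 0), (1, 0, -2), (0, 0, -1), (-1, 0, 2), (1, -1, 0), (-2, 4, -1), (0, -1, 0), (1, -1, -3)]

def REC : List (ℤ × ℤ × ℤ) := [(1, 2, 0), (1, 0, 0), (-1, 0, 0), (-1, -2, 0), (0, 1, 0), (0, 0, 1), (1, 1, 1), (0, -1, 0), (4, 4, 1), (-1, 2, 0), (0, 1, 1)]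

theorem TY_ok : TY.all (Ty.ok cs) = true := by decide +kernel

def R5 : List ℤ := [-2, -1, 0, 1, 2]

theorem box : (R5.all fun b1 => R5.all fun b2 => R5.all fun b3 => R5.all fun b4 => Rw.w ⟨0, 0, b1, b2, b3, b4⟩ == 0 ||
    ([-3, -2, -1, 0, 1, 2, 3] : List ℤ).all fun a => R5.all fun b0 => Rw.eqb ⟨a, b0, b1, b2, b3, b4⟩ ⟨0, 0, 0, 0, 0, 0⟩ ||
      !leL (cs.map (Fq ⟨a, b0, b1, b2, b3, b4⟩)) tgt ||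
      TY.any fun τ => Rw.eqb ⟨a, b0, b1, b2, b3, b4⟩ τ.x.r || Rw.eqb ⟨a, b0, b1, b2, b3, b4⟩ τ.y.r) = true := by
  decide +kernel

theorem w_sum : (R5.all fun b1 => R5.all fun b2 => R5.all fun b3 => R5.all fun b4 =>
    Rw.w ⟨0, 0, b1, b2, b3, b4⟩ + Rw.w (Rw.sig ⟨0, 0, b1, b2, b3, b4⟩) + Rw.w (Rw.sig ⟨0, 0, b1, b2, b3, b4⟩).sig +
      Rw.w (Rw.sig ⟨0, 0, b1, b2, b3, b4⟩).sig.sig == 4) = true := by decide +kernel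

end CA.Ly

theorem CA.realizeEqns_Ly_ArB : True := by
  have := @CA.Ly.cs.eq_1
  have := @CA.Ly.cs.eq_def
  have := @CA.Ly.cs.congr_simp
  have := @CA.Ly.LIN.eq_1
  have := @CA.Ly.LIN.eq_def
  have := @CA.Ly.LIN.congr_simp
  have := @CA.Ly.REC.eq_1
  have := @CA.Ly.REC.eq_def
  have := @CA.Ly.REC.congr_simp
  have := @CA.Ly.enum.eq_1
  have := @CA.Ly.enum.eq_2
  have := @CA.Ly.enum.eq_3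
  have := @CA.Ly.enum.eq_def
  have := @CA.Ly.enum.congr_simp
  have := @CA.Ly.Fq.eq_1
  have := @CA.Ly.Fq.eq_def
  have := @CA.Ly.Fq.congr_simp
  have := @CA.Ly.TY.eq_1
  have := @CA.Ly.TY.eq_def
  have := @CA.Ly.TY.congr_simp
  have := @CA.Ly.dotr.eq_1
  have := @CA.Ly.dotr.eq_def
  have := @CA.Ly.dotr.congr_simp
  have := @CA.Ly.Ty.ok.eq_1
  have := @CA.Ly.Ty.ok.eq_def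
  have := @CA.Ly.Ty.ok.congr_simp
  have := @CA.Ly.R5.eq_1
  have := @CA.Ly.R5.eq_def
  have := @CA.Ly.R5.congr_simp
  have := @CA.Ly.leL.eq_1
  have := @CA.Ly.leL.eq_2
  have := @CA.Ly.leL.eq_def
  have := @CA.Ly.leL.congr_simp
  have := @CA.Ly.tgt.eq_1
  have := @CA.Ly.tgt.eq_def
  have := @CA.Ly.tgt.congr_simp
  have := @CA.Ly.Sm.eq_1
  have := @CA.Ly.Sm.eq_def
  have := @CA.Ly.Sm.congr_simp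
  trivial
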