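/-
Lyons' theorem, package AR: the search.
-/
import Cfsg.Agent.Ly.ArB

set_option autoImplicit false

namespace CA.Ly

theorem search : enum (fun acc => nus LIN REC acc [] 0 0 0) 80 TY tgt [] = true := by decide +kernel

end CA.Ly
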