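/-
Lyons' theorem, package AR: reduction to Galois orbits.
-/
import Cfsg.Agent.Ly.ArC

set_option autoImplicit false
set_option linter.unusedSectionVars false

namespace CA.Ly

universe u

variable {I : Type u} [Fintype I] {a : I → ℤ} {b : Fin 5 → I → ℤ} {d ν : I → ℤ} {σ : Equiv.Perm I} {o : I} {s : ℚ}

/-- the row of an index -/
def row (a : I → ℤ) (b : Fin 5 → I → ℤ) (i : I) : Rw := ⟨a i, b 0 i, b 1 i, b 2 i, b 3 i, b 4 i⟩

def qf (c : Rw) : ℤ := 16 * c.a ^ 2 + 8 * c.a * (c.b0 + c.b1 + c.b2 + c.b3 + c.b4) +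
  4 * (c.b0 ^ 2 + c.b1 ^ 2 + c.b2 ^ 2 + c.b3 ^ 2 + c.b4 ^ 2) + (c.b0 + c.b1 + c.b2 + c.b3 + c.b4) ^ 2

theorem mem_R5 {x : ℤ} (h : x * x ≤ 5) : x ∈ R5 := by
  have : -3 < x := by nlinarith
  have : x < 3 := by nlinarith
  interval_cases x <;> decide

open Classical in
/-- the entries: one for each Galois orbit of non-trivial non-zero rows -/
noncomputable def ents (a : I → ℤ) (b : Fin 5 → I → ℤ) (d ν : I → ℤ) (o : I) : Multiset En :=
  (Finset.univ.filter fun i => i ≠ o ∧ (row a b i).w ≠ 0 ∧ row a b i ≠ ⟨0, 0, 0, 0, 0, 0⟩).val.map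
    fun i => ⟨row a b i, d i, ν i⟩

namespace Ar

variable (A : Ar a b d ν σ o s)
include A

theorem row_sig (i : I) : row a b (σ i) = (row a b i).sig := by
  simp only [row, Rw.sig, A.sa, A.sb]; rfl

theorem row_o : row a b o = ⟨-1, -1, 0, 0, 0, 0⟩ := by simp [row, A.oa, A.ob]

theorem row_z (i : I) : (row a b i).z = zeta a b i := by simp [row, Rw.z, zeta, Fin.sum_univ_five]

theorem b_mem (k : Fin 5) (i : I) : b k i ∈ R5 := mem_R5 (by
  have := A.bb k k
  rw [if_pos rfl] at this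
  exact this ▸ Finset.single_le_sum (f := fun i => b k i * b k i) (fun _ _ => mul_self_nonneg _) (Finset.mem_univ i))

theorem a_mem {i : I} (h : i ≠ o) : a i ∈ ([-3, -2, -1, 0, 1, 2, 3] : List ℤ) := by
  classical
  have := Finset.sum_le_sum_of_subset_of_nonneg (f := fun i => a i * a i) (Finset.subset_univ {i, o})
    fun _ _ _ => mul_self_nonneg _
  rw [Finset.sum_pair h, A.aa, A.oa] at this
  have h1 : -4 < a i := by nlinarith
  have h2 : a i < 4 := by nlinarith
  generalize a i = x at *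
  interval_cases x <;> decide

theorem shift {K : Type*} [AddCommMonoid K] (g : Rw → ℤ → ℤ → K) :
    ∑ i, g (row a b i).sig (d i) (ν i) = ∑ i, g (row a b i) (d i) (ν i) := by
  rw [← Equiv.sum_comp σ fun i => g (row a b i) (d i) (ν i)]
  simp only [A.row_sig, A.sd, A.sn]

theorem red {K : Type*} [CommRing K] (f : Rw → ℤ → ℤ → K) (h0 : ∀ x y, f ⟨0, 0, 0, 0, 0, 0⟩ x y = 0) :
    ((ents a b d ν o).map fun e => (e.r.w : K) * (f e.r e.d e.ν + f e.r.sig e.d e.ν + f e.r.sig.sig e.d e.ν +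
      f e.r.sig.sig.sig e.d e.ν)).sum = 4 * ∑ i, f (row a b i) (d i) (ν i) - 4 * f ⟨-1, -1, 0, 0, 0, 0⟩ 1 1 := by
  classical
  have hw : ∀ i, ((row a b i).w : K) + (row a b i).sig.w + (row a b i).sig.sig.w + (row a b i).sig.sig.sig.w = 4 :=
    fun i => by
      have := List.all_eq_true.1 (List.all_eq_true.1 (List.all_eq_true.1 (List.all_eq_true.1 w_sum _ (A.b_mem 1 i))
        _ (A.b_mem 2 i)) _ (A.b_mem 3 i)) _ (A.b_mem 4 i)
      exact_mod_cast congrArg (Nat.cast (R := K)) (beq_iff_eq.1 this)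
  have e1 : ∑ i, ((row a b i).w : K) * f (row a b i).sig.sig.sig (d i) (ν i) = _ :=
    (A.shift fun r x y => (r.sig.w : K) * f r x y) ▸ (A.shift fun r x y => (r.sig.sig.w : K) * f r.sig x y) ▸
      A.shift fun r x y => (r.sig.sig.sig.w : K) * f r.sig.sig x y
  have e2 : ∑ i, ((row a b i).w : K) * f (row a b i).sig.sig (d i) (ν i) = _ :=
    (A.shift fun r x y => (r.sig.sig.w : K) * f r x y) ▸ A.shift fun r x y => (r.sig.sig.sig.w : K) * f r.sig x y
  have e3 : ∑ i, ((row a b i).w : K) * f (row a b i).sig (d i) (ν i) = _ :=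
    A.shift fun r x y => (r.sig.sig.sig.w : K) * f r x y
  have e4 : ∑ i, ((row a b i).w : K) * (f (row a b i) (d i) (ν i) + f (row a b i).sig (d i) (ν i) +
      f (row a b i).sig.sig (d i) (ν i) + f (row a b i).sig.sig.sig (d i) (ν i)) = 4 * ∑ i, f (row a b i) (d i) (ν i) := by
    simp only [mul_add, Finset.sum_add_distrib, e1, e2, e3]
    simp only [← Finset.sum_add_distrib, Finset.mul_sum]
    exact Finset.sum_congr rfl fun i _ => by rw [← hw i]; ring
  rw [← e4, ents, Multiset.map_map, ← Finset.add_sum_erase _ _ (Finset.mem_univ o), A.row_o, A.od, A.on]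
  refine Eq.trans (Finset.sum_subset (s₂ := Finset.univ.erase o) (fun i hi => by simp at hi ⊢; exact hi.1)
    fun i hi h => ?_) (by simp [Rw.sig, Rw.w, Rw.key]; ring)
  simp only [Finset.mem_filter, Finset.mem_univ, true_and, not_and_or, not_not] at h
  rcases h with h | h | h
  · simp [h] at hi
  · simp [h]
  · simp [h, Rw.sig, h0]

theorem mem_ents {e : En} (h : e ∈ ents a b d ν o) :
    ∃ i, i ≠ o ∧ (row a b i).w ≠ 0 ∧ row a b i ≠ ⟨0, 0, 0, 0, 0, 0⟩ ∧ e = ⟨row a b i, d i, ν i⟩ := by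
  obtain ⟨i, hi, rfl⟩ := Multiset.mem_map.1 h
  simp only [Finset.mem_val, Finset.mem_filter, Finset.mem_univ, true_and] at hi
  exact ⟨i, hi.1, hi.2.1, hi.2.2, rfl⟩

theorem lin {K : Type*} [CommRing K] (g : ℤ → ℤ → ℤ → K) {x : K} {y : Fin 5 → K}
    (ha : ∑ i, a i * g (zeta a b i) (d i) (ν i) = x) (hb : ∀ k, ∑ i, b k i * g (zeta a b i) (d i) (ν i) = y k) :
    ((ents a b d ν o).map fun e => e.r.A * g e.r.z e.d e.ν).sum = 4 * x + 4 * g 1 1 1 ∧
    ((ents a b d ν o).map fun e => e.r.B * g e.r.z e.d e.ν).sum = 4 * y 0 + 4 * g 1 1 1 ∧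
    ((ents a b d ν o).map fun e => e.r.C * g e.r.z e.d e.ν).sum = 4 * y 1 := by
  have z1 : ∀ r : Rw, r.sig.z = r.z := fun r => by simp only [Rw.sig, Rw.z]; ring
  have h1 := A.red (fun r x y => r.a * g r.z x y) (by simp)
  have h2 := A.red (fun r x y => r.b0 * g r.z x y) (by simp)
  have h3 := A.red (fun r x y => r.b1 * g r.z x y) (by simp)
  simp only [z1, A.row_z] at h1 h2 h3
  refine ⟨Eq.trans (congrArg _ (Multiset.map_congr rfl fun e _ => ?_)) (h1.trans ?_),
    Eq.trans (congrArg _ (Multiset.map_congr rfl fun e _ => ?_)) (h2.trans ?_),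
    Eq.trans (congrArg _ (Multiset.map_congr rfl fun e _ => ?_)) (h3.trans ?_)⟩
  · simp [Rw.A, Rw.sig]; ring
  · rw [← ha]; simp [row, Rw.z]
  · simp [Rw.B, Rw.sig]; ring
  · rw [← hb]; simp [row, Rw.z]
  · simp [Rw.C, Rw.sig]; ring
  · rw [← hb]; simp [row]

theorem eqs : Eqs (ents a b d ν o) s := by
  obtain ⟨l1, l2, l3⟩ := A.lin (fun _ x _ => x) (by simpa using A.la) (y := fun _ => 0) (by simpa using A.lb)
  obtain ⟨r1, r2, r3⟩ := A.lin (fun z x _ => (z ^ 2 / x : ℚ)) (by simpa [mul_div_assoc] using A.ra) (y := fun _ => s)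
    (by simpa [mul_div_assoc] using A.rb)
  obtain ⟨f1, f2, f3⟩ := A.lin (fun _ _ y => y) (by simpa [mul_comm] using A.fa) (y := fun _ => 1)
    (by simpa [mul_comm] using A.fb)
  refine ⟨fun e he => ?_, by simpa using l1, by simpa using l2, by simpa using l3, by simpa [mul_div_assoc] using r1,
    by simpa [mul_div_assoc] using r2, by simpa [mul_div_assoc] using r3, A.sp, by simpa [mul_comm] using f1,
    by simpa [mul_comm] using f2, by simpa [mul_comm] using f3⟩
  obtain ⟨i, hi, -, -, rfl⟩ := A.mem_ents he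
  have := A.d1 i hi; have := A.dz i hi; have := A.n1 i; have := A.n2 i
  refine ⟨?_, by rw [A.row_z]; exact A.dv i, A.nu i, A.nr i, fun e => by
    simpa [Fin.sum_univ_five, row] using A.p1 i e, A.p2 i⟩
  simp only [Rw.lb, A.row_z, max_le_iff]
  change (_ ∧ _) ∧ 60 * a i - _ ≤ _ ∧ -4 * a i - _ ≤ _
  omega

theorem gram (c : Rw) : ∑ i, dotr c (row a b i) ^ 2 = qf c := by
  have : ∑ i, dotr c (row a b i) ^ 2 = c.a ^ 2 * ∑ i, a i * a i + 2 * c.a * ∑ k, ![c.b0, c.b1, c.b2, c.b3, c.b4] k *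
      ∑ i, a i * b k i + ∑ k, ∑ l, ![c.b0, c.b1, c.b2, c.b3, c.b4] k * ![c.b0, c.b1, c.b2, c.b3, c.b4] l *
      ∑ i, b k i * b l i := by
    simp only [Fin.sum_univ_five, Finset.mul_sum, mul_add, ← Finset.sum_add_distrib]
    exact Finset.sum_congr rfl fun i _ => by simp [dotr, row]; ring
  rw [this]
  simp [A.aa, A.ab, A.bb, Fin.sum_univ_five, qf]
  ring

theorem sm : Sm cs (ents a b d ν o) tgt := by
  have : List.Forall₂ (fun c (x : ℕ) => 4 * qf c - 4 * dotr c ⟨-1, -1, 0, 0, 0, 0⟩ ^ 2 = x) cs tgt := by decide +kernel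
  refine this.imp fun c x h => Nat.cast_injective (R := ℤ) ?_
  rw [← h, ← A.gram, ← A.red (fun r _ _ => dotr c r ^ 2) (by simp [dotr]), Nat.cast_multiset_sum, Multiset.map_map]
  exact congrArg _ (Multiset.map_congr rfl fun e _ => by simp [Fq])

end Ar

/-- package AR -/
theorem ar_main : ArMain.{u} := fun I _ a b d ν σ o s A => by
  obtain ⟨h1, e, he, h2, h3⟩ : Concl (ents a b d ν o) s := by
    refine enum_sound (fun L acc hM h hl => nus_sound A.eqs h [] [] 0 0 0 (by simpa using hM) .nil rfl rfl rfl hl) 80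
      TY tgt [] _ [] (List.all_eq_true.1 TY_ok) (by simp) (fun e he => ?_) A.sm .nil search
    obtain ⟨L, hL⟩ := Multiset.exists_cons_of_mem he
    have h1 := (Sm.cons (hL ▸ A.sm)).1
    obtain ⟨i, hi, hw, h0, rfl⟩ := A.mem_ents he
    have := List.all_eq_true.1 (List.all_eq_true.1 (List.all_eq_true.1 (List.all_eq_true.1 box _ (A.b_mem 1 i))
      _ (A.b_mem 2 i)) _ (A.b_mem 3 i)) _ (A.b_mem 4 i)
    rcases Bool.or_eq_true _ _ ▸ this with h | h
    · exact absurd (beq_iff_eq.1 h) hw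
    · have := List.all_eq_true.1 (List.all_eq_true.1 h _ (A.a_mem hi)) _ (A.b_mem 0 i)
      simp only [Bool.or_eq_true, List.any_eq_true] at this
      rcases this with (h | h) | ⟨τ, h, h'⟩
      · exact absurd (Rw.eq_of h) h0
      · exact absurd h1 (by simpa [row] using h)
      · exact ⟨τ, h, h'.imp Rw.eq_of Rw.eq_of⟩
  obtain ⟨i, -, -, -, rfl⟩ := A.mem_ents he
  exact ⟨h1, i, h2, A.row_z i ▸ h3⟩

end CA.Ly

theorem CA.realizeEqns_Ly_ArD : True := by
  have := @CA.Ly.ents.eq_1.{0}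
  have := @CA.Ly.ents.eq_def.{0}
  have := @CA.Ly.ents.congr_simp.{0}
  have := @CA.Ly.row.eq_1.{0}
  have := @CA.Ly.row.eq_def.{0}
  have := @CA.Ly.row.congr_simp.{0}
  have := @CA.Ly.qf.eq_1
  have := @CA.Ly.qf.eq_def
  have := @CA.Ly.qf.congr_simp
  trivial
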