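/-
Lyons' theorem, package A2: Sylow helpers.
-/
import Cfsg.Agent.Ly.Base
import Cfsg.Agent.FG.PHall

set_option autoImplicit false
set_option linter.unusedSectionVars false

namespace CA.Ly

open Cfsg CA.FG Subgroup

universe u

variable {G : Type u} [Group G] [Finite G] {ι : T64 →* G} {h : G} {m : ℕ}

theorem card_range_of (inj : Function.Injective ι) : Nat.card ι.range = 64 := by
  rw [← Nat.card_congr (MonoidHom.ofInjective inj).toEquiv, card_T64]

theorem pGrp_range (ι : T64 →* G) : IsPGrp 2 ι.range :=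
  pGrp_of_forall_pow Nat.prime_two (k := 2) (by
    rintro _ ⟨t, rfl⟩
    rw [← map_pow, show t ^ 2 ^ 2 = t * t * (t * t) by simp [pow_succ, mul_assoc], pow_four, map_one])

theorem syl_of (odd : Odd ι.range.index) {H : Subgroup G} (hH : ι.range ≤ H) : IsSylowOf 2 ι.range H :=
  (sylow_mk le_top (pGrp_range ι) (by
    rw [relIndex_top_right]; exact Nat.two_dvd_ne_zero.2 (Nat.odd_iff.1 odd))).of_le hH le_top

theorem conj_in_of (odd : Odd ι.range.index) {H : Subgroup G} (hH : ι.range ≤ H) {x : G} (hx : x ∈ H) {k : ℕ}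
    (e : x ^ 2 ^ k = 1) : ∃ t, ∃ g ∈ H, g * ι t * g⁻¹ = x := by
  obtain ⟨g, hg, l⟩ := sylow_subJ (Q := zpowers x) Nat.prime_two (syl_of odd hH)
    (pGrp_of_forall_pow Nat.prime_two (k := k) (by
      rintro _ ⟨n, rfl⟩
      rw [← zpow_natCast, ← zpow_mul, mul_comm, zpow_mul, zpow_natCast, e, one_zpow])) (zpowers_le.2 hx)
  obtain ⟨_, ⟨t, rfl⟩, e⟩ := mem_conjg'.1 (l (mem_zpowers x))
  exact ⟨t, g, hg, e⟩

/-- Burnside's fusion lemma in a subgroup -/
theorem burn_fuse {p : ℕ} (hp : p.Prime) {T H : Subgroup G} (hT : IsSylowOf p T H) {x y g : G} (hg : g ∈ H)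
    (hx : T ≤ 𝒞[x]) (hy : T ≤ 𝒞[y]) (e : g * x * g⁻¹ = y) : ∃ n ∈ H ⊓ 𝒩(T), n * x * n⁻¹ = y := by
  have h1 : IsSylowOf p T (H ⊓ 𝒞[y]) := hT.of_le (le_inf hT.le hy) inf_le_left
  have h2 : IsSylowOf p (T :^ g) (H ⊓ 𝒞[y]) := (hT.conjg_of_mem hg).of_le (le_inf (hT.conjg_of_mem hg).le (by
    rintro _ ⟨a, ha, rfl⟩
    have := mem_centralizer_singleton_iff.1 (hx ha)
    refine mem_centralizer_singleton_iff.2 ?_
    subst e
    change g * a * g⁻¹ * _ = _ * (g * a * g⁻¹)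
    rw [show g * a * g⁻¹ * (g * x * g⁻¹) = g * (a * x) * g⁻¹ by group, this]; group)) inf_le_left
  obtain ⟨c, hc, ec⟩ := sylow_trans hp h2 h1
  refine ⟨c * g, ⟨mul_mem hc.1 hg, conjg_eq_self_iff.1 (by rw [conjg_mul, ← ec])⟩, ?_⟩
  rw [show c * g * x * (c * g)⁻¹ = c * (g * x * g⁻¹) * c⁻¹ by group, e, mem_centralizer_singleton_iff.1 hc.2]; group

theorem range_le_cent (ι : T64 →* G) {c : T64} (hc : c * c = 1) : ι.range ≤ 𝒞[ι c] := by
  rintro _ ⟨t, rfl⟩
  exact mem_centralizer_singleton_iff.2 (by rw [← map_mul, ← map_mul, central hc])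

theorem comm_sq (x y : T64) : x⁻¹ * (y * x * y⁻¹) * (x⁻¹ * (y * x * y⁻¹)) = 1 :=
  of_decide_eq_true (allT_spec (allT_spec (p := fun x => allT fun y =>
    decide (x⁻¹ * (y * x * y⁻¹) * (x⁻¹ * (y * x * y⁻¹)) = 1)) (by decide +kernel) x) y)

theorem z1_sq : z1 * z1 = 1 := by decide +kernel
theorem z2_sq : z2 * z2 = 1 := by decide +kernel
theorem z3_sq : z3 * z3 = 1 := by decide +kernel
theorem z1_ne : z1 ≠ 1 := by decide +kernel
theorem z2_ne : z2 ≠ 1 := by decide +kernel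
theorem z3_ne : z3 ≠ 1 := by decide +kernel
theorem z1_mul : z1 * z2 = z3 := by decide +kernel
theorem u0_sq : u0 * u0 = z1 := by decide +kernel

theorem ord_of (inj : Function.Injective ι) {c : T64} (hc : c * c = 1) (c1 : c ≠ 1) : orderOf (ι c) = 2 := by
  rw [orderOf_injective ι inj]
  exact orderOf_eq_prime (by rw [pow_two, hc]) c1

namespace Fus

variable (F : Fus ι h m)
include F

theorem card_range : Nat.card ι.range = 64 := card_range_of F.inj

theorem syl {H : Subgroup G} (hH : ι.range ≤ H) : IsSylowOf 2 ι.range H := syl_of F.odd hH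

theorem sylow : ∃ S : Sylow 2 G, (S : Subgroup G) = ι.range := (F.syl le_top).exists_sylow_top Nat.prime_two

theorem exists_conj_in {H : Subgroup G} (hH : ι.range ≤ H) {x : G} (hx : x ∈ H) {k : ℕ} (e : x ^ 2 ^ k = 1) :
    ∃ t, ∃ g ∈ H, g * ι t * g⁻¹ = x := conj_in_of F.odd hH hx e

theorem exists_conj {x : G} {k : ℕ} (e : x ^ 2 ^ k = 1) : ∃ t, IsConj (ι t) x := by
  obtain ⟨t, g, -, e⟩ := F.exists_conj_in le_top (mem_top x) e
  exact ⟨t, isConj_iff.2 ⟨g, e⟩⟩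

theorem ord {c : T64} (hc : c * c = 1) (c1 : c ≠ 1) : orderOf (ι c) = 2 := ord_of F.inj hc c1

theorem conj_pow (n : ℕ) (t : T64) : h ^ n * ι t * (h ^ n)⁻¹ = ι ((tau ^ (m * n)) t) := by
  induction n with
  | zero => simp
  | succ n ih =>
    rw [pow_succ', show h * h ^ n * ι t * (h * h ^ n)⁻¹ = h * (h ^ n * ι t * (h ^ n)⁻¹) * h⁻¹ by group, ih, F.conj,
      Nat.mul_succ, add_comm, pow_add]
    rfl

theorem mem_norm : h ∈ 𝒩(ι.range) := by
  refine mem_normalizer_fintype ?_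
  rintro _ ⟨t, rfl⟩
  exact ⟨_, (F.conj t).symm⟩

end Fus

end CA.Ly

theorem CA.realizeEqns_Ly_A2 : True := by

  trivial
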