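/-
Lyons' theorem, package A0: the automorphisms of `T64` modulo central ones, and `T64` as Sylow subgroup of `U₃(4)`.
-/
import Cfsg.Agent.Ly.A2
import Cfsg.Agent.Dih.Rk2M

set_option autoImplicit false
set_option linter.unusedSectionVars false

namespace CA.Ly

open Cfsg CA.FG CA.Dih Subgroup Cfsg.Agent.Unit
open scoped commutatorElement

universe u v

theorem gen_words (t : T64) : ∃ a < 4, ∃ b < 4, ∃ c < 2, ∃ d < 2, t = mk 1 ^ a * mk 6 ^ b * mk 2 ^ c * mk 12 ^ d :=
  of_decide_eq_true (allT_spec (p := fun t => decide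
    (∃ a < 4, ∃ b < 4, ∃ c < 2, ∃ d < 2, t = mk 1 ^ a * mk 6 ^ b * mk 2 ^ c * mk 12 ^ d)) (by decide +kernel) t)

theorem mem_of_gen {H : Subgroup T64} (h1 : mk 1 ∈ H) (h2 : mk 6 ∈ H) (h3 : mk 2 ∈ H) (h4 : mk 12 ∈ H) (t : T64) :
    t ∈ H := by
  obtain ⟨a, -, b, -, c, -, d, -, rfl⟩ := gen_words t
  exact mul_mem (mul_mem (mul_mem (pow_mem h1 _) (pow_mem h2 _)) (pow_mem h3 _)) (pow_mem h4 _)

theorem urel64 : URel (mk 1) (mk 6) (mk 2) (mk 12) := by
  constructor <;> (try simp only [commutatorElement_def]) <;> decide +kernel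

theorem exists_emb {G : Type u} [Group G] [Finite G] {F : Type v} [Field F] [Fintype F] (hF : Fintype.card F = 16)
    (S : Sylow 2 G) (P : Sylow 2 (PSU 3 F 4)) (e : (S : Subgroup G) ≃* (P : Subgroup (PSU 3 F 4))) :
    ∃ ι : T64 →* G, Function.Injective ι ∧ Odd ι.range.index := by
  letI := frobStar (q := 4) hF
  have hq := fq_frobStar (q := 4) hF
  have h1 := hq.card_PSU (n := 3) (by norm_num)
  have h2 : Nat.card (PSU 3 F 4) = 62400 := by
    generalize Nat.card (PSU 3 F 4) = N at h1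
    norm_num [Finset.prod_range_succ] at h1
    omega
  haveI : Finite (PSU 3 F 4) := Nat.finite_of_card_ne_zero (by rw [h2]; norm_num)
  obtain ⟨c₀, c₁, d₀, d₁, r, n0, n1, n2⟩ := exists_urel_SUG hq
  let φ : SUG (std F 3) →* PSU 3 F 4 := (QuotientGroup.mk' _).comp (hq.su 3).symm.toMonoidHom
  have hφ : Function.Injective φ := ((MonoidHom.ker_eq_bot_iff (QuotientGroup.mk' _)).1 (by
    rw [QuotientGroup.ker_mk', ← card_eq_one, hq.card_center_SU (by norm_num)]; rfl)).comp (hq.su 3).symm.injective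
  have ht : ugen (mk 1) (mk 6) (mk 2) (mk 12) = ⊤ := eq_top_iff.2 fun t _ => mem_of_gen
    (mem_sup_left (mem_sup_left (mem_sup_left (mem_sup_right (mem_zpowers _)))))
    (mem_sup_left (mem_sup_left (mem_sup_right (mem_zpowers _)))) (mem_sup_left (mem_sup_right (mem_zpowers _)))
    (mem_sup_right (mem_zpowers _)) t
  obtain ⟨f₀, f1, f2⟩ := urel64.exists_hom (r.map φ) (by rw [ht, card_top, card_T64])
  let f : T64 →* PSU 3 F 4 := f₀.comp ((MulEquiv.subgroupCongr ht).trans topEquiv).symm.toMonoidHom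
  have g1 : f (mk 1) = φ c₀ := f1 _ rfl
  have g2 : f (mk 6) = φ c₁ := f2 _ rfl
  have hf : Function.Injective f := (injective_iff_map_eq_one f).2 fun x hx => by
    have key : ∀ y, y * y = 1 → f y = 1 → y = 1 := fun y y2 fy => by
      have : y = 1 ∨ y = mk 1 * mk 1 ∨ y = mk 6 * mk 6 ∨ y = mk 1 * mk 1 * (mk 6 * mk 6) := by
        rcases sq_eq_one y2 with rfl | rfl | rfl | rfl <;> decide +kernel
      rcases this with rfl | rfl | rfl | rfl
      · rfl
      all_goals simp only [map_mul, g1, g2] at fy; simp only [← map_mul, map_eq_one_iff φ hφ] at fy; contradiction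
    exact key x (key _ (pow_four x) (by rw [map_mul, hx, one_mul])) hx
  have c : Nat.card f.range = 2 ^ 6 := card_range_of hf
  obtain ⟨Q, hQ⟩ := Cfsg.Agent.Lin.exists_sylow_coe_eq_of_card (p := 2) (IsPGroup.of_card c) fun Q => by
    rw [c, Sylow.card_eq_multiplicity, h2]
    refine Nat.pow_le_pow_right two_pos (Nat.le_of_lt_succ (not_le.1 fun h => ?_))
    have := (Nat.prime_two.pow_dvd_iff_le_factorization (by norm_num)).2 h
    norm_num at this
  let E : T64 ≃* (S : Subgroup G) :=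
    (((MonoidHom.ofInjective hf).trans (MulEquiv.subgroupCongr hQ.symm)).trans (Sylow.equiv Q P)).trans e.symm
  refine ⟨(S : Subgroup G).subtype.comp E.toMonoidHom, Subtype.val_injective.comp E.injective, ?_⟩
  rw [MonoidHom.range_comp, MonoidHom.range_eq_top.2 E.surjective, ← MonoidHom.range_eq_map, range_subtype]
  exact Nat.odd_iff.2 (Nat.two_dvd_ne_zero.1 S.not_dvd_index)

/-- the class modulo the centre -/
def cl (x : T64) : ℕ := x.v.val % 16

theorem cl_iff (x y : T64) : cl x = cl y ↔ y⁻¹ * x * (y⁻¹ * x) = 1 :=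
  of_decide_eq_true (allT_spec (allT_spec (p := fun x => allT fun y =>
    decide (cl x = cl y ↔ y⁻¹ * x * (y⁻¹ * x) = 1)) (by decide +kernel) x) y)

theorem cl_mul (x y : T64) : cl (x * y) = cl x ^^^ cl y :=
  of_decide_eq_true (allT_spec (allT_spec (p := fun x => allT fun y =>
    decide (cl (x * y) = cl x ^^^ cl y)) (by decide +kernel) x) y)

theorem cl_inv (x : T64) : cl x⁻¹ = cl x :=
  of_decide_eq_true (allT_spec (p := fun x => decide (cl x⁻¹ = cl x)) (by decide +kernel) x)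

theorem cl_lt (x : T64) : cl x < 16 := Nat.mod_lt _ (by decide)

theorem cl_map (φ : MulAut T64) {x y : T64} (h : cl x = cl y) : cl (φ x) = cl (φ y) := by
  rw [cl_iff] at h ⊢
  rw [← map_inv, ← map_mul, ← map_mul, h, map_one]

theorem sq_cl (x : T64) : x * x = mk (cl x) * mk (cl x) :=
  of_decide_eq_true (allT_spec (p := fun x => decide (x * x = mk (cl x) * mk (cl x))) (by decide +kernel) x)

def cm (x y : T64) : T64 := x * y * x⁻¹ * y⁻¹

theorem cm_cl (x y : T64) : ⁅x, y⁆ = cm (mk (cl x)) (mk (cl y)) :=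
  of_decide_eq_true (allT_spec (allT_spec (p := fun x => allT fun y =>
    decide (x * y * x⁻¹ * y⁻¹ = cm (mk (cl x)) (mk (cl y)))) (by decide +kernel) x) y)

/-- the automorphisms trivial modulo the centre -/
def K0 : Subgroup (MulAut T64) where
  carrier := {φ | ∀ t, cl (φ t) = cl t}
  one_mem' _ := rfl
  mul_mem' {φ _} ha hb t := (cl_map φ (hb t)).trans (ha t)
  inv_mem' {φ} ha t := by
    have := ha (φ⁻¹ t)
    rw [MulAut.apply_inv_self] at this
    exact this.symm

theorem mem_K0 {φ : MulAut T64} : φ ∈ K0 ↔ ∀ t, cl (φ t) = cl t := Iff.rfl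

instance K0_normal : K0.Normal := ⟨fun φ hφ ψ t => by
  have := cl_map ψ (hφ (ψ⁻¹ t))
  rwa [MulAut.apply_inv_self] at this⟩

theorem agree {φ ψ : MulAut T64} (h1 : cl (φ (mk 1)) = cl (ψ (mk 1))) (h2 : cl (φ (mk 6)) = cl (ψ (mk 6)))
    (h3 : cl (φ (mk 2)) = cl (ψ (mk 2))) (h4 : cl (φ (mk 12)) = cl (ψ (mk 12))) (t : T64) : cl (φ t) = cl (ψ t) :=
  mem_of_gen (H :=
    { carrier := {t | cl (φ t) = cl (ψ t)}
      one_mem' := by simp
      mul_mem' := fun {a b} ha hb => by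
        simp only [Set.mem_setOf_eq, map_mul, cl_mul] at ha hb ⊢; rw [ha, hb]
      inv_mem' := fun {a} ha => by simpa only [Set.mem_setOf_eq, map_inv, cl_inv] using ha }) h1 h2 h3 h4 t

theorem K0_sq {φ : MulAut T64} (h : φ ∈ K0) : φ * φ = 1 := MulEquiv.ext fun t => by
  have h1 : ∀ u, φ (u * u) = u * u := fun u => by rw [map_mul, sq_cl, h u, ← sq_cl]
  have h2 : ∀ c, c * c = 1 → φ c = c := fun c hc => by
    have : c = 1 ∨ c = mk 1 * mk 1 ∨ c = mk 6 * mk 6 ∨ c = mk 2 * mk 2 := by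
      rcases sq_eq_one hc with rfl | rfl | rfl | rfl <;> decide +kernel
    rcases this with rfl | rfl | rfl | rfl
    exacts [map_one _, h1 _, h1 _, h1 _]
  have h3 := (cl_iff _ _).1 (h t)
  have h4 := h2 _ h3
  rw [map_mul, map_inv, inv_mul_eq_iff_eq_mul] at h4
  change φ (φ t) = t
  rw [h4, ← mul_right_inj t⁻¹, ← mul_assoc, h3, inv_mul_cancel]

def ST : ℕ := 37378521805288397050615761601419329361046376081364011498575979499146776868749687903844645892853917087886373783883840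
def SI : ℕ := 16119944547320592541221364019800864183965503556023866139812535974162155802598744064567823693510298278386688155140160
def sigF (x : T64) : T64 := mk (ST >>> (6 * x.v.val))
def sigI (x : T64) : T64 := mk (SI >>> (6 * x.v.val))

/-- a field automorphism -/
def sig : MulAut T64 where
  toFun := sigF
  invFun := sigI
  left_inv x := of_decide_eq_true (allT_spec (p := fun x => decide (sigI (sigF x) = x)) (by decide +kernel) x)
  right_inv x := of_decide_eq_true (allT_spec (p := fun x => decide (sigF (sigI x) = x)) (by decide +kernel) x)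
  map_mul' x y := of_decide_eq_true (allT_spec (allT_spec
    (p := fun x => allT fun y => decide (sigF (x * y) = sigF x * sigF y)) (by decide +kernel) x) y)

theorem aut_pow (φ : MulAut T64) (n : ℕ) : ⇑(φ ^ n) = φ^[n] := funext fun x => by
  induction n with
  | zero => rfl
  | succ n ih => rw [pow_succ', Function.iterate_succ_apply', ← ih]; rfl

def tsF (k i : ℕ) (x : T64) : T64 := tauF^[k] (sigF^[i] x)

theorem ts_eq (k i : ℕ) : ⇑(tau ^ k * sig ^ i) = tsF k i := funext fun x => by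
  rw [MulAut.mul_apply, aut_pow, aut_pow]; rfl

def ck1 (a b : T64) : Prop := a * a ≠ 1 ∧ b * b ≠ 1 ∧ a * a ≠ b * b ∧ cm b a = 1
def ck2 (a b c : T64) : Prop := c * c = a * a * (b * b) ∧ cm c a = a * a ∧ cm c b = a * a * (b * b)
def ck3 (a b c d : T64) : Prop := d * d = a * a ∧ cm d c = 1 ∧ cm d a = a * a * (b * b) ∧ cm d b = b * b
def ck4 (a b c d : ℕ) : Prop := ∃ k < 15, ∃ i < 4, a = cl (tsF k i (mk 1)) ∧ b = cl (tsF k i (mk 6)) ∧
  c = cl (tsF k i (mk 2)) ∧ d = cl (tsF k i (mk 12))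

instance (a b : T64) : Decidable (ck1 a b) := inferInstanceAs (Decidable (_ ∧ _ ∧ _ ∧ _))
instance (a b c : T64) : Decidable (ck2 a b c) := inferInstanceAs (Decidable (_ ∧ _ ∧ _))
instance (a b c d : T64) : Decidable (ck3 a b c d) := inferInstanceAs (Decidable (_ ∧ _ ∧ _ ∧ _))
instance (a b c d : ℕ) : Decidable (ck4 a b c d) := inferInstanceAs (Decidable (∃ k < 15, ∃ i < 4, _ ∧ _ ∧ _ ∧ _))

theorem aut_chk0 : ((List.range 16).all fun a => (List.range 16).all fun b => !decide (ck1 (mk a) (mk b)) ||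
    (List.range 16).all fun c => !decide (ck2 (mk a) (mk b) (mk c)) ||
      (List.range 16).all fun d => !decide (ck3 (mk a) (mk b) (mk c) (mk d)) || decide (ck4 a b c d)) = true := by
  decide +kernel

theorem aut_chk : ∀ a < 16, ∀ b < 16, ck1 (mk a) (mk b) → ∀ c < 16, ck2 (mk a) (mk b) (mk c) →
    ∀ d < 16, ck3 (mk a) (mk b) (mk c) (mk d) → ck4 a b c d := fun a ha b hb h1 c hc h2 d hd h3 => by
  have := aut_chk0
  simp only [List.all_eq_true, List.mem_range, Bool.or_eq_true, Bool.not_eq_true', decide_eq_false_iff_not,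
    decide_eq_true_eq] at this
  exact (((this a ha b hb).resolve_left (not_not.2 h1) c hc).resolve_left (not_not.2 h2) d hd).resolve_left
    (not_not.2 h3)

def fixG (f : T64 → T64) : Prop :=
  cl (f (mk 1)) = 1 ∧ cl (f (mk 6)) = 6 ∧ cl (f (mk 2)) = 2 ∧ cl (f (mk 12)) = 12

instance (f : T64 → T64) : Decidable (fixG f) := inferInstanceAs (Decidable (_ ∧ _ ∧ _ ∧ _))

theorem ord_chk : ∀ k < 15, ∀ i < 4, fixG (tsF k i)^[60] ∧ (fixG (tsF k i)^[15] → i = 0) := by
  decide +kernel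

theorem mem_K0_iff {φ : MulAut T64} : φ ∈ K0 ↔ fixG φ :=
  ⟨fun h => ⟨h _, h _, h _, h _⟩, fun h => agree (ψ := 1) h.1 h.2.1 h.2.2.1 h.2.2.2⟩

/-- the automorphisms of odd order modulo `K0` -/
theorem odd_aut {φ : MulAut T64} {n : ℕ} (hn : Odd n) (h : φ ^ n ∈ K0) :
    ∃ k : ℕ, QuotientGroup.mk' K0 φ = QuotientGroup.mk' K0 tau ^ k := by
  have r := urel64.map φ.toMonoidHom
  have i : ∀ x, φ x * φ x = 1 → x * x = 1 := fun x e => by rwa [← map_mul, map_eq_one_iff φ φ.injective] at e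
  obtain ⟨k, hk, j, hj, e1, e2, e3, e4⟩ := aut_chk _ (cl_lt (φ (mk 1))) _ (cl_lt (φ (mk 6))) (by
      simp only [ck1, ← sq_cl, ← cm_cl]
      exact ⟨fun e => absurd (i _ e) (by decide +kernel), fun e => absurd (i _ e) (by decide +kernel), fun e => by
        rw [← map_mul, ← map_mul] at e; exact absurd (φ.injective e) (by decide +kernel), r.r5⟩)
    _ (cl_lt (φ (mk 2))) (by simp only [ck2, ← sq_cl, ← cm_cl]; exact ⟨r.r3, r.r7, r.r8⟩)
    _ (cl_lt (φ (mk 12))) (by simp only [ck3, ← sq_cl, ← cm_cl]; exact ⟨r.r4, r.r6, r.r9, r.r10⟩)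
  rw [← ts_eq] at e1 e2 e3 e4
  have e : QuotientGroup.mk' K0 φ = QuotientGroup.mk' K0 (tau ^ k * sig ^ j) := (QuotientGroup.eq.2 fun t => by
    have := cl_map φ⁻¹ (agree e1 e2 e3 e4 t)
    rw [MulAut.inv_apply_self] at this
    exact this.symm)
  have m : ∀ n, QuotientGroup.mk' K0 φ ^ n = 1 ↔ fixG (tsF k j)^[n] := fun n => by
    rw [e, ← map_pow, ← ts_eq, ← aut_pow, ← mem_K0_iff, QuotientGroup.mk'_apply, QuotientGroup.eq_one_iff]
  have h1 : QuotientGroup.mk' K0 φ ^ n = 1 := by rwa [← map_pow, QuotientGroup.mk'_apply, QuotientGroup.eq_one_iff]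
  have h2 := (m 60).2 (ord_chk k hk j hj).1
  have h3 : QuotientGroup.mk' K0 φ ^ 15 = 1 := orderOf_dvd_iff_pow_eq_one.1 (Nat.Coprime.dvd_of_dvd_mul_left
    ((Nat.coprime_two_right.2 (hn.of_dvd_nat (orderOf_dvd_of_pow_eq_one h1))).pow_right 2)
    (orderOf_dvd_of_pow_eq_one h2))
  obtain rfl := (ord_chk k hk j hj).2 ((m 15).1 h3)
  exact ⟨k, by rw [e, pow_zero, mul_one, map_pow]⟩

end CA.Ly

theorem CA.realizeEqns_Ly_A0 : True := by
  have := @CA.Ly.ck4.eq_1
  have := @CA.Ly.ck4.eq_def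
  have := @CA.Ly.ck4.congr_simp
  have := @CA.Ly.ck1.eq_1
  have := @CA.Ly.ck1.eq_def
  have := @CA.Ly.ck1.congr_simp
  have := @CA.Ly.sig.eq_1
  have := @CA.Ly.sig.eq_def
  have := @CA.Ly.sig.congr_simp
  have := @CA.Ly.ck3.eq_1
  have := @CA.Ly.ck3.eq_def
  have := @CA.Ly.ck3.congr_simp
  have := @CA.Ly.sigI.eq_1
  have := @CA.Ly.sigI.eq_def
  have := @CA.Ly.sigI.congr_simp
  have := @CA.Ly.sigF.eq_1
  have := @CA.Ly.sigF.eq_def
  have := @CA.Ly.sigF.congr_simp
  have := @CA.Ly.SI.eq_1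
  have := @CA.Ly.SI.eq_def
  have := @CA.Ly.SI.congr_simp
  have := @CA.Ly.fixG.eq_1
  have := @CA.Ly.fixG.eq_def
  have := @CA.Ly.fixG.congr_simp
  have := @CA.Ly.cm.eq_1
  have := @CA.Ly.cm.eq_def
  have := @CA.Ly.cm.congr_simp
  have := @CA.Ly.cl.eq_1
  have := @CA.Ly.cl.eq_def
  have := @CA.Ly.cl.congr_simp
  have := @CA.Ly.tsF.eq_1
  have := @CA.Ly.tsF.eq_def
  have := @CA.Ly.tsF.congr_simp
  have := @CA.Ly.ck2.eq_1
  have := @CA.Ly.ck2.eq_def
  have := @CA.Ly.ck2.congr_simp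
  have := @CA.Ly.K0.eq_1
  have := @CA.Ly.K0.eq_def
  have := @CA.Ly.K0.congr_simp
  have := @CA.Ly.ST.eq_1
  have := @CA.Ly.ST.eq_def
  have := @CA.Ly.ST.congr_simp
  trivial
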