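/-
Lyons' theorem, package A1: the action of the normalizer of the Sylow 2-subgroup.
-/
import Cfsg.Agent.Ly.A0

set_option autoImplicit false
set_option linter.unusedSectionVars false

namespace CA.Ly

open Cfsg CA.FG CA.Blk Subgroup

universe u

variable {G : Type u} [Group G] [Finite G] {ι : T64 →* G}

/-- the action of `N(T)` on `T` -/
noncomputable def act (inj : Function.Injective ι) : 𝒩(ι.range) →* MulAut T64 :=
  (MulAut.congr (MonoidHom.ofInjective inj).symm).toMonoidHom.comp ι.range.normalizerMonoidHom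

theorem act_apply (inj : Function.Injective ι) (g : 𝒩(ι.range)) (t : T64) : ι (act inj g t) = g * ι t * (g : G)⁻¹ :=
  MonoidHom.apply_ofInjective_symm inj _

theorem act_odd (inj : Function.Injective ι) (odd : Odd ι.range.index) (g : 𝒩(ι.range)) :
    ∃ k : ℕ, QuotientGroup.mk' K0 (act inj g) = QuotientGroup.mk' K0 tau ^ k := by
  refine odd_aut (n := ι.range.relIndex 𝒩(ι.range)) (odd.of_dvd_nat (relIndex_dvd_index_of_le le_normalizer)) ?_
  obtain ⟨s, hs⟩ : ((g ^ ι.range.relIndex 𝒩(ι.range) : 𝒩(ι.range)) : G) ∈ ι.range :=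
    pow_index_mem (H := ι.range.subgroupOf 𝒩(ι.range)) g
  intro t
  rw [← map_pow, show act inj (g ^ ι.range.relIndex 𝒩(ι.range)) t = s * t * s⁻¹ from inj (by
    rw [act_apply, ← hs, map_mul, map_mul, map_inv]), cl_iff]
  exact comm_sq t s

theorem K0_fix {φ : MulAut T64} (h : φ ∈ K0) : φ z1 = z1 := by
  rw [← u0_sq, map_mul, sq_cl, h u0, ← sq_cl]

theorem tau3_z1 : (tau ^ 3) z1 = z1 := by rw [tau_pow]; decide +kernel

theorem tau_mod (n : ℕ) : tau ^ n = tau ^ (n % 15) := by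
  conv_lhs => rw [← Nat.mod_add_div n 15, pow_add, pow_mul, tau15, one_pow, mul_one]

theorem conj_K0 {φ ρ : MulAut T64} (h : φ * ρ⁻¹ ∈ K0) (hρ : ρ ^ 15 = 1) (ho : Odd (orderOf φ)) :
    ∃ κ ∈ K0, φ * κ = κ * ρ := by
  have hc : ∀ i : ℕ, φ ^ i * (ρ ^ i)⁻¹ ∈ K0 := fun i => by
    rw [← QuotientGroup.eq_one_iff, QuotientGroup.mk_mul, QuotientGroup.mk_inv, mul_inv_eq_one] at h ⊢
    rw [QuotientGroup.mk_pow, h, QuotientGroup.mk_pow]
  have h15 : φ ^ 15 = 1 := by
    have := hc 15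
    rw [hρ, inv_one, mul_one] at this
    exact eq_one_of_odd (k := 1) (fun e => Nat.two_dvd_ne_zero.2 (Nat.odd_iff.1 ho) (e.trans (orderOf_pow_dvd 15)))
      (by rw [pow_one, pow_two, K0_sq this])
  have sq : ∀ a : K0, a * a = 1 := fun a => Subtype.ext (K0_sq a.2)
  letI : CommGroup K0 := { (inferInstance : Group K0) with
    mul_comm := fun a b => by
      rw [eq_inv_of_mul_eq_one_left (sq (b * a)), mul_inv_rev, ← eq_inv_of_mul_eq_one_left (sq a),
        ← eq_inv_of_mul_eq_one_left (sq b)] }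
  let c : ℕ → K0 := fun i => ⟨_, hc i⟩
  have h1 : ∀ i, MulAut.conjNormal φ (c i) * c 1 = c (i + 1) := fun i => Subtype.ext (by
    simp only [c, coe_mul, MulAut.conjNormal_apply, pow_succ' φ, pow_succ' ρ, pow_zero]; group)
  have h2 : MulAut.conjNormal φ (∏ i ∈ Finset.range 15, c i) * c 1 = ∏ i ∈ Finset.range 15, c i := by
    have e1 : ∏ i ∈ Finset.range 15, c (i + 1) = ∏ i ∈ Finset.range 15, c i := by
      have := (Finset.prod_range_succ' c 15).symm.trans (Finset.prod_range_succ c 15)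
      rwa [show c 0 = c 15 from Subtype.ext (by simp [c, h15, hρ]), mul_left_inj] at this
    refine Eq.trans ?_ e1
    rw [← Finset.prod_congr rfl fun i _ => h1 i, Finset.prod_mul_distrib, Finset.prod_const, Finset.card_range,
      ← map_prod, show c 1 ^ 15 = (c 1 * c 1) ^ 7 * c 1 by rw [← pow_two, ← pow_mul, ← pow_succ], sq, one_pow, one_mul]
  refine ⟨_, (∏ i ∈ Finset.range 15, c i).2, ?_⟩
  have := congrArg Subtype.val h2
  simp only [c, coe_mul, MulAut.conjNormal_apply, pow_one] at this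
  rw [← this]
  conv_lhs => rw [this]
  group

theorem fus_of (inj : Function.Injective ι) (odd : Odd ι.range.index) (m : ℕ) (g : 𝒩(ι.range))
    (hg : QuotientGroup.mk' K0 (act inj g) = QuotientGroup.mk' K0 tau ^ m)
    (hn : ∀ x : 𝒩(ι.range), ∃ j : ℕ, QuotientGroup.mk' K0 (act inj x) = QuotientGroup.mk' K0 tau ^ (m * j)) :
    ∃ (ι' : T64 →* G) (h : G), Fus ι' h m := by
  let h := g ^ 16 ^ Nat.card G
  have ho : Odd (orderOf h) := by
    rw [← Nat.not_even_iff_odd, even_iff_two_dvd, orderOf_pow]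
    have h0 := (orderOf_pos g).ne'
    have h1 : 2 ^ (orderOf g).factorization 2 ∣ Nat.gcd (orderOf g) (16 ^ Nat.card G) :=
      Nat.dvd_gcd (Nat.ordProj_dvd _ _) (by
        rw [show 16 = 2 ^ 4 from rfl, ← pow_mul]
        have := Nat.le_of_dvd Nat.card_pos ((orderOf_dvd_natCard g).trans (card_subgroup_dvd_card _))
        exact pow_dvd_pow 2 ((Nat.factorization_lt 2 h0).le.trans (by omega)))
    intro e
    have := Nat.mul_dvd_mul h1 e
    rw [Nat.mul_div_cancel' (Nat.gcd_dvd_left _ _), ← pow_succ] at this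
    exact Nat.pow_succ_factorization_not_dvd h0 Nat.prime_two this
  have hh : QuotientGroup.mk' K0 (act inj h) = QuotientGroup.mk' K0 (tau ^ m) := by
    rw [map_pow, map_pow, hg, ← map_pow, ← map_pow, ← pow_mul, tau_mod, Nat.mul_mod, Nat.pow_mod]
    simp [← tau_mod]
  obtain ⟨κ, hκ, e⟩ := conj_K0 (φ := act inj h) (ρ := tau ^ m) (by
    rw [← QuotientGroup.eq_one_iff, QuotientGroup.mk_mul, QuotientGroup.mk_inv, mul_inv_eq_one]; exact hh)
    (by rw [← pow_mul, mul_comm, pow_mul, tau15, one_pow]) (ho.of_dvd_nat (orderOf_map_dvd _ h))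
  have hr : (ι.comp κ.toMonoidHom).range = ι.range := by
    rw [MonoidHom.range_comp, MonoidHom.range_eq_top.2 κ.surjective, ← MonoidHom.range_eq_map]
  refine ⟨ι.comp κ.toMonoidHom, h, inj.comp κ.injective, hr ▸ odd, by rwa [orderOf_coe], fun t => ?_, fun x hx => ?_⟩
  · exact (act_apply inj h (κ t)).symm.trans (congrArg ι (congrArg (· t) e))
  · rw [hr] at hx
    obtain ⟨j, hj⟩ := hn ⟨x, hx⟩
    refine ⟨j, fun t => ⟨((tau ^ (m * j)) t)⁻¹ * κ⁻¹ (act inj ⟨x, hx⟩ (κ t)), (cl_iff _ _).1 ?_, ?_⟩⟩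
    · rw [inv_mem hκ, cl_map _ (hκ t)]
      have := cl_map (tau ^ (m * j)) (QuotientGroup.eq.1 ((map_pow _ tau _).trans hj.symm) t)
      rwa [MulAut.mul_apply, MulAut.apply_inv_self] at this
    · rw [mul_inv_cancel_left]
      exact (act_apply inj ⟨x, hx⟩ (κ t)).symm.trans (congrArg ι (MulAut.apply_inv_self _ κ _).symm)

theorem not_comm_of (inj : Function.Injective ι) : ¬ IsMulCommutative G := fun h =>
  absurd (inj (show ι (mk 1 * mk 2) = ι (mk 2 * mk 1) by rw [map_mul, map_mul, h.1.1])) (by decide +kernel)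

theorem exists_fus [IsSimpleGroup G] (ι : T64 →* G) (inj : Function.Injective ι) (odd : Odd ι.range.index) :
    ∃ (ι' : T64 →* G) (h : G), Fus ι' h 1 ∨ Fus ι' h 5 := by
  have oz := ord_of inj z1_sq z1_ne
  obtain ⟨g, hc, hne⟩ := exists_fused_of_simple (not_comm_of inj) oz
  obtain ⟨t, c, hc, e⟩ := conj_in_of odd (range_le_cent ι z1_sq) (mem_centralizer_singleton_iff.2 hc.symm) (k := 1)
    (by rw [conj_pow, pow_one, ← oz, pow_orderOf_eq_one]; group)
  have e' : c⁻¹ * g * ι z1 * (c⁻¹ * g)⁻¹ = ι t := by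
    rw [show c⁻¹ * g * ι z1 * (c⁻¹ * g)⁻¹ = c⁻¹ * (g * ι z1 * g⁻¹) * c by group, ← e]; group
  have t2 : t * t = 1 := inj (by rw [map_mul, ← e', conj_mul, ← map_mul, z1_sq, map_one]; group)
  obtain ⟨n, hn, en⟩ := burn_fuse Nat.prime_two (syl_of odd le_top) (mem_top (c⁻¹ * g)) (range_le_cent ι z1_sq)
    (range_le_cent ι t2) e'
  obtain ⟨k₀, h₀⟩ := act_odd inj odd ⟨n, hn.2⟩
  have k3 : ¬ 3 ∣ k₀ := by
    rintro ⟨j, rfl⟩
    have h1 := K0_fix (QuotientGroup.eq.1 ((map_pow _ tau _).trans h₀.symm))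
    rw [MulAut.mul_apply, MulAut.inv_def, MulEquiv.symm_apply_eq] at h1
    have h2 : ∀ j, (tau ^ (3 * j)) z1 = z1 := fun j => by
      induction j with
      | zero => rfl
      | succ j ih => rw [Nat.mul_succ, pow_add, MulAut.mul_apply, tau3_z1, ih]
    have h3 := act_apply inj ⟨n, hn.2⟩ z1
    rw [h1, h2, en] at h3
    exact hne (by rw [← e, ← h3, mem_centralizer_singleton_iff.1 hc]; group)
  have md : ∀ a b : ℕ, a % 15 = b % 15 → QuotientGroup.mk' K0 tau ^ a = QuotientGroup.mk' K0 tau ^ b := fun a b e => by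
    rw [← map_pow, ← map_pow, tau_mod, e, ← tau_mod]
  by_cases h1 : ∃ g : 𝒩(ι.range), QuotientGroup.mk' K0 (act inj g) = QuotientGroup.mk' K0 tau ^ 1
  · obtain ⟨g, hg⟩ := h1
    obtain ⟨ι', h, F⟩ := fus_of inj odd 1 g hg fun x => by simpa only [one_mul] using act_odd inj odd x
    exact ⟨ι', h, .inl F⟩
  · have h2 : ∀ (g : 𝒩(ι.range)) (k : ℕ), QuotientGroup.mk' K0 (act inj g) = QuotientGroup.mk' K0 tau ^ k →
        3 ∣ k ∨ 5 ∣ k := fun g k e => by
      by_contra hk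
      refine h1 ⟨g ^ k ^ 3, ?_⟩
      rw [map_pow, map_pow, e, ← pow_mul]
      refine md _ _ ?_
      rw [Nat.mul_mod, Nat.pow_mod]
      have : k % 15 < 15 := Nat.mod_lt _ (by decide)
      have h3 : ¬ (3 ∣ k % 15 ∨ 5 ∣ k % 15) := by omega
      generalize k % 15 = r at *
      interval_cases r <;> simp_all
    have k5 := (h2 _ _ h₀).resolve_left k3
    obtain ⟨ι', h, F⟩ := fus_of inj odd 5 (⟨n, hn.2⟩ ^ (k₀ % 3 * 2)) (by
      rw [map_pow, map_pow, h₀, ← pow_mul]
      refine md _ _ ?_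
      have : k₀ % 3 = 1 ∨ k₀ % 3 = 2 := by omega
      rcases this with e | e <;> rw [e] <;> omega) fun x => by
      obtain ⟨k, hk⟩ := act_odd inj odd x
      obtain ⟨j, rfl⟩ : 5 ∣ k := by
        have a := h2 _ _ hk
        have b := h2 (x * ⟨n, hn.2⟩) (k + k₀) (by rw [map_mul, map_mul, hk, h₀, pow_add])
        omega
      exact ⟨j, hk⟩
    exact ⟨ι', h, .inr F⟩

end CA.Ly

theorem CA.realizeEqns_Ly_A1 : True := by
  have := @CA.Ly.act.eq_1.{0}
  have := @CA.Ly.act.eq_def.{0}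
  have := @CA.Ly.act.congr_simp.{0}
  trivial
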