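/-
Lyons' theorem, package C: a group with Sylow 2-subgroup `2⁴` and automizer of order 1 or 5 is 2-closed modulo its core.
-/
import Cfsg.Agent.Ly.A1
import Cfsg.Agent.Blk.Q8a
import Cfsg.Agent.BG.I01

set_option autoImplicit false
set_option linter.unusedSectionVars false

open scoped ComplexConjugate

namespace CA.Ly

open Cfsg CA.FG CA.BG CA.Blk CA.Chr Subgroup

universe u

variable {X : Type u} [Group X] [Finite X]

theorem sum_sq_npc {u : X} {k : ℕ} (hu : u ^ 2 ^ k = 1) {K : Subgroup (centralizer ({u} : Set X))} [K.Normal]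
    (h2 : ¬ 2 ∣ Nat.card K) (h4 : ∀ y, y ∈ K ↔ ¬ 2 ∣ orderOf y) : ∑ θ ∈ B0 2 X, θ u * conj (θ u) = K.index := by
  cases nonempty_fintype K
  let f : X → ℂ := ∑ χ ∈ irr X, conj (χ u) • χ
  have hf : f ∈ CF X := Subalgebra.sum_mem _ fun χ hχ => Subalgebra.smul_mem _ (IsIrr.mem_CF (mem_irr.mp hχ)) _
  have hf' : ∀ g, f g = ∑ χ ∈ irr X, χ g * conj (χ u) := fun g => by simp [f, mul_comm]
  let u' : centralizer ({u} : Set X) := ⟨u, mem_centralizer_singleton_iff.mpr rfl⟩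
  have := second_main Nat.prime_two hu rfl hf u' (mem_zpowers u)
  rw [proj0_of_npc Nat.prime_two h2 h4 (CF_comp hf _), Finset.sum_eq_single 1 (fun y _ k1 => ?_) (by simp),
    proj_apply] at this
  · simp only [Function.comp_apply, OneMemClass.coe_one, mul_one, subtype_apply, hf', u'] at this
    rw [second_orth_conj (IsConj.refl u), ← K.card_mul_index, Nat.cast_mul, inv_mul_cancel_left₀ card_ne_zero] at this
    rw [← this]
    exact Finset.sum_congr rfl fun θ hθ => by rw [dot_sum_irr (fun χ => conj (χ u)) (B0_irr hθ), mul_comm]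
  · rw [Function.comp_apply, hf', second_orth_not_conj fun c => k1 ?_]
    have o := orderOf_eq_of_isConj c
    have c : Commute u' y := Subtype.ext (mem_centralizer_singleton_iff.mp y.1.2).symm
    have o4 : orderOf u' = orderOf u := orderOf_mk _ _
    rw [subtype_apply, orderOf_coe, c.orderOf_mul_eq_mul_orderOf_of_coprime (o4 ▸ Nat.Coprime.coprime_dvd_left
      (orderOf_dvd_of_pow_eq_one hu) (Nat.Coprime.pow_left k ((Nat.Prime.coprime_iff_not_dvd Nat.prime_two).mpr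
        ((h4 _).mp y.2)))), o4] at o
    exact Subtype.ext (orderOf_eq_one_iff.mp (Nat.eq_of_mul_eq_mul_left (orderOf_pos u) (by rw [← o, mul_one])))

theorem four_sum {χ : X → ℂ} (h : IsCharacter X χ) {a b : X} (ha : a * a = 1) (hb : b * b = 1) (c : Commute a b) :
    ∃ m n : ℤ, χ a = m ∧ χ 1 + χ a + χ b + χ (a * b) = 4 * n := by
  obtain ⟨s, -, h2, h3⟩ := exists_pair h c
  have e : ∀ {x : X} {z : ℂ}, x * x = 1 → z ^ orderOf x = 1 → z = 1 ∨ z = -1 := fun {x z} hx hz => by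
    obtain ⟨k, hk⟩ := orderOf_dvd_of_pow_eq_one (show x ^ 2 = 1 by rw [pow_two, hx])
    exact sq_eq_one_iff.1 (by rw [hk, pow_mul, hz, one_pow])
  have e0 := h3 0 0
  have e1 := h3 1 0
  have e2 := h3 0 1
  have e3 := h3 1 1
  simp only [pow_zero, pow_one, mul_one, one_mul] at e0 e1 e2 e3
  rw [e0, e1, e2, e3]
  clear e0 e1 e2 e3 h3
  induction s using Multiset.induction_on with
  | empty => exact ⟨0, 0, by simp, by simp⟩
  | cons z s ih =>
    obtain ⟨m, n, h5, h6⟩ := ih fun w hw => h2 w (Multiset.mem_cons_of_mem hw)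
    obtain ⟨z1, z2⟩ := h2 z (Multiset.mem_cons_self _ _)
    simp only [Multiset.map_cons, Multiset.sum_cons]
    rcases e ha z1 with e1 | e1 <;> rcases e hb z2 with e2 | e2 <;> rw [e1, e2]
    · exact ⟨m + 1, n + 1, by push_cast; linear_combination h5, by push_cast; linear_combination h6⟩
    · exact ⟨m + 1, n, by push_cast; linear_combination h5, by linear_combination h6⟩
    · exact ⟨m - 1, n, by push_cast; linear_combination h5, by linear_combination h6⟩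
    · exact ⟨m - 1, n, by push_cast; linear_combination h5, by linear_combination h6⟩

theorem row_chk : ∀ x ∈ Finset.Icc (-3 : ℤ) 3, ∀ y ∈ Finset.Icc (-3 : ℤ) 3, ∀ z ∈ Finset.Icc (-3 : ℤ) 3,
    (x - z) % 4 = 0 → (y - z) % 4 = 0 → (x = y → y = z → x = 0) → ∃ p : ℕ × ℕ × ℕ,
      x * x + y * y + z * z = 11 * p.1 + 19 * p.2.1 + 12 * p.2.2 ∧
        x * x + y * y + z * z - (x * y + x * z + y * z) = 16 * (p.1 + p.2.1 + p.2.2) := by
  intro x hx y hy z hz h1 h2 h3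
  refine ⟨(if x * x + y * y + z * z = 11 then 1 else 0, if x * x + y * y + z * z = 19 then 1 else 0,
    if x * x + y * y + z * z = 12 then 1 else 0), ?_⟩
  revert x y z
  decide +kernel

theorem rows_false {I : Type*} (B : Finset I) (x y z : I → ℤ) (h1 : ∀ i ∈ B, (x i - z i) % 4 = 0)
    (h2 : ∀ i ∈ B, (y i - z i) % 4 = 0) (h3 : ∀ i ∈ B, x i = y i → y i = z i → x i = 0)
    (xx : ∑ i ∈ B, x i * x i = 15) (yy : ∑ i ∈ B, y i * y i = 15) (zz : ∑ i ∈ B, z i * z i = 15)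
    (xy : ∑ i ∈ B, x i * y i = -1) (xz : ∑ i ∈ B, x i * z i = -1) (yz : ∑ i ∈ B, y i * z i = -1) : False := by
  have b : ∀ w : I → ℤ, ∑ i ∈ B, w i * w i = 15 → ∀ i ∈ B, w i ∈ Finset.Icc (-3 : ℤ) 3 := fun w hw i hi => by
    have := Finset.single_le_sum (f := fun i => w i * w i) (fun j _ => mul_self_nonneg _) hi
    rw [hw] at this
    exact Finset.mem_Icc.2 ⟨by nlinarith, by nlinarith⟩
  choose! p hp using fun i hi => row_chk _ (b x xx i hi) _ (b y yy i hi) _ (b z zz i hi) (h1 i hi) (h2 i hi) (h3 i hi)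
  have e1 := Finset.sum_congr rfl fun i hi => (hp i hi).1
  have e2 := Finset.sum_congr rfl fun i hi => (hp i hi).2
  simp only [Finset.sum_add_distrib, Finset.sum_sub_distrib, ← Finset.mul_sum, xx, yy, zz, xy, xz, yz,
    ← Nat.cast_sum] at e1 e2
  omega

/-- `a` maps `T64` onto a Sylow subgroup `A = T / Z` whose normalizer acts as a subgroup of `⟨tau ^ 3⟩` -/
structure EA (a : T64 →* X) : Prop where
  ker : ∀ x, a x = 1 ↔ x * x = 1
  syl : IsSylowOf 2 a.range ⊤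
  norm : ∀ g ∈ 𝒩(a.range), ∃ j : ℕ, ∀ t, g * a t * g⁻¹ = a ((tau ^ (3 * j)) t)

theorem tau3_mod (j : ℕ) (t : T64) : (tau ^ (3 * j)) t = tauF^[3 * (j % 5)] t := by
  rw [tau_mod, ← tau_pow, show 3 * j % 15 = 3 * (j % 5) by omega]

theorem cls_chk (t : T64) : t * t ≠ 1 → (∃ i < 3, ∃ j < 5, cl (tauF^[3 * j] (Ly.mk (2 ^ i))) = cl t) ∧
    ∀ j < 5, cl (tauF^[3 * j] t) = cl t → j = 0 :=
  of_decide_eq_true (allT_spec (p := fun t => decide (t * t ≠ 1 → (∃ i < 3, ∃ j < 5,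
    cl (tauF^[3 * j] (Ly.mk (2 ^ i))) = cl t) ∧ ∀ j < 5, cl (tauF^[3 * j] t) = cl t → j = 0)) (by decide +kernel) t)

theorem ncl_chk : ∀ i < 3, ∀ k < 3, ∀ j < 5, cl (tauF^[3 * j] (Ly.mk (2 ^ i))) = cl (Ly.mk (2 ^ k)) → i = k := by
  decide +kernel

namespace EA

variable {a : T64 →* X} (E : EA a)
include E

theorem eq_iff {x y : T64} : a x = a y ↔ cl x = cl y := by
  rw [cl_iff, ← E.ker, map_mul, map_inv, inv_mul_eq_one, eq_comm]

theorem sq (t : T64) : a t * a t = 1 := by rw [← map_mul, E.ker, pow_four]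

theorem le_c (t : T64) : a.range ≤ 𝒞[a t] := by
  rintro _ ⟨s, rfl⟩
  rw [mem_centralizer_singleton_iff, ← map_mul, ← map_mul, E.eq_iff, cl_mul, cl_mul, Nat.xor_comm]

theorem card : Nat.card a.range = 16 := by
  have h1 : Nat.card a.ker = 4 := by
    refine (Nat.card_congr (Equiv.subtypeEquivRight (q := fun x => x * x = 1) fun x => E.ker x)).trans ?_
    rw [Nat.card_eq_fintype_card]
    decide +kernel
  have := card_eq_card_quotient_mul_card_subgroup a.ker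
  rw [card_T64, h1, Nat.card_congr (QuotientGroup.quotientKerEquivRange a).toEquiv] at this
  omega

theorem fuse {s t : T64} (c : IsConj (a s) (a t)) : ∃ j < 5, cl (tauF^[3 * j] s) = cl t := by
  obtain ⟨g, e⟩ := isConj_iff.1 c
  obtain ⟨n, hn, e⟩ := burn_fuse Nat.prime_two E.syl (mem_top g) (E.le_c s) (E.le_c t) e
  obtain ⟨j, hj⟩ := E.norm n hn.2
  exact ⟨j % 5, Nat.mod_lt _ (by decide), by rw [← tau3_mod, ← E.eq_iff, ← hj, e]⟩

theorem npc {t : T64} (ht : t * t ≠ 1) : ∃ K : Subgroup 𝒞[a t], K.Normal ∧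
    ¬ 2 ∣ Nat.card K ∧ K.index = 16 ∧ ∀ y, y ∈ K ↔ ¬ 2 ∣ orderOf y := by
  obtain ⟨S, hS⟩ := E.syl.exists_sylow_top Nat.prime_two
  have hle : (S : Subgroup X) ≤ 𝒞[a t] := hS ▸ E.le_c t
  obtain ⟨K, h1, h2, h3, h4⟩ := exists_npc Nat.prime_two (S.subtype hle) fun n hn => by
    have h5 : (n : X) ∈ 𝒩(a.range) := hS ▸ zpowers_le.1
      ((subgroupOf_norm_iff (zpowers_le.2 n.2) hle).1 fun m hm => by
        obtain ⟨k, hk⟩ := mem_subgroupOf.1 hm
        rw [show m = n ^ k from Subtype.ext hk.symm]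
        exact zpow_mem hn k)
    obtain ⟨j, hj⟩ := E.norm n h5
    have h6 := hj t
    rw [mem_centralizer_singleton_iff.1 n.2, mul_inv_cancel_right, E.eq_iff, tau3_mod] at h6
    have h7 := (cls_chk t ht).2 _ (Nat.mod_lt _ (by decide)) h6.symm
    intro y hy
    obtain ⟨s, hs⟩ : (y : X) ∈ a.range := hS ▸ hy
    have := hj s
    rw [tau3_mod, h7, hs] at this
    exact Subtype.ext (mul_inv_eq_iff_eq_mul.1 (this.trans hs)).symm
  exact ⟨K, h1, h2, h3.trans ((card_subgroupOf hle).trans (hS ▸ E.card)), h4⟩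

theorem sing {g : X} (hg : 2 ∣ orderOf g) : ∃ t, t * t ≠ 1 ∧ ∀ χ ∈ B0 2 X, χ g = χ (a t) := by
  obtain ⟨y, z, -, -, py, pz, rfl, c⟩ := exists_piPart {2} g
  obtain ⟨x, -, l⟩ := sylow_Jsub (Q := zpowers y) Nat.prime_two E.syl (piGrp_zpowers_iff.2 py) le_top
  obtain ⟨t, ht⟩ := l (mem_conjg'.2 ⟨y, mem_zpowers y, rfl⟩)
  have oz : ¬ 2 ∣ orderOf z := fun e => pz 2 Nat.prime_two e rfl
  have t1 : t * t ≠ 1 := fun e => by
    rw [← E.ker, ht, conj_eq_one_iff] at e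
    rw [e, one_mul] at hg
    exact oz hg
  obtain ⟨K, _, h2, -, h4⟩ := E.npc t1
  refine ⟨t, t1, fun χ hχ => ?_⟩
  rw [← CF_conj (IsIrr.mem_CF (B0_irr hχ)) (y * z) x, ← conj_mul, ← ht]
  exact B0_mul_core (k := 1) Nat.prime_two (by rw [pow_one, pow_two, E.sq]) h2
    (y := ⟨x * z * x⁻¹, mem_centralizer_singleton_iff.2 (by rw [ht, conj_mul, conj_mul, c])⟩)
    ((h4 _).2 (by rwa [orderOf_mk, ← orderOf_eq_of_isConj (isConj_iff.2 ⟨x, rfl⟩)])) hχ

theorem exists_char {h : X} (hh : ∀ t, h * a t * h⁻¹ = a ((tau ^ 3) t)) :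
    ∃ χ, IsIrrCharacter X χ ∧ χ ≠ 1 ∧ a.range ≤ cfker χ := by
  classical
  cases nonempty_fintype X
  have cj : ∀ (j : ℕ) (s t : T64), cl (tauF^[3 * j] s) = cl t → IsConj (a s) (a t) := fun j s t e => by
    rw [← E.eq_iff.2 e, ← tau_pow]
    clear e
    induction j with
    | zero => exact IsConj.refl _
    | succ j ih => exact ih.trans (isConj_iff.2 ⟨h, by rw [hh, Nat.mul_succ, add_comm, pow_add]; rfl⟩)
  have nc : ∀ i < 3, ∀ k < 3, i ≠ k → ¬ IsConj (a (Ly.mk (2 ^ i))) (a (Ly.mk (2 ^ k))) := fun i hi k hk ne c => by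
    obtain ⟨j, hj, e⟩ := E.fuse c
    exact ne (ncl_chk i hi k hk j hj e)
  have n1 : ∀ i < 3, Ly.mk (2 ^ i) * Ly.mk (2 ^ i) ≠ 1 := by decide +kernel
  have hc : ∀ χ ∈ B0 2 X, IsCharacter X χ := fun χ hχ => IsIrr.isChar (B0_irr hχ)
  choose! v hv using fun (i : ℕ) (χ : X → ℂ) (hχ : χ ∈ B0 2 X) =>
    (four_sum (hc χ hχ) (E.sq (Ly.mk (2 ^ i))) (one_mul 1) (Commute.one_right _)).imp fun m h => h.choose_spec.1
  have orth : ∀ i < 3, ∀ k < 3, ∑ χ ∈ (B0 2 X).erase 1, v i χ * v k χ = (if i = k then 16 else 0) - 1 :=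
    fun i hi k hk => by
      have o1 := one_mem_B0 (G := X) Nat.prime_two
      have e1 : ∀ i, v i 1 = 1 := fun i => Int.cast_injective (α := ℂ) ((hv i 1 o1).symm.trans (by simp))
      have e2 := Finset.sum_erase_add _ (fun χ => v i χ * v k χ) o1
      simp only [e1, mul_one] at e2
      rw [eq_sub_iff_add_eq, e2, ← Int.cast_inj (α := ℂ), Int.cast_sum,
        Finset.sum_congr rfl (g := fun χ => χ (a (Ly.mk (2 ^ i))) * conj (χ (a (Ly.mk (2 ^ k))))) fun χ hχ => by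
          rw [hv i χ hχ, hv k χ hχ]; simp]
      split_ifs with e
      · subst e
        obtain ⟨K, _, h2, h3, h4⟩ := E.npc (n1 i hi)
        rw [sum_sq_npc (k := 1) (by rw [pow_one, pow_two, E.sq]) h2 h4, h3]; simp
      · rw [B0_orth Nat.prime_two fun n hn c => nc i hi k hk e ?_]; simp
        obtain ⟨r, rfl⟩ : Odd n := Nat.odd_iff.2 (Nat.two_dvd_ne_zero.1 hn)
        simpa only [pow_succ _ (2 * r), pow_mul, pow_two, one_mul, E.sq, one_pow] using c
  have val : ∀ χ ∈ B0 2 X, ∀ i j s, cl (tauF^[3 * j] (Ly.mk (2 ^ i))) = cl s → χ (a s) = v i χ := fun χ hχ i j s e =>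
    (CF_isConj (IsIrr.mem_CF (B0_irr hχ)) (cj j _ _ e)).symm.trans (hv i χ hχ)
  have cong : ∀ χ ∈ B0 2 X, ∀ i j k l k' l' : ℕ, cl (tauF^[3 * l] (Ly.mk (2 ^ k))) = cl (Ly.mk (2 ^ i) * tauF^[3 * j] (Ly.mk (2 ^ i))) →
      cl (tauF^[3 * l'] (Ly.mk (2 ^ k'))) = cl (Ly.mk (2 ^ i) * tauF^[3 * (j + 1)] (Ly.mk (2 ^ i))) →
      (v k χ - v k' χ) % 4 = 0 := fun χ hχ i j k l k' l' e e' => by
    obtain ⟨-, n, -, h1⟩ := four_sum (hc χ hχ) (E.sq (Ly.mk (2 ^ i))) (E.sq (tauF^[3 * j] (Ly.mk (2 ^ i))))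
      (mem_centralizer_singleton_iff.1 (E.le_c _ ⟨_, rfl⟩))
    obtain ⟨-, n', -, h2⟩ := four_sum (hc χ hχ) (E.sq (Ly.mk (2 ^ i))) (E.sq (tauF^[3 * (j + 1)] (Ly.mk (2 ^ i))))
      (mem_centralizer_singleton_iff.1 (E.le_c _ ⟨_, rfl⟩))
    rw [← map_mul, val χ hχ k l _ e, val χ hχ i j _ rfl] at h1
    rw [← map_mul, val χ hχ k' l' _ e', val χ hχ i (j + 1) _ rfl] at h2
    have : v k χ - v k' χ = 4 * (n - n') := by
      rw [← Int.cast_inj (α := ℂ)]; push_cast; linear_combination h1 - h2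
    omega
  by_contra! H
  refine rows_false ((B0 2 X).erase 1) (v 0) (v 1) (v 2)
    (fun χ hχ => cong χ (Finset.mem_of_mem_erase hχ) 1 1 0 0 2 4 (by decide +kernel) (by decide +kernel))
    (fun χ hχ => by
      have := cong χ (Finset.mem_of_mem_erase hχ) 0 1 2 4 1 4 (by decide +kernel) (by decide +kernel); omega)
    (fun χ hχ e1 e2 => ?_) (orth 0 (by decide) 0 (by decide)) (orth 1 (by decide) 1 (by decide))
    (orth 2 (by decide) 2 (by decide)) (orth 0 (by decide) 1 (by decide)) (orth 0 (by decide) 2 (by decide))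
    (orth 1 (by decide) 2 (by decide))
  obtain ⟨ne, hχ⟩ := Finset.mem_erase.1 hχ
  have hi := B0_irr hχ
  have all : ∀ t, t * t ≠ 1 → χ (a t) = v 0 χ := fun t ht => by
    obtain ⟨i, hi, j, -, e⟩ := (cls_chk t ht).1
    rw [val χ hχ i j t e]
    interval_cases i <;> simp only [e1, e2]
  by_contra x0
  have key := IsIrr.sum_conj_mul hi (a (Ly.mk (2 ^ 0))) (a (Ly.mk (2 ^ 1)))
  rw [Finset.sum_congr rfl (g := fun _ => (v 0 χ : ℂ)) fun x _ => ?_, hv 0 χ hχ, hv 1 χ hχ, ← e1, Finset.sum_const,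
    Finset.card_univ, ← Nat.card_eq_fintype_card, nsmul_eq_mul, mul_left_comm, mul_right_inj' card_ne_zero,
    mul_left_inj' (Int.cast_ne_zero.2 x0)] at key
  · refine H χ hi ne ?_
    rintro _ ⟨t, rfl⟩
    by_cases ht : t * t = 1
    · rw [(E.ker t).2 ht]; exact one_mem _
    · exact (IsIrr.mem_cfker hi).2 ((all t ht).trans key.symm)
  · obtain ⟨t, t1, e⟩ := E.sing (even_iff_two_dvd.1 (CA.Fi.dih_even_of_not_isConj (E.sq (Ly.mk (2 ^ 0)))
      (show x * a (Ly.mk (2 ^ 1)) * x⁻¹ * (x * a (Ly.mk (2 ^ 1)) * x⁻¹) = 1 by rw [conj_mul, E.sq]; group)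
      fun c => nc 0 (by decide) 1 (by decide) (by decide) (c.trans (isConj_iff.2 ⟨x, rfl⟩).symm)))
    rw [e χ hχ, all t t1]

theorem top_of_cent (hO : pPrimeCoreOf 2 (⊤ : Subgroup X) = ⊥) (hn : 𝒩(a.range) ≤ 𝒞(a.range)) : a.range = ⊤ := by
  have := (Burnside_normal_complement Nat.prime_two E.syl (inf_le_right.trans hn)).sup_eq
  rwa [hO, bot_sup_eq] at this

end EA

theorem EA.normal {X : Type u} [Group X] [Finite X] {a : T64 →* X} (E : EA a)
    (hO : pPrimeCoreOf 2 (⊤ : Subgroup X) = ⊥) : ⊤ ≤ 𝒩(a.range) := by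
  generalize hn : Nat.card X = n
  induction n using Nat.strong_induction_on generalizing X with
  | _ n ih =>
  subst hn
  by_cases hc : 𝒩(a.range) ≤ 𝒞(a.range)
  · exact (E.top_of_cent hO hc).ge.trans le_normalizer
  obtain ⟨g, hg, gc⟩ := SetLike.not_le_iff_exists.1 hc
  obtain ⟨j, hj⟩ := E.norm g hg
  have hp : ∀ n t, g ^ n * a t * (g ^ n)⁻¹ = a ((tau ^ (3 * (j * n))) t) := fun n t => by
    induction n with
    | zero => simp
    | succ n ih =>
      rw [pow_succ', show g * g ^ n * a t * (g * g ^ n)⁻¹ = g * (g ^ n * a t * (g ^ n)⁻¹) * g⁻¹ by group, ih, hj,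
        Nat.mul_succ, Nat.mul_add, add_comm, pow_add]
      rfl
  have j5 : j % 5 ≠ 0 := fun e => gc (by
    rintro _ ⟨t, rfl⟩
    have := hj t
    rw [tau3_mod, e] at this
    exact (mul_inv_eq_iff_eq_mul.1 this).symm)
  obtain ⟨χ, hi, ne, hk⟩ := E.exists_char (h := g ^ j ^ 3) fun t => by
    rw [hp, tau3_mod, tau_pow, show j * j ^ 3 % 5 = 1 by
      rw [Nat.mul_mod, Nat.pow_mod]
      have : j % 5 < 5 := Nat.mod_lt _ (by decide)
      generalize j % 5 = r at *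
      interval_cases r <;> simp_all]
  have nN := cfker_normal (IsIrr.mem_CF hi)
  have lt : cfker χ < ⊤ := lt_top_iff_ne_top.2 (IsIrr.cfker_ne_top hi ne)
  generalize cfker χ = N at hk nN lt
  let a' : T64 →* N := a.codRestrict N fun t => hk ⟨t, rfl⟩
  have hr : a'.range = a.range.subgroupOf N := by
    ext x
    exact ⟨fun ⟨t, e⟩ => ⟨t, congrArg Subtype.val e⟩, fun ⟨t, e⟩ => ⟨t, Subtype.ext e⟩⟩
  have sN : IsSylowOf 2 a.range N := E.syl.of_le hk le_top
  have nm : ∀ {x : N}, x ∈ 𝒩(a'.range) → (x : X) ∈ 𝒩(a.range) := fun {x} hx => by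
    rw [hr, ← subgroupOf_normalizer_eq hk] at hx; exact hx
  have h1 := ih _ (by rw [← card_top (G := X)]; exact card_lt_of_lt lt) (a := a')
    ⟨fun x => by rw [← E.ker, ← Subtype.coe_inj]; rfl, by
      rw [hr, ← subgroupOf_self N]; exact (pHall_subgroupOf_iff hk le_rfl).2 sN, fun x hx => by
      obtain ⟨j, hj⟩ := E.norm x (nm hx)
      exact ⟨j, fun t => Subtype.ext (hj t)⟩⟩
    (by
      rw [← subgroupOf_self N, pPrimeCoreOf, ← pcore_subgroupOf _ le_rfl, le_bot_iff.1 ((NormalIn.pcore_le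
        (⟨le_top, (normalizer_eq_top_iff.2 nN).ge⟩ : N ⊲ ⊤) _).trans hO.le), bot_subgroupOf]) rfl
  exact (normalizer_eq_top_iff.2 nN).ge.trans (sN.norm_le_norm fun x hx => nm (x := ⟨x, hx⟩) (h1 (mem_top _)))

end CA.Ly

theorem CA.realizeEqns_Ly_B1 : True := by

  trivial
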