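/-
Lyons' theorem, package B: the centralizer of the central involution modulo its core.
-/
import Cfsg.Agent.Ly.B1

set_option autoImplicit false
set_option linter.unusedSectionVars false

namespace CA.Ly

open Cfsg CA.FG CA.BG CA.Blk Subgroup

universe u

variable {Y : Type u} [Group Y] [Finite Y]

theorem lift_norm {Y' : Type u} [Group Y'] [Finite Y'] {f : Y →* Y'} (hf : Function.Surjective f) {T : Subgroup Y}
    (hT : IsSylowOf 2 T ⊤) {g : Y'} (hg : g ∈ 𝒩(T.map f)) : ∃ n ∈ 𝒩(T), f n = g := by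
  obtain ⟨g, rfl⟩ := hf g
  obtain ⟨x, hx, n, hn, rfl⟩ := frattini_arg_mem (K := (T.map f).comap f) Nat.prime_two
    (hT.of_le (le_comap_map f T) le_top) (le_normalizer_comap f hg)
  obtain ⟨t, ht, e⟩ := hx
  exact ⟨t * n, mul_mem (le_normalizer ht) hn, by rw [map_mul, map_mul, e]⟩

structure TD (j : T64 →* Y) (d : ℕ) : Prop where
  syl : IsSylowOf 2 j.range ⊤
  norm : ∀ g ∈ 𝒩(j.range), ∃ k : ℕ, ∀ t, ∃ c, c * c = 1 ∧ g * j t * g⁻¹ = j ((tau ^ (3 * (d * k))) t * c)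

theorem TD.map {j : T64 →* Y} {d : ℕ} (h : TD j d) {Y' : Type u} [Group Y'] [Finite Y'] {f : Y →* Y'}
    (hf : Function.Surjective f) : TD (f.comp j) d where
  syl := by
    have := h.syl.map f
    rwa [map_top_of_surjective f hf, ← MonoidHom.range_comp] at this
  norm g hg := by
    rw [MonoidHom.range_comp] at hg
    obtain ⟨n, hn, rfl⟩ := lift_norm hf h.syl hg
    obtain ⟨k, hk⟩ := h.norm n hn
    refine ⟨k, fun t => (hk t).imp fun c hc => ⟨hc.1, ?_⟩⟩
    rw [MonoidHom.comp_apply, MonoidHom.comp_apply, ← hc.2, map_mul, map_mul, map_inv]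

theorem cnj_sq {j : T64 →* Y} {g : Y} {u v c : T64} (hc : c * c = 1) (e : g * j u * g⁻¹ = j (v * c)) :
    g * j (u * u) * g⁻¹ = j (v * v) := by
  rw [map_mul, ← conj_mul, e, ← map_mul, mul_assoc, ← mul_assoc c, central hc v, mul_assoc, hc, mul_one]

theorem exists_sqrt {c : T64} (h : c * c = 1) : ∃ u, c = u * u := by
  have : c = 1 * 1 ∨ c = mk 1 * mk 1 ∨ c = mk 6 * mk 6 ∨ c = mk 2 * mk 2 := by
    rcases sq_eq_one h with rfl | rfl | rfl | rfl <;> decide +kernel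
  rcases this with e | e | e | e <;> exact ⟨_, e⟩

theorem tau3_fix (k : ℕ) {c : T64} (h : c * c = 1) : (tau ^ (3 * k)) c = c := by
  have : (tau ^ 3) c = c := by
    rw [tau_pow]; rcases sq_eq_one h with rfl | rfl | rfl | rfl <;> decide +kernel
  induction k with
  | zero => rfl
  | succ k ih => rw [Nat.mul_succ, pow_add, MulAut.mul_apply, this, ih]

theorem Fus.td {G : Type u} [Group G] [Finite G] {ι : T64 →* G} {h : G} {m : ℕ} (F : Fus ι h m) (hm : m = 1 ∨ m = 5) :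
    TD (iC ι) m := by
  have hk := range_le_cent ι z1_sq
  have hr : (iC ι).range = ι.range.subgroupOf 𝒞[ι z1] := by
    ext x
    exact ⟨fun ⟨t, e⟩ => ⟨t, congrArg Subtype.val e⟩, fun ⟨t, e⟩ => ⟨t, Subtype.ext e⟩⟩
  refine ⟨by rw [hr, ← subgroupOf_self 𝒞[ι z1]]; exact (pHall_subgroupOf_iff hk le_rfl).2 (F.syl hk), fun g hg => ?_⟩
  rw [hr, ← subgroupOf_normalizer_eq hk] at hg
  obtain ⟨j, hj⟩ := F.norm g hg
  obtain ⟨c, hc, e⟩ := hj u0
  have h1 := cnj_sq hc e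
  rw [u0_sq, mem_centralizer_singleton_iff.1 g.2, mul_inv_cancel_right, ← map_mul, u0_sq, tau_mod, tau_pow] at h1
  have h2 : ∀ r < 15, z1 = tauF^[r] z1 → 3 ∣ r := by decide +kernel
  have h3 := h2 _ (Nat.mod_lt _ (by decide)) (F.inj h1)
  obtain ⟨k, rfl⟩ : 3 ∣ j := by rcases hm with rfl | rfl <;> omega
  exact ⟨k, fun t => (hj t).imp fun c hc => ⟨hc.1, Subtype.ext (by rw [Nat.mul_left_comm]; exact hc.2)⟩⟩

/-- the centre -/
def Z0 : Subgroup T64 where
  carrier := {x | x * x = 1}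
  one_mem' := one_mul 1
  mul_mem' {a b} ha hb := by
    change a * b * (a * b) = 1
    rw [mul_assoc, ← mul_assoc b, central hb a, mul_assoc, hb, mul_one, ha]
  inv_mem' {a} ha := by
    change a⁻¹ * a⁻¹ = 1
    rw [← mul_inv_rev, ha, inv_one]

namespace TD

variable {j : T64 →* Y} {d : ℕ} (h : TD j d) (inj : Function.Injective j) (hO : pPrimeCoreOf 2 (⊤ : Subgroup Y) = ⊥)
include h inj hO

theorem central {c : T64} (hc : c * c = 1) : j c ∈ center Y := by
  by_cases c1 : c = 1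
  · rw [c1, map_one]; exact one_mem _
  obtain ⟨S, hS⟩ := h.syl.exists_sylow_top Nat.prime_two
  refine Zstar_center ((pPrimeCore_eq_top Nat.prime_two).trans hO) (ord_of inj hc c1)
    (isolated_of_sylow (ord_of inj hc c1) S (hS ▸ ⟨c, rfl⟩) fun g hg => ?_)
  obtain ⟨s, hs⟩ : g * j c * g⁻¹ ∈ j.range := hS ▸ hg
  have s2 : s * s = 1 := inj (by rw [map_mul, hs, conj_mul, ← map_mul, hc, map_one]; group)
  obtain ⟨n, hn, e⟩ := burn_fuse Nat.prime_two h.syl (mem_top g) (range_le_cent j hc) (range_le_cent j s2) hs.symm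
  obtain ⟨k, hk⟩ := h.norm n hn.2
  obtain ⟨u, rfl⟩ := exists_sqrt hc
  obtain ⟨c', hc', e'⟩ := hk u
  rw [← hs, ← e, cnj_sq hc' e', ← map_mul, tau3_fix _ hc]

theorem two_of_normal {N P : Subgroup Y} (nN : N ⊲ ⊤) (sP : IsSylowOf 2 P N) (hc : N ≤ 𝒞(P)) : P = N := by
  have := (Burnside_normal_complement Nat.prime_two sP (inf_le_left.trans hc)).sup_eq
  rwa [show pPrimeCoreOf 2 N = ⊥ from le_bot_iff.1 ((NormalIn.pcore_le nN _).trans hO.le), bot_sup_eq] at this

theorem normal : ⊤ ≤ 𝒩(j.range) := by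
  have hZ : Z0.map j ≤ center Y := by
    rintro _ ⟨c, hc, rfl⟩
    exact h.central inj hO hc
  haveI : (Z0.map j).Normal := ⟨fun x hx g => by rwa [mem_center_iff.1 (hZ hx) g, mul_inv_cancel_right]⟩
  let f := QuotientGroup.mk' (Z0.map j)
  have hf : Function.Surjective f := QuotientGroup.mk'_surjective _
  have hk : f.ker = Z0.map j := QuotientGroup.ker_mk' _
  have h' := h.map hf
  have ker : ∀ x, f.comp j x = 1 ↔ x * x = 1 := fun x => by
    rw [MonoidHom.comp_apply, ← MonoidHom.mem_ker, hk, mem_map_iff_mem inj]; rfl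
  have E : EA (f.comp j) := ⟨ker, h'.syl, fun g hg => by
    obtain ⟨k, hk⟩ := h'.norm g hg
    refine ⟨d * k, fun t => ?_⟩
    obtain ⟨c, hc, e⟩ := hk t
    rw [e, map_mul, (ker c).2 hc, mul_one]⟩
  have p2 : IsPGrp 2 (Z0.map j) := IsPiGrp.of_le (pGrp_range j) (map_le_range j Z0)
  have h1 := E.normal (by
    have nO := pcore_normal {2}ᶜ (⊤ : Subgroup (Y ⧸ Z0.map j))
    have h2 := h.two_of_normal inj hO (N := (pPrimeCoreOf 2 ⊤).comap f) (P := Z0.map j)
      ⟨le_top, (normalizer_eq_top_iff.2 ((normalizer_eq_top_iff.1 (top_le_iff.1 nO.2)).comap f)).ge⟩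
      (pHall_of_map hk.le (hk.ge.trans (ker_le_comap f _)) (by rw [hk]; exact p2) (by
        rw [map_comap_eq_self_of_surjective hf, (Subgroup.map_eq_bot_iff _).2 hk.ge]
        exact pHall_bot (pcore_piGrp _ _)))
      (le_cent_symm (hZ.trans (center_le_centralizer _)))
    rw [← map_comap_eq_self_of_surjective hf (pPrimeCoreOf 2 ⊤), ← h2, Subgroup.map_eq_bot_iff]
    exact hk.ge)
  intro g _
  have := le_normalizer_comap f (h1 (mem_top (f g)))
  rwa [MonoidHom.range_comp, comap_map_eq_self (hk.le.trans (map_le_range j Z0))] at this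

theorem cent_le : 𝒞(j.range) ≤ j.range := by
  have n : 𝒞(j.range) ⊲ ⊤ := ⟨le_top, norm_cent (h.normal inj hO)⟩
  exact (h.two_of_normal inj hO n (h.syl.inf_normal n) (cent_anti inf_le_left)).ge.trans inf_le_left

theorem mem_of {y : Y} (hy : ∀ t, ∃ c, c * c = 1 ∧ y * j t * y⁻¹ = j (t * c)) : y ∈ j.range := by
  let y' : 𝒩(j.range) := ⟨y, h.normal inj hO (mem_top y)⟩
  have h1 : act inj y' ∈ K0 := fun t => by
    obtain ⟨c, hc, e⟩ := hy t
    rw [inj ((act_apply inj y' t).trans e), cl_iff, inv_mul_cancel_left, hc]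
  obtain ⟨s, hs⟩ : y * y ∈ j.range := h.cent_le inj hO (by
    rintro _ ⟨t, rfl⟩
    have := act_apply inj (y' * y') t
    rw [map_mul, K0_sq h1] at this
    exact eq_mul_inv_iff_mul_eq.1 this)
  refine h.syl.mem_of_normal (h.normal inj hO) (piGrp_zpowers_iff.1 (pGrp_of_forall_pow Nat.prime_two (k := 3) ?_))
    (mem_top y)
  rintro _ ⟨n, rfl⟩
  rw [← zpow_natCast, ← zpow_mul, mul_comm, zpow_mul, zpow_natCast,
    show y ^ 2 ^ 3 = y * y * (y * y) * (y * y * (y * y)) by simp [pow_succ, mul_assoc], ← hs, ← map_mul, ← map_mul,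
    pow_four, map_one, one_zpow]

end TD

variable {G : Type u} [Group G] [Finite G] {ι : T64 →* G} {h : G} {m : ℕ}

theorem Fus.quot (F : Fus ι h m) : ∃ (K : Subgroup 𝒞[ι z1]) (_ : K.Normal), Odd (Nat.card K) ∧
    Function.Injective ((QuotientGroup.mk' K).comp (iC ι)) ∧ pPrimeCoreOf 2 (⊤ : Subgroup (𝒞[ι z1] ⧸ K)) = ⊥ := by
  have p := pcore_piGrp {2}ᶜ (⊤ : Subgroup 𝒞[ι z1])
  haveI : (pPrimeCoreOf 2 (⊤ : Subgroup 𝒞[ι z1])).Normal := normalizer_eq_top_iff.1 (top_le_iff.1 (pcore_norm _ _))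
  have o : Odd (Nat.card (pPrimeCoreOf 2 (⊤ : Subgroup 𝒞[ι z1]))) :=
    Nat.odd_iff.2 (Nat.two_dvd_ne_zero.1 fun e => p 2 Nat.prime_two e rfl)
  refine ⟨pPrimeCoreOf 2 ⊤, this, o, (injective_iff_map_eq_one _).2 fun t ht => F.inj ?_, ?_⟩
  · have := eq_one_of_odd (k := 2) (g := iC ι t) (fun e => p 2 Nat.prime_two
      (e.trans (orderOf_dvd_natCard _ ((QuotientGroup.eq_one_iff _).1 ht))) rfl) (by
        rw [← map_pow, show t ^ 2 ^ 2 = t * t * (t * t) by simp [pow_succ, mul_assoc], pow_four, map_one])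
    rw [map_one]
    exact congrArg Subtype.val this
  · rw [← map_top_of_surjective _ (QuotientGroup.mk'_surjective _)]
    refine (pcore_map_of_ker le_top (by rwa [QuotientGroup.ker_mk'])).symm.trans ?_
    rw [Subgroup.map_eq_bot_iff, QuotientGroup.ker_mk']

theorem ker_symm {H R : Type*} [Group H] [Group R] (K : Subgroup H) [K.Normal] (e : R ≃* H ⧸ K) :
    (e.symm.toMonoidHom.comp (QuotientGroup.mk' K)).ker = K := by
  ext x
  simp

theorem Fus.pi3 (F : Fus ι h 5) : ∃ π, Pi3 ι π := by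
  obtain ⟨K, _, o, inj, hO⟩ := F.quot
  have D := (F.td (.inr rfl)).map (QuotientGroup.mk'_surjective K)
  let e := MulEquiv.ofBijective _ ⟨inj, fun y => D.mem_of inj hO (y := y) fun t => by
    obtain ⟨k, hk⟩ := D.norm y (D.normal inj hO (mem_top y))
    have := hk t
    rwa [← Nat.mul_assoc, pow_mul, tau15, one_pow] at this⟩
  exact ⟨e.symm.toMonoidHom.comp (QuotientGroup.mk' K), by rwa [ker_symm], fun t => e.symm_apply_apply t⟩

theorem Fus.pi15 (F : Fus ι h 1) : ∃ π, Pi15 ι π := by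
  obtain ⟨K, _, o, inj, hO⟩ := F.quot
  have D := (F.td (.inl rfl)).map (QuotientGroup.mk'_surjective K)
  have hc : h ^ 3 ∈ 𝒞[ι z1] := mem_centralizer_singleton_iff.2 (mul_inv_eq_iff_eq_mul.1 (by
    rw [F.conj_pow, one_mul, tau3_z1]))
  generalize hj : (QuotientGroup.mk' K).comp (iC ι) = j at inj D
  obtain ⟨g, hg⟩ : ∃ g, g = QuotientGroup.mk' K ⟨h ^ 3, hc⟩ := ⟨_, rfl⟩
  have cj : ∀ (n : ℕ) t, g ^ n * j t * (g ^ n)⁻¹ = j ((tau ^ (3 * n)) t) := fun n t => by
    subst hj hg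
    rw [← map_pow, MonoidHom.comp_apply, MonoidHom.comp_apply, ← map_inv, ← map_mul, ← map_mul]
    congr 1
    refine Subtype.ext ?_
    have := F.conj_pow (3 * n) t
    rw [one_mul, pow_mul] at this
    exact this
  have g5 : g ^ 5 = 1 := by
    obtain ⟨s, hs⟩ : g ^ 5 ∈ j.range := D.mem_of inj hO fun t => ⟨1, one_mul 1, by rw [cj, tau15, mul_one]; rfl⟩
    refine eq_one_of_odd (k := 2) (fun e => Nat.two_dvd_ne_zero.2 (Nat.odd_iff.1 F.hodd) (e.trans ?_)) (by
      rw [← hs, ← map_pow, show s ^ 2 ^ 2 = s * s * (s * s) by simp [pow_succ, mul_assoc], pow_four, map_one])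
    refine (orderOf_pow_dvd 5).trans (hg ▸ (orderOf_map_dvd _ _).trans ?_)
    rw [orderOf_mk]
    exact orderOf_pow_dvd 3
  have gm : ∀ n, g ^ (n % 5) = g ^ n := fun n => by
    conv_rhs => rw [← Nat.mod_add_div n 5, pow_add, pow_mul, g5, one_pow, mul_one]
  let fg : Multiplicative (ZMod 5) →* (𝒞[ι z1] ⧸ K) := MonoidHom.mk' (fun i => g ^ i.toAdd.val) fun a b => by
    rw [toAdd_mul, ZMod.val_add, gm, pow_add]
  let L : Q →* (𝒞[ι z1] ⧸ K) := SemidirectProduct.lift j fg fun i => MonoidHom.ext fun t => (cj _ t).symm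
  have hL : ∀ q : Q, L q = j q.left * g ^ q.right.toAdd.val := fun q => rfl
  let e := MulEquiv.ofBijective L ⟨(injective_iff_map_eq_one _).2 fun q hq => by
    rw [hL, mul_eq_one_iff_inv_eq, ← map_inv] at hq
    have h1 := cj q.right.toAdd.val u0
    rw [← hq, ← map_inv, ← map_mul, ← map_mul, tau_pow] at h1
    have h2 := (cl_iff _ _).2 (comm_sq u0 q.left⁻¹)
    rw [inj h1] at h2
    have h3 := (cls_chk u0 (u0_sq ▸ z1_ne)).2 _ (ZMod.val_lt _) h2
    rw [h3, pow_zero, map_eq_one_iff j inj, inv_eq_one] at hq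
    exact SemidirectProduct.ext hq ((ZMod.val_eq_zero _).1 h3), fun y => by
    obtain ⟨k, hk⟩ := D.norm (y⁻¹) (D.normal inj hO (mem_top _))
    obtain ⟨s, hs⟩ := D.mem_of inj hO (y := g ^ (4 * k) * y⁻¹) fun t => by
      obtain ⟨c, hc, e⟩ := hk t
      refine ⟨c, hc, ?_⟩
      rw [show g ^ (4 * k) * y⁻¹ * j t * (g ^ (4 * k) * y⁻¹)⁻¹ = g ^ (4 * k) * (y⁻¹ * j t * y⁻¹⁻¹) * (g ^ (4 * k))⁻¹ by
        group, e, cj, map_mul, tau3_fix _ hc, ← MulAut.mul_apply, ← pow_add,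
        show 3 * (4 * k) + 3 * (1 * k) = 15 * k by omega, pow_mul, tau15, one_pow]
      rfl
    refine ⟨⟨s⁻¹, Multiplicative.ofAdd ((4 * k : ℕ) : ZMod 5)⟩, ?_⟩
    rw [hL, toAdd_ofAdd, ZMod.val_natCast, gm, map_inv, hs]
    group⟩
  refine ⟨e.symm.toMonoidHom.comp (QuotientGroup.mk' K), e.symm.surjective.comp (QuotientGroup.mk'_surjective K),
    by rwa [ker_symm], fun t => e.symm_apply_eq.2 ?_⟩
  subst hj
  refine Eq.trans ?_ (hL _).symm
  simp

end CA.Ly

theorem CA.realizeEqns_Ly_B2 : True := by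
  have := @CA.Ly.Z0.eq_1
  have := @CA.Ly.Z0.eq_def
  have := @CA.Ly.Z0.congr_simp
  trivial
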