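/-
Lyons' theorem: the facts on the Frobenius-Schur indicator that are used.
-/
import Cfsg.Agent.Ly.Base

set_option autoImplicit false

namespace CA.Ly

open Cfsg CA.Chr

/-- the Frobenius-Schur indicator -/
noncomputable def nu {G : Type*} [Group G] [Fintype G] (χ : G → ℂ) : ℂ := (Nat.card G : ℂ)⁻¹ * ∑ g, χ (g * g)

/-- the statement of package FS -/
def FS.{u} : Prop := ∀ (G : Type u) [Group G] [Fintype G] (χ : G → ℂ), IsIrrCharacter G χ →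
  (nu χ = 0 ∨ nu χ = 1 ∨ nu χ = -1) ∧ (nu χ ≠ 0 → ∀ g, χ g⁻¹ = χ g) ∧
  ∀ (H : Type) [Group H] [Finite H] (f : H →* G) (φ : H →* ℂˣ) (j : G) (s : H), f s = j * j →
    (∀ x, ∃ y, j * f x * j⁻¹ = f y ∧ φ y = (φ x)⁻¹) → nu χ * φ s = -1 → ∃ m : ℕ, ⟪χ ∘ f, lin φ⟫ = 2 * m

end CA.Ly

theorem CA.realizeEqns_Ly_FSDef : True := by
  have := @CA.Ly.nu.eq_1.{0}
  have := @CA.Ly.nu.eq_def.{0}
  have := @CA.Ly.nu.congr_simp.{0}
  have := @CA.Ly.FS.eq_1.{0}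
  have := @CA.Ly.FS.eq_def.{0}
  have := @CA.Ly.FS.congr_simp.{0}
  trivial
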