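/-
Lyons' theorem, package G: the values of the characters of the principal 2-block on the elements a power of which is
the involution `z`, read in the quotient `Q = C(z) / K`, `K` of odd order, all characters of `Q` in its principal block.
-/
import Cfsg.Agent.Ly.Base

set_option autoImplicit false
set_option linter.unusedSectionVars false

open scoped ComplexConjugate

namespace CA.Ly

open Cfsg CA.Chr CA.Blk Subgroup

universe u v

variable {G : Type u} [Group G] [Finite G] {R : Type v} [Group R] [Finite R]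

theorem ind_surj {H : Type u} [Group H] [Fintype H] [DecidableEq R] {π : H →* R} (hπ : Function.Surjective π)
    {f : H → ℂ} (hf : f ∈ CF H) (q : R) :
    ind π f q = (Nat.card π.ker : ℂ)⁻¹ * ∑ c, if π c = q then f c else 0 := by
  cases nonempty_fintype R
  rw [ind_apply, Finset.sum_congr rfl (g := fun _ => ∑ c, if π c = q then f c else 0) fun x _ => ?_]
  · rw [Finset.sum_const, Finset.card_univ, card_eq_of_surj π hπ, ← Nat.card_eq_fintype_card, nsmul_eq_mul]
    have := card_ne_zero (G := R)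
    have := card_ne_zero (G := π.ker)
    push_cast; field_simp
  · obtain ⟨y, rfl⟩ := hπ x
    refine Fintype.sum_equiv (MulAut.conj y).toEquiv _ _ fun c => ?_
    simp only [MulEquiv.toEquiv_eq_coe, EquivLike.coe_coe, MulAut.conj_apply, map_mul, map_inv, CF_conj hf]
    congr 1
    exact propext ⟨fun e => by rw [e]; group, fun e => by rw [← e]; group⟩

theorem two_dvd_orderOf_map {H : Type u} [Group H] [Finite H] {π : H →* R} (ho : Odd (Nat.card π.ker)) (c : H) :
    2 ∣ orderOf (π c) ↔ 2 ∣ orderOf c := by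
  refine ⟨fun h => h.trans (orderOf_map_dvd π c), fun h => ?_⟩
  have h1 : c ^ orderOf (π c) ∈ π.ker := by rw [MonoidHom.mem_ker, map_pow, pow_orderOf_eq_one]
  have h2 : c ^ (orderOf (π c) * Nat.card π.ker) = 1 := by
    rw [pow_mul]; exact congrArg Subtype.val (pow_card_eq_one' (x := (⟨_, h1⟩ : π.ker)))
  exact (Nat.prime_two.dvd_mul.1 (h.trans (orderOf_dvd_of_pow_eq_one h2))).resolve_right
    (Nat.two_dvd_ne_zero.2 (Nat.odd_iff.1 ho) ∘ id)

/-- `z` in its centralizer -/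
def zc (z : G) : centralizer ({z} : Set G) := ⟨z, mem_centralizer_singleton_iff.2 rfl⟩

structure Sec (z : G) (π : centralizer ({z} : Set G) →* R) : Prop where
  two : orderOf z = 2
  surj : Function.Surjective π
  odd : Odd (Nat.card π.ker)
  blk : ∀ ψ, IsIrrCharacter R ψ → ⟪ψ, regI 2 R⟫ ≠ 0

/-- restriction to `C(z)`, averaged over the kernel of `π` -/
noncomputable def loc {z : G} (π : centralizer ({z} : Set G) →* R) (f : G → ℂ) : R → ℂ :=
  ind π (f ∘ (centralizer ({z} : Set G)).subtype)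

variable {z : G} {π : centralizer ({z} : Set G) →* R}

theorem loc_CF (f : G → ℂ) : loc π f ∈ CF R := ind_mem_CF _ _

theorem loc_char {χ : G → ℂ} (h : IsCharacter G χ) : IsCharacter R (loc π χ) := IsChar.ind (IsChar.comp h _) _

theorem blk_of_two (h : IsPGroup 2 R) (ψ : R → ℂ) (hψ : IsIrrCharacter R ψ) : ⟪ψ, regI 2 R⟫ ≠ 0 := by
  classical
  cases nonempty_fintype R
  rw [dot_def, Finset.sum_eq_single 1 (fun g _ hg => ?_) (by simp)]
  · simp [regI, IsIrr.deg_ne_zero hψ]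
  · obtain ⟨k, hk⟩ := h g
    have : 2 ∣ orderOf g := by
      by_contra e
      exact hg (eq_one_of_odd e hk)
    simp [regI, this]

namespace Sec

variable (S : Sec z π)
include S

theorem not_dvd : ¬ 2 ∣ Nat.card π.ker := Nat.two_dvd_ne_zero.2 (Nat.odd_iff.1 S.odd)

theorem proj_eq (f : centralizer ({z} : Set G) → ℂ) : proj (B0 2 _) f = ind π f ∘ π := by
  refine CF_ext (proj_mem_CF (B0_subset 2) f) (CF_comp (ind_mem_CF _ _) π) fun ψ hψ => ?_
  rw [dot_proj (B0_subset 2) f hψ]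
  by_cases hk : π.ker ≤ cfker ψ
  · obtain ⟨ψ', h', rfl⟩ := IsIrr.exists_infl S.surj hψ hk
    rw [dot_comp_surj π S.surj, frob_rec _ _ (IsIrr.mem_CF h'), if_pos]
    refine mem_B0.2 ⟨hψ, ?_⟩
    have : regI 2 (centralizer ({z} : Set G)) = regI 2 R ∘ π := funext fun c => by
      simp only [regI, Function.comp, two_dvd_orderOf_map S.odd]
    rw [this, dot_comp_surj π S.surj]
    exact S.blk _ h'
  · rw [if_neg fun h => hk (le_cfker_of_B0 Nat.prime_two S.not_dvd h)]
    obtain ⟨g, hg, hg'⟩ := SetLike.not_le_iff_exists.1 hk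
    exact (dot_eq_zero_of_cfker hψ (CF_comp (ind_mem_CF _ _) π) (ker_le_cfker_comp _ _ hg) hg').symm

theorem zz : z * z = 1 := by rw [← pow_two, ← S.two, pow_orderOf_eq_one]

theorem mem_zp {c : centralizer ({z} : Set G)} (h : π (zc z) ∈ zpowers (π c)) : z ∈ zpowers (c : G) := by
  obtain ⟨n, hn⟩ := mem_zpowers_iff.1 h
  have h1 : zc z * c ^ n ∈ π.ker := by
    rw [MonoidHom.mem_ker, map_mul, map_zpow, hn, ← map_mul, show zc z * zc z = 1 from Subtype.ext S.zz, map_one]
  have h2 : (z * (c : G) ^ n) ^ Nat.card π.ker = 1 :=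
    congrArg (fun x : π.ker => ((x : centralizer ({z} : Set G)) : G)) (pow_card_eq_one' (x := (⟨_, h1⟩ : π.ker)))
  have cm : Commute z ((c : G) ^ n) := Commute.zpow_right (mem_centralizer_singleton_iff.1 c.2).symm n
  obtain ⟨m, hm⟩ := S.odd
  rw [cm.mul_pow, hm, pow_succ, pow_mul, pow_two, S.zz, one_pow, one_mul] at h2
  exact (congrArg (· ∈ zpowers (c : G)) (eq_inv_of_mul_eq_one_left h2)).mpr
    (inv_mem (pow_mem (zpow_mem (mem_zpowers _) n) _))

theorem proj0 {N : G → ℂ} (hN : N ∈ CF G) {c : centralizer ({z} : Set G)} (h : π (zc z) ∈ zpowers (π c)) :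
    proj (B0 2 G) N c = loc π N (π c) := by
  rw [second_main (k := 1) Nat.prime_two (by rw [pow_one, pow_two, S.zz]) rfl hN c (S.mem_zp h), S.proj_eq]
  rfl

/-- G1 -/
theorem val {χ : G → ℂ} (hχ : χ ∈ B0 2 G) {c : centralizer ({z} : Set G)} (h : π (zc z) ∈ zpowers (π c)) :
    χ c = loc π χ (π c) := by
  rw [← S.proj0 (IsIrr.mem_CF (B0_irr hχ)) h, proj_irr (B0_subset 2) (B0_irr hχ), if_pos hχ]

/-- G6 -/
theorem expand {N : G → ℂ} (hN : N ∈ CF G) {q : R} (h : π (zc z) ∈ zpowers q) :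
    loc π N q = ∑ χ ∈ B0 2 G, ⟪N, χ⟫ * loc π χ q := by
  obtain ⟨c, rfl⟩ := S.surj q
  rw [← S.proj0 hN h, proj_apply]
  exact Finset.sum_congr rfl fun χ hχ => by rw [S.val hχ h]

theorem uniq {c : G} (h : z ∈ zpowers c) {x : G} (h' : z ∈ zpowers (x⁻¹ * c * x)) : x ∈ centralizer ({z} : Set G) := by
  have h1 : x * z * x⁻¹ ∈ zpowers c := by
    obtain ⟨n, hn⟩ := mem_zpowers_iff.1 h'
    refine mem_zpowers_iff.2 ⟨n, ?_⟩
    rw [← hn, show x⁻¹ * c * x = x⁻¹ * c * x⁻¹⁻¹ by rw [inv_inv], conj_zpow]; group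
  have key : ∀ w ∈ zpowers c, orderOf w = 2 → w = c ^ (orderOf c / 2) := fun w hw o => by
    classical
    obtain ⟨n, hn, rfl⟩ := Finset.mem_image.1 ((mem_zpowers_iff_mem_range_orderOf).1 hw)
    rw [Finset.mem_range] at hn
    obtain ⟨k, hk⟩ := orderOf_dvd_of_pow_eq_one (show c ^ (n * 2) = 1 by rw [pow_mul, ← o, pow_orderOf_eq_one])
    have : k < 2 := by nlinarith
    interval_cases k
    · rw [show n = 0 by omega] at o; simp at o
    · congr 1; omega
  have := (key _ h1 ((orderOf_eq_of_isConj (isConj_iff.2 ⟨x, rfl⟩).symm).trans S.two)).trans (key _ h S.two).symm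
  exact mem_centralizer_singleton_iff.2 (mul_inv_eq_iff_eq_mul.1 this)

theorem loc_apply [Fintype (centralizer ({z} : Set G))] [DecidableEq R] {N : G → ℂ} (hN : N ∈ CF G) (q : R) :
    loc π N q = (Nat.card π.ker : ℂ)⁻¹ * ∑ c, if π c = q then N c else 0 :=
  ind_surj S.surj (CF_comp hN _) q

theorem loc_const {N : G → ℂ} (hN : N ∈ CF G) {q : R} {a : ℂ} (h : ∀ c, π c = q → N c = a) : loc π N q = a := by
  classical
  cases nonempty_fintype (centralizer ({z} : Set G))
  have h1 := ind_surj S.surj (CF_comp (a • (1 : CF R)).2 π) q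
  rw [ind_comp_surj_self S.surj (a • (1 : CF R)).2] at h1
  rw [S.loc_apply hN]
  refine Eq.trans ?_ (h1.symm.trans (by simp))
  congr 1
  refine Finset.sum_congr rfl fun c _ => ?_
  split_ifs with e
  · simp [h c e]
  · rfl

/-- a class function of `Q` supported in the section is expanded by the local values of `B0` -/
theorem recon {θ : R → ℂ} (hθ : θ ∈ CF R) (hs : ∀ q, θ q ≠ 0 → π (zc z) ∈ zpowers q) {q : R}
    (h : π (zc z) ∈ zpowers q) : θ q = ∑ χ ∈ B0 2 G, ⟪θ, loc π χ⟫ * loc π χ q := by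
  have hN := ind_mem_CF (centralizer ({z} : Set G)).subtype (θ ∘ π)
  rw [← S.loc_const hN (q := q) (a := θ q) fun c e => ?_, S.expand hN h]
  · refine Finset.sum_congr rfl fun χ hχ => ?_
    rw [frob_rec _ _ (IsIrr.mem_CF (B0_irr hχ)), loc, frob_rec' _ _ hθ]
  · subst e
    refine ind_apply_TI (subtype_injective _) (CF_comp hθ π) c fun x b hb e => ?_
    rw [range_subtype]
    exact S.uniq (S.mem_zp h) (by have := S.mem_zp (hs _ hb); exact (show (b : G) = _ from e) ▸ this)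

theorem zp_conj {q y : R} (h : π (zc z) ∈ zpowers q) : π (zc z) ∈ zpowers (y * q * y⁻¹) := by
  obtain ⟨n, hn⟩ := mem_zpowers_iff.1 h
  obtain ⟨c, rfl⟩ := S.surj y
  refine mem_zpowers_iff.2 ⟨n, ?_⟩
  rw [conj_zpow, hn, ← map_mul, show c * zc z = zc z * c from Subtype.ext (mem_centralizer_singleton_iff.1 c.2),
    map_mul, mul_inv_cancel_right]

/-- G5 -/
theorem orth {q q' : R} (h : π (zc z) ∈ zpowers q) (h' : π (zc z) ∈ zpowers q') :
    ∑ χ ∈ B0 2 G, loc π χ q * conj (loc π χ q') = Nat.card {y : R // y * q' * y⁻¹ = q} := by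
  have e : ∀ x, (∑ ψ ∈ irr R, conj (ψ q') • ψ) x = Nat.card {y : R // y * q' * y⁻¹ = x} := fun x => by
    rw [← second_orth_raw, Finset.sum_apply]
    exact Finset.sum_congr rfl fun ψ _ => by simp [mul_comm]
  rw [← e, S.recon (Subalgebra.sum_mem _ fun ψ hψ => Subalgebra.smul_mem _ (IsIrr.mem_CF (mem_irr.1 hψ)) _)
    (fun x hx => ?_) h]
  · refine Finset.sum_congr rfl fun χ _ => ?_
    rw [mul_comm, CF_expand_apply (loc_CF (π := π) χ) q', dot_sum_left, map_sum]
    congr 1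
    exact Finset.sum_congr rfl fun ψ _ => by rw [dot_smul_left, map_mul, conj_dot, mul_comm]
  · rw [e, Nat.cast_ne_zero] at hx
    obtain ⟨⟨y, rfl⟩⟩ := (Nat.card_ne_zero.1 hx).1
    exact S.zp_conj h'

theorem two_dvd {c : centralizer ({z} : Set G)} (h : π (zc z) ∈ zpowers (π c)) : 2 ∣ orderOf (c : G) :=
  S.two ▸ orderOf_dvd_of_mem_zpowers (S.mem_zp h)

/-- N1 -/
theorem deg_orth {q : R} (h : π (zc z) ∈ zpowers q) : ∑ χ ∈ B0 2 G, loc π χ q * χ 1 = 0 := by
  obtain ⟨c, rfl⟩ := S.surj q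
  rw [← B0_orth Nat.prime_two (sep_of_orderOf (k := 1) (g := (c : G)) (h := 1) Nat.prime_two (S.two_dvd h) (by simp))]
  exact Finset.sum_congr rfl fun χ hχ => by rw [S.val hχ h, IsChar.conj_one (IsIrr.isChar (B0_irr hχ))]

/-- counting solutions: `F` has conjugation invariant fibre sizes -/
theorem count {X : Type*} [Fintype X] (F : X → G) (hF : ∀ y : G, ∃ e : X ≃ X, ∀ x, F (e x) = y * F x * y⁻¹)
    {q : R} (h : π (zc z) ∈ zpowers q) :
    ∑ χ ∈ B0 2 G, (Nat.card G : ℂ)⁻¹ * (∑ x, conj (χ (F x))) * loc π χ q =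
      (Nat.card π.ker : ℂ)⁻¹ * Nat.card {x // ∃ hc, π ⟨F x, hc⟩ = q} := by
  classical
  cases nonempty_fintype G
  let N : G → ℂ := fun g => ∑ x, if F x = g then 1 else 0
  have hN : N ∈ CF G := mem_CF.2 fun g y => by
    obtain ⟨e, he⟩ := hF y
    refine (Fintype.sum_equiv e _ _ fun x => ?_).symm
    simp only [he, mul_left_inj, mul_right_inj]
  rw [Finset.sum_congr rfl (g := fun χ => ⟪N, χ⟫ * loc π χ q) fun χ _ => ?_, ← S.expand hN h, S.loc_apply hN]
  · congr 1
    rw [Nat.card_eq_fintype_card, Fintype.card_subtype, Finset.card_filter, Nat.cast_sum]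
    simp only [N]
    rw [Finset.sum_congr rfl (g := fun c : centralizer ({z} : Set G) =>
      ∑ x, if π c = q ∧ F x = c then (1 : ℂ) else 0) fun c _ => by split_ifs with e <;> simp [e], Finset.sum_comm]
    refine Finset.sum_congr rfl fun x _ => ?_
    by_cases hc : F x ∈ centralizer ({z} : Set G)
    · rw [Finset.sum_eq_single ⟨F x, hc⟩ (fun c _ hne => if_neg fun e => hne (Subtype.ext e.2.symm)) (by simp)]
      simp [hc]
    · rw [Finset.sum_eq_zero fun (c : centralizer ({z} : Set G)) _ => if_neg fun e : _ ∧ F x = c => hc (e.2 ▸ c.2)]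
      simp [hc]
  · rw [dot_def]
    congr 2
    simp only [N, Finset.sum_mul]
    rw [Finset.sum_comm]
    exact Finset.sum_congr rfl fun x _ => by simp

/-- N2: products of a conjugate of `s` and a conjugate of `t` -/
theorem prod (s t : G) {q : R} (h : π (zc z) ∈ zpowers q) :
    (Nat.card G : ℂ) * ∑ χ ∈ B0 2 G, conj (χ s * χ t) / χ 1 * loc π χ q = (Nat.card π.ker : ℂ)⁻¹ *
      Nat.card {x : G × G // ∃ hc, π ⟨x.1 * s * x.1⁻¹ * (x.2 * t * x.2⁻¹), hc⟩ = q} := by
  cases nonempty_fintype G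
  rw [← S.count (fun x : G × G => x.1 * s * x.1⁻¹ * (x.2 * t * x.2⁻¹))
    (fun y => ⟨Equiv.mulLeft (y, y), fun x => by simp; group⟩) h, Finset.mul_sum]
  refine Finset.sum_congr rfl fun χ hχ => ?_
  have hi := B0_irr hχ
  have h0 := IsIrr.deg_ne_zero hi
  have hG := card_ne_zero (G := G)
  rw [← map_sum, Fintype.sum_prod_type, Finset.sum_congr rfl
    (g := fun _ => Nat.card G * (χ s * χ t) / χ 1) fun x _ => by
      rw [eq_div_iff h0, mul_comm]
      exact (IsIrr.sum_conj_mul hi (x * s * x⁻¹) t).trans (by rw [CF_conj (IsIrr.mem_CF hi)]),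
    Finset.sum_const, Finset.card_univ, ← Nat.card_eq_fintype_card, nsmul_eq_mul]
  simp only [map_mul, map_div₀, map_natCast, IsChar.conj_one (IsIrr.isChar hi)]
  field_simp

/-- N3: square roots -/
theorem sqrt [Fintype G] {q : R} (h : π (zc z) ∈ zpowers q) :
    ∑ χ ∈ B0 2 G, conj ((Nat.card G : ℂ)⁻¹ * ∑ x, χ (x * x)) * loc π χ q = Nat.card {y : R // y * y = q} := by
  have h1 := S.count (fun x : G => x * x) (fun y => ⟨(MulAut.conj y).toEquiv, fun x => by simp⟩) h
  have h2 : Nat.card {x : G // ∃ hc, π ⟨x * x, hc⟩ = q} = Nat.card π.ker * Nat.card {y : R // y * y = q} := by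
    have hx : ∀ x : {x : G // ∃ hc, π ⟨x * x, hc⟩ = q}, x.1 ∈ centralizer ({z} : Set G) := fun ⟨x, hc, e⟩ => by
      obtain ⟨n, hn⟩ := mem_zpowers_iff.1 (S.mem_zp (c := ⟨x * x, hc⟩) (e ▸ h))
      exact mem_centralizer_singleton_iff.2
        (show Commute x z from hn ▸ ((Commute.refl x).mul_right (Commute.refl x)).zpow_right n)
    choose σ hσ using S.surj
    rw [← Nat.card_prod]
    refine Nat.card_congr ⟨fun x => (⟨⟨x.1, hx x⟩ * (σ (π ⟨x.1, hx x⟩))⁻¹, by simp [hσ]⟩, ⟨π ⟨x.1, hx x⟩, by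
        rw [← map_mul]; exact x.2.2⟩),
      fun p => ⟨(p.1.1 * σ p.2.1 : centralizer ({z} : Set G)), (p.1.1 * σ p.2.1 * (p.1.1 * σ p.2.1)).2, by
        change π (p.1.1 * σ p.2.1 * (p.1.1 * σ p.2.1)) = q
        simp only [map_mul, show π p.1.1 = 1 from p.1.2, hσ, one_mul, p.2.2]⟩, fun x => by simp, fun p => ?_⟩
    have : π (p.1.1 * σ p.2.1) = p.2.1 := by rw [map_mul, show π p.1.1 = 1 from p.1.2, hσ, one_mul]
    refine Prod.ext (Subtype.ext ?_) (Subtype.ext this)
    change p.1.1 * σ p.2.1 * (σ (π (p.1.1 * σ p.2.1)))⁻¹ = _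
    rw [this, mul_inv_cancel_right]
  rw [h2, Nat.cast_mul, ← mul_assoc, inv_mul_cancel₀ card_ne_zero, one_mul] at h1
  rw [← h1]
  exact Finset.sum_congr rfl fun χ _ => by simp

end Sec

end CA.Ly

theorem CA.realizeEqns_Ly_G : True := by
  have := @CA.Ly.zc.eq_1.{0}
  have := @CA.Ly.zc.eq_def.{0}
  have := @CA.Ly.zc.congr_simp.{0}
  have := @CA.Ly.loc.eq_1.{0,0}
  have := @CA.Ly.loc.eq_def.{0,0}
  have := @CA.Ly.loc.congr_simp.{0,0}
  trivial
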