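/-
Lyons' theorem: restriction of characters to the Sylow 2-subgroup.
-/
import Cfsg.Agent.Ly.G
import Cfsg.Agent.Ly.FSDef

set_option autoImplicit false
set_option linter.unusedSectionVars false

open scoped ComplexConjugate

namespace CA.Ly

open Cfsg CA.Chr CA.Blk Subgroup

universe u

theorem sum_ty {X I : Type*} [Fintype X] [Fintype I] [DecidableEq I] (ty : X → I) (w : X → ℤ) (v : I → ℂ) :
    ∑ x, v (ty x) * w x = ∑ i, v i * ((∑ x, if ty x = i then w x else 0 : ℤ) : ℂ) := by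
  simp only [Int.cast_sum, Finset.mul_sum]
  rw [Finset.sum_comm]
  exact Finset.sum_congr rfl fun x _ => by simp [apply_ite]

/-- the linear characters of `T64` -/
def sg (c : Fin 16) (t : T64) : ℤ :=
  if ((c.val &&& t.v.val) % 2 + (c.val &&& t.v.val) / 2 % 2 + (c.val &&& t.v.val) / 4 % 2 + (c.val &&& t.v.val) / 8) % 2 = 0
    then 1 else -1

theorem sg_mul : ∀ c, allT (fun x => allT fun y => decide (sg c (x * y) = sg c x * sg c y)) = true := by decide +kernel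

noncomputable def lam (c : Fin 16) : T64 →* ℂˣ := MonoidHom.toHomUnits
  { toFun := fun t => (sg c t : ℂ)
    map_one' := by rw [show ∀ c, sg c 1 = 1 by decide +kernel, Int.cast_one]
    map_mul' := fun x y => by rw [of_decide_eq_true (allT_spec (allT_spec (sg_mul c) x) y), Int.cast_mul] }

theorem dot_lam (f : T64 → ℂ) (c : Fin 16) : ⟪f, lin (lam c)⟫ = 64⁻¹ * ∑ t, f t * sg c t := by
  rw [dot_def, card_T64]
  simp [lin_apply, lam]

theorem lam_sq (c : Fin 16) (t : T64) : lam c t = (lam c t)⁻¹ := by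
  refine eq_inv_of_mul_eq_one_left (Units.ext ?_)
  change (sg c t : ℂ) * sg c t = 1
  unfold sg; split_ifs <;> simp

/-- the abelian subgroup `C_T(u0)` -/
abbrev A4 := Multiplicative (ZMod 4 × ZMod 4)

def fA : A4 →* T64 := MonoidHom.mk' (fun a => u0 ^ a.toAdd.1.val * mk 6 ^ a.toAdd.2.val) (by decide +kernel)

noncomputable def phA : A4 →* ℂˣ := MonoidHom.toHomUnits
  { toFun := fun a => Complex.I ^ a.toAdd.1.val
    map_one' := by simp
    map_mul' := fun x y => by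
      rw [toAdd_mul, Prod.fst_add, ZMod.val_add, ← pow_add, ← pow_eq_pow_mod _ Complex.I_pow_four] }

theorem phA_inv (x : A4) : ∃ y, mk 10 * fA x * (mk 10)⁻¹ = fA y ∧ phA y = (phA x)⁻¹ := by
  obtain ⟨y, h1, h2⟩ := (by decide +kernel : ∀ x : A4, ∃ y : A4, mk 10 * fA x * (mk 10)⁻¹ = fA y ∧
    (y * x).toAdd.1.val = 0) x
  refine ⟨y, h1, eq_inv_of_mul_eq_one_left ?_⟩
  rw [← map_mul]
  exact Units.ext (show Complex.I ^ _ = 1 by rw [h2, pow_zero])

def ty (t : T64) : Fin 3 := if t = 1 then 0 else if t * t = 1 then 1 else 2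

theorem dot_phA (f : T64 → ℂ) (v : Fin 3 → ℂ) (h : ∀ a, f (fA a) = v (ty (fA a))) :
    ⟪f ∘ fA, lin phA⟫ = 16⁻¹ * (v 0 - v 1) := by
  have e : ∀ a : A4, conj (lin phA a) = ((![1, 0, -1, 0] a.toAdd.1 : ℤ) : ℂ) +
      Complex.I * ((![0, -1, 0, 1] a.toAdd.1 : ℤ) : ℂ) := fun a => by
    change conj (Complex.I ^ a.toAdd.1.val) = _
    generalize a.toAdd.1 = i
    fin_cases i <;> simp [ZMod.val, pow_succ]
  rw [dot_def]
  simp only [Function.comp, h, e, mul_add, Finset.sum_add_distrib, mul_left_comm _ Complex.I, ← Finset.mul_sum]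
  rw [sum_ty fun a => ty (fA a), sum_ty fun a => ty (fA a), Fin.sum_univ_three, Fin.sum_univ_three,
    show (∑ a : A4, if ty (fA a) = 0 then (![1, 0, -1, 0] a.toAdd.1 : ℤ) else 0) = 1 by decide +kernel,
    show (∑ a : A4, if ty (fA a) = 1 then (![1, 0, -1, 0] a.toAdd.1 : ℤ) else 0) = -1 by decide +kernel,
    show (∑ a : A4, if ty (fA a) = 2 then (![1, 0, -1, 0] a.toAdd.1 : ℤ) else 0) = 0 by decide +kernel,
    show (∑ a : A4, if ty (fA a) = 0 then (![0, -1, 0, 1] a.toAdd.1 : ℤ) else 0) = 0 by decide +kernel,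
    show (∑ a : A4, if ty (fA a) = 1 then (![0, -1, 0, 1] a.toAdd.1 : ℤ) else 0) = 0 by decide +kernel,
    show (∑ a : A4, if ty (fA a) = 2 then (![0, -1, 0, 1] a.toAdd.1 : ℤ) else 0) = 0 by decide +kernel]
  simp [sub_eq_add_neg, mul_add]

variable {G : Type u} [Group G] [Finite G] {ι : T64 →* G} {h : G} {m : ℕ}

theorem Fus.conj_it (F : Fus ι h m) (j : ℕ) (t : T64) : h ^ j * ι t * (h ^ j)⁻¹ = ι (tauF^[m * j] t) := by
  induction j with
  | zero => simp
  | succ j ih =>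
    rw [pow_succ', mul_inv_rev, Nat.mul_succ, Nat.add_comm, Function.iterate_add_apply, ← tau_pow m, ← F.conj, ← ih]
    group

theorem Fus.val (F : Fus ι h m) {f : G → ℂ} (hf : f ∈ CF G) {s t : T64}
    (e : ((List.range 15).any fun j => (List.range 64).any fun y =>
      decide (Ly.mk y * tauF^[m * j] s * (Ly.mk y)⁻¹ = t)) = true) : f (ι t) = f (ι s) := by
  obtain ⟨j, -, e⟩ := List.any_eq_true.1 e
  obtain ⟨y, -, e⟩ := List.any_eq_true.1 e
  rw [← of_decide_eq_true e, map_mul, map_mul, map_inv, CF_conj hf, ← F.conj_it, CF_conj hf]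

theorem Fus.two (F : Fus ι h m) : orderOf (ι z1) = 2 := by
  rw [orderOf_injective ι F.inj]
  exact orderOf_eq_prime (by decide +kernel) (by decide +kernel)

theorem Fus.ncomm (F : Fus ι h m) : ¬ IsMulCommutative G := fun c =>
  (by decide +kernel : u0 * Ly.mk 2 ≠ Ly.mk 2 * u0) (F.inj (by rw [map_mul, map_mul, c.1.1]))

theorem ker_bot [IsSimpleGroup G] {χ : G → ℂ} (hχ : IsIrrCharacter G χ) (h1 : χ ≠ 1) : cfker χ = ⊥ :=
  (cfker_normal (IsIrr.mem_CF hχ)).eq_bot_or_eq_top.resolve_right (IsIrr.cfker_ne_top hχ h1)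

theorem comm_ker {H : Type*} [Group H] [Finite H] {χ : H → ℂ} (hχ : IsCharacter H χ) {g : H} (e : ‖χ g‖ = deg χ) (x : H) :
    χ (g * x * g⁻¹ * x⁻¹) = χ 1 := by
  obtain ⟨c, -, hc⟩ := IsChar.exists_scalar_of_norm hχ e
  rw [mul_assoc, mul_assoc, hc, ← mul_assoc, CF_conj (IsChar.mem_CF hχ), ← hc, mul_inv_cancel]

theorem norm_lt [IsSimpleGroup G] (hG : ¬ IsMulCommutative G) {χ : G → ℂ} (hχ : IsIrrCharacter G χ) (h1 : χ ≠ 1)
    {g : G} (hg : g ≠ 1) : ‖χ g‖ < deg χ := by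
  refine lt_of_le_of_ne (IsChar.norm_le (IsIrr.isChar hχ) g) fun e => ?_
  have hc : g ∈ center G := mem_center_iff.2 fun x => by
    have := (IsIrr.mem_cfker hχ).2 (comm_ker (IsIrr.isChar hχ) e x)
    rw [ker_bot hχ h1, mem_bot, mul_inv_eq_one, mul_inv_eq_iff_eq_mul] at this
    exact this.symm
  rcases (inferInstance : (center G).Normal).eq_bot_or_eq_top with h | h
  · exact hg (mem_bot.1 (h ▸ hc))
  · exact hG ⟨⟨fun a b => mem_center_iff.1 (h ▸ mem_top b) a⟩⟩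

theorem one_lt_deg [IsSimpleGroup G] (hG : ¬ IsMulCommutative G) {χ : G → ℂ} (hχ : IsIrrCharacter G χ) (h1 : χ ≠ 1) :
    1 < deg χ := by
  refine lt_of_le_of_ne (IsIrr.deg_pos hχ) fun e => ?_
  obtain ⟨l, rfl⟩ := IsChar.exists_lin_of_deg_one (IsIrr.isChar hχ) (by rw [← IsIrr.coe_deg hχ, ← e, Nat.cast_one])
  obtain ⟨g, hg⟩ := exists_ne (1 : G)
  have := norm_lt hG hχ h1 hg
  rw [norm_lin, deg_lin] at this
  simp at this

/-- a product of two involutions that lies in the section of `z` comes from `C(z)` -/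
theorem Sec.prod_mem {R : Type*} [Group R] [Finite R] {z : G} {π : centralizer ({z} : Set G) →* R} (S : Sec z π)
    {s t : G} (hs : s * s = 1) (ht : t * t = 1) (hc : s * t ∈ centralizer ({z} : Set G))
    (hz : π (zc z) ∈ zpowers (π ⟨_, hc⟩)) : s ∈ centralizer ({z} : Set G) ∧ t ∈ centralizer ({z} : Set G) := by
  obtain ⟨n, hn⟩ := mem_zpowers_iff.1 (S.mem_zp hz)
  have h1 : s * (s * t) * s⁻¹ = (s * t)⁻¹ := by
    rw [← mul_assoc, hs, one_mul, mul_inv_rev, inv_eq_of_mul_eq_one_left ht]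
  have h2 : s ∈ centralizer ({z} : Set G) := mem_centralizer_singleton_iff.2 (by
    have : s * (s * t) ^ n * s⁻¹ = ((s * t) ^ n)⁻¹ := by rw [← conj_zpow, h1, inv_zpow]
    change (s * t) ^ n = z at hn
    rw [hn, inv_eq_of_mul_eq_one_left S.zz] at this
    exact mul_inv_eq_iff_eq_mul.1 this)
  exact ⟨h2, by simpa using mul_mem (inv_mem h2) hc⟩

end CA.Ly

theorem CA.realizeEqns_Ly_Da : True := by
  have := @CA.Ly.A4.eq_1
  have := @CA.Ly.A4.eq_def
  have := @CA.Ly.A4.congr_simp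
  have := @CA.Ly.fA.eq_1
  have := @CA.Ly.fA.eq_def
  have := @CA.Ly.fA.congr_simp
  have := @CA.Ly.phA.eq_1
  have := @CA.Ly.phA.eq_def
  have := @CA.Ly.phA.congr_simp
  have := @CA.Ly.lam.eq_1
  have := @CA.Ly.lam.eq_def
  have := @CA.Ly.lam.congr_simp
  have := @CA.Ly.sg.eq_1
  have := @CA.Ly.sg.eq_def
  have := @CA.Ly.sg.congr_simp
  have := @CA.Ly.ty.eq_1
  have := @CA.Ly.ty.eq_def
  have := @CA.Ly.ty.congr_simp
  trivial
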