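/-
Lyons' theorem: facts on the group `Q` of order 320.
-/
import Cfsg.Agent.Ly.Da
import Cfsg.Agent.Blk.RV

set_option autoImplicit false
set_option linter.unusedSectionVars false

open scoped ComplexConjugate

namespace CA.Ly

open Cfsg CA.Chr CA.Blk Subgroup SemidirectProduct

instance : Fintype Q := Fintype.ofEquiv (T64 × Multiplicative (ZMod 5)) SemidirectProduct.equivProd.symm

theorem card_Q : Nat.card Q = 320 := by
  rw [Nat.card_congr SemidirectProduct.equivProd, Nat.card_prod, card_T64]; simp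

def kq : Q := inr (Multiplicative.ofAdd 1)
def zq : Q := inl z1
def uq : Q := inl u0
/-- `z k ^ j` -/
def xq (j : ZMod 5) : Q := zq * kq ^ j.val

theorem xq_zero : xq 0 = zq := mul_one _

theorem zp_x (j : ZMod 5) : zq ∈ zpowers (xq j) :=
  (by decide +kernel : ∀ j, xq j ^ 5 = zq) j ▸ pow_mem (mem_zpowers _) 5

theorem zp_u : zq ∈ zpowers uq := (by decide +kernel : uq ^ 2 = zq) ▸ pow_mem (mem_zpowers _) 2

theorem card_sub {p : Q → Prop} [DecidablePred p] {n : ℕ} (h : (Finset.univ.filter p).card = n) :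
    Nat.card {y : Q // p y} = n := by rw [Nat.card_eq_fintype_card, Fintype.card_subtype, h]

theorem c_xx (i j : ZMod 5) : Nat.card {y : Q // y * xq j * y⁻¹ = xq i} = if i = j then if i = 0 then 320 else 20 else 0 :=
  card_sub ((by decide +kernel : ∀ i j : ZMod 5, (Finset.univ.filter fun y : Q => y * xq j * y⁻¹ = xq i).card =
    if i = j then if i = 0 then 320 else 20 else 0) i j)

theorem c_xu (i : ZMod 5) : Nat.card {y : Q // y * uq * y⁻¹ = xq i} = 0 :=
  card_sub ((by decide +kernel : ∀ i : ZMod 5, (Finset.univ.filter fun y : Q => y * uq * y⁻¹ = xq i).card = 0) i)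

theorem c_uu : Nat.card {y : Q // y * uq * y⁻¹ = uq} = 16 := card_sub (by decide +kernel)

theorem s_x (i : ZMod 5) : Nat.card {y : Q // y * y = xq i} = if i = 0 then 20 else 0 :=
  card_sub ((by decide +kernel : ∀ i : ZMod 5, (Finset.univ.filter fun y : Q => y * y = xq i).card =
    if i = 0 then 20 else 0) i)

theorem s_u : Nat.card {y : Q // y * y = uq} = 0 := card_sub (by decide +kernel)

theorem Q_inv : ∀ x : Q, x * x = 1 → x = 1 ∨ x = zq ∨ x = inl z2 ∨ x = inl z3 := by decide +kernel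

theorem Q_prod {x y : Q} (hx : x * x = 1) (hy : y * y = 1) : x * y * (x * y) = 1 := by
  rcases Q_inv x hx with rfl | rfl | rfl | rfl <;> rcases Q_inv y hy with rfl | rfl | rfl | rfl <;> decide +kernel

theorem Q_z2 : ∀ x : Q, x * inl z2 = inl z2 * x := by decide +kernel

theorem Q_comm : ∀ x : Q, (x * uq * x⁻¹ * uq⁻¹) ^ 4 = 1 ∧ (x * uq * x⁻¹ * uq⁻¹ = 1 → x ^ 4 = 1) := by decide +kernel

theorem Q_odd (x : Q) : ¬ 2 ∣ orderOf x ↔ x ^ 5 = 1 := by
  refine ⟨fun h => orderOf_dvd_iff_pow_eq_one.1 ?_, fun h h2 => ?_⟩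
  · have := orderOf_dvd_of_pow_eq_one ((by decide +kernel : ∀ x : Q, x ^ (2 ^ 2 * 5) = 1) x)
    exact Nat.Coprime.dvd_of_dvd_mul_left (Nat.Coprime.pow_right 2
      ((Nat.Prime.coprime_iff_not_dvd Nat.prime_two).2 h).symm) this
  · exact absurd (h2.trans (orderOf_dvd_of_pow_eq_one h)) (by norm_num)

theorem Q_five : ∀ x : Q, x ^ 5 = 1 → ∃ y : T64, inl y * kq ^ x.right.toAdd.val * (inl y)⁻¹ = x := by decide +kernel

/-- the additive character of `ZMod 5` -/
noncomputable def E5 : AddChar (ZMod 5) ℂ := ZMod.stdAddChar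

theorem E5_prim : IsPrimitiveRoot (E5 1) 5 := by
  have := ZMod.stdAddChar_coe (N := 5) 1
  rw [Int.cast_one] at this
  rw [E5, this]
  simpa using Complex.isPrimitiveRoot_exp 5 (by norm_num)

theorem E5_pow (l j : ZMod 5) : E5 l ^ j.val = E5 (l * j) := by
  rw [← AddChar.map_nsmul_eq_pow, nsmul_eq_mul, ZMod.natCast_zmod_val, mul_comm]

theorem E5_sum (b : ZMod 5) : ∑ j, E5 (j * b) = if b = 0 then 5 else 0 := by
  rw [E5, AddChar.sum_mulShift b (ZMod.isPrimitive_stdAddChar 5)]; simp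

theorem sum5 {M : Type*} [AddCommMonoid M] (f : ZMod 5 → M) : ∑ j, f j = f 0 + f 1 + f 2 + f 3 + f 4 :=
  Fin.sum_univ_five f

theorem exists_D {ψ : Q → ℂ} (h : IsCharacter Q ψ) {a : Q} (ha : a * a = 1) (c : Commute a kq) :
    ∃ D : ZMod 5 → ℤ, ∀ j : ZMod 5, ψ (a * kq ^ j.val) = ∑ l, D l * E5 (l * j) := by
  obtain ⟨s, -, h1, h2⟩ := exists_pair h c
  have h3 := h2 1
  simp only [pow_one] at h3
  simp only [h3]
  clear h2 h3
  induction s using Multiset.induction_on with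
  | empty => exact ⟨0, by simp⟩
  | cons p s ih =>
    obtain ⟨D, hD⟩ := ih fun z hz => h1 z (Multiset.mem_cons_of_mem hz)
    obtain ⟨p1, p2⟩ := h1 p (Multiset.mem_cons_self _ _)
    obtain ⟨k, hk⟩ := orderOf_dvd_of_pow_eq_one (show a ^ 2 = 1 by rw [pow_two, ha])
    obtain ⟨k', hk'⟩ := orderOf_dvd_of_pow_eq_one (by decide +kernel : kq ^ 5 = 1)
    obtain ⟨e, he⟩ : ∃ e : ℤ, p.1 = e := by
      rcases sq_eq_one_iff.1 (show p.1 ^ 2 = 1 by rw [hk, pow_mul, p1, one_pow]) with e | e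
      exacts [⟨1, by simp [e]⟩, ⟨-1, by simp [e]⟩]
    obtain ⟨l, -, hl⟩ := E5_prim.eq_pow_of_pow_eq_one (show p.2 ^ 5 = 1 by rw [hk', pow_mul, p2, one_pow])
    refine ⟨fun i => D i + if i = l then e else 0, fun j => ?_⟩
    rw [Multiset.map_cons, Multiset.sum_cons, hD, he, ← hl, ← AddChar.map_nsmul_eq_pow, nsmul_one, E5_pow]
    simp [add_mul, Finset.sum_add_distrib, add_comm]

theorem D_inv {D v : ZMod 5 → ℂ} (h : ∀ j, v j = ∑ l, D l * E5 (l * j)) (m : ZMod 5) :
    D m = 5⁻¹ * ∑ j, v j * E5 (-(m * j)) := by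
  simp only [h, Finset.sum_mul]
  rw [Finset.sum_comm, Finset.sum_congr rfl (g := fun l => D l * if l - m = 0 then 5 else 0) fun l _ => by
    rw [← E5_sum, Finset.mul_sum]
    exact Finset.sum_congr rfl fun j _ => by rw [mul_assoc, ← AddChar.map_add_eq_mul]; congr 2; ring]
  simp [sub_eq_zero]
  ring

theorem Q_blk (ψ : Q → ℂ) (hψ : IsIrrCharacter Q ψ) : ⟪ψ, regI 2 Q⟫ ≠ 0 := by
  obtain ⟨D, hD⟩ := exists_D (IsIrr.isChar hψ) (a := 1) (mul_one _) (Commute.one_left _)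
  simp only [one_mul] at hD
  have h0 := D_inv hD 0
  have e : ∀ x : Q, ψ x * conj (regI 2 Q x) =
      ψ (kq ^ x.right.toAdd.val) * ((if x ^ 5 = 1 then 1 else 0 : ℤ) : ℂ) := fun x => by
    by_cases hx : x ^ 5 = 1
    · obtain ⟨y, hy⟩ := Q_five x hx
      conv_lhs => rw [← hy, CF_conj (IsIrr.mem_CF hψ), hy]
      simp [regI, (Q_odd x).2 hx, hx]
    · simp [regI, not_not.1 ((Q_odd x).not.2 hx), hx]
  have hd : deg ψ < 16 := by
    have h1 := IsIrr.nrm hψ
    rw [nrm_def, card_Q] at h1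
    have h2 := Finset.sum_le_sum_of_subset_of_nonneg (f := fun g => ‖ψ g‖ ^ 2) (Finset.subset_univ {1, inl z2})
      fun _ _ _ => sq_nonneg _
    rw [Finset.sum_pair (by decide +kernel), IsIrr.norm_central hψ (z := 1) (by simp),
      IsIrr.norm_central hψ (z := inl z2) fun x => by rw [← Q_z2]; simp] at h2
    by_contra h3
    have : (16 : ℝ) ≤ deg ψ := by exact_mod_cast not_lt.1 h3
    push_cast at h1
    nlinarith
  rw [dot_def]
  simp only [e]
  rw [sum_ty (fun x : Q => x.right.toAdd) _ fun j => ψ (kq ^ j.val), Finset.sum_congr rfl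
    (g := fun j : ZMod 5 => ψ (kq ^ j.val) * ((if j = 0 then 1 else 16 : ℤ) : ℂ)) fun j _ => by
      rw [(by decide +kernel : ∀ j : ZMod 5, (∑ x : Q, if x.right.toAdd = j then
        (if x ^ 5 = 1 then 1 else 0 : ℤ) else 0) = if j = 0 then 1 else 16) j]]
  refine mul_ne_zero (inv_ne_zero card_ne_zero) fun h => ?_
  have h1 : ((80 * D 0 - 15 * deg ψ : ℤ) : ℂ) = 0 := by
    simp +decide [sum5] at h0 h
    push_cast
    rw [IsIrr.coe_deg hψ]
    linear_combination h + 80 * h0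
  have h2 := IsIrr.deg_pos hψ
  have h3 : 80 * D 0 - 15 * deg ψ = 0 := by exact_mod_cast h1
  omega

end CA.Ly

theorem CA.realizeEqns_Ly_Db : True := by
  have := @CA.Ly.kq.eq_1
  have := @CA.Ly.kq.eq_def
  have := @CA.Ly.kq.congr_simp
  have := @CA.Ly.uq.eq_1
  have := @CA.Ly.uq.eq_def
  have := @CA.Ly.uq.congr_simp
  have := @CA.Ly.xq.eq_1
  have := @CA.Ly.xq.eq_def
  have := @CA.Ly.xq.congr_simp
  have := @CA.Ly.zq.eq_1
  have := @CA.Ly.zq.eq_def
  have := @CA.Ly.zq.congr_simp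
  have := @CA.Ly.E5.eq_1
  have := @CA.Ly.E5.eq_def
  have := @CA.Ly.E5.congr_simp
  trivial
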