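/-
Lyons' theorem: the rows of the principal 2-block in the case of an automizer of order 15.
-/
import Cfsg.Agent.Ly.Db
import Cfsg.Agent.Ly.ArDef

set_option autoImplicit false
set_option linter.unusedSectionVars false

open scoped ComplexConjugate

namespace CA.Ly

open Cfsg CA.Chr CA.Blk Subgroup SemidirectProduct

universe u

variable {G : Type u} [Group G] [Finite G] {ι : T64 →* G} {h : G} {π : centralizer ({ι z1} : Set G) →* Q}

theorem Pi15.pz (P : Pi15 ι π) : π (zc (ι z1)) = zq := P.on z1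

theorem Pi15.sec (F : Fus ι h 1) (P : Pi15 ι π) : Sec (ι z1) π := ⟨F.two, P.surj, P.odd, Q_blk⟩

theorem Pi15.hx (P : Pi15 ι π) (j : ZMod 5) : π (zc (ι z1)) ∈ zpowers (xq j) := P.pz ▸ zp_x j

theorem Pi15.hu (P : Pi15 ι π) : π (zc (ι z1)) ∈ zpowers uq := P.pz ▸ zp_u

theorem Fus.val1 (F : Fus ι h 1) {f : G → ℂ} (hf : f ∈ CF G) (t : T64) :
    f (ι t) = ![f 1, f (ι z1), f (ι u0)] (ty t) := by
  rw [F.val hf (allT_spec (p := fun t => (List.range 15).any fun j => (List.range 64).any fun y =>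
    decide (Ly.mk y * tauF^[1 * j] (![1, z1, u0] (ty t)) * (Ly.mk y)⁻¹ = t)) (by decide +kernel) t)]
  generalize ty t = i
  fin_cases i <;> simp

structure Row (ι : T64 →* G) (π : centralizer ({ι z1} : Set G) →* Q) (χ : G → ℂ) (a : ℤ) (D : ZMod 5 → ℤ)
    (m : Fin 3 → ℕ) : Prop where
  u : loc π χ uq = -a
  x : ∀ j, loc π χ (xq j) = ∑ l, D l * E5 (l * j)
  z : χ (ι z1) = (∑ l, D l : ℤ)
  m0 : ⟪χ ∘ ι, lin (lam 0)⟫ = m 0
  m1 : ⟪χ ∘ ι, lin (lam 1)⟫ = m 1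
  m2 : ⟪χ ∘ ι.comp fA, lin phA⟫ = m 2
  e0 : (deg χ : ℤ) + 3 * ∑ l, D l - 60 * a = 64 * m 0
  e1 : (deg χ : ℤ) + 3 * ∑ l, D l + 4 * a = 64 * m 1
  e2 : (deg χ : ℤ) - ∑ l, D l = 16 * m 2

theorem Pi15.row (F : Fus ι h 1) (P : Pi15 ι π) {χ : G → ℂ} (hχ : χ ∈ B0 2 G) : ∃ a D m, Row ι π χ a D m := by
  have hi := B0_irr hχ
  have hc := IsIrr.isChar hi
  obtain ⟨D, hD⟩ := exists_D (loc_char (π := π) hc) (a := zq) (by decide +kernel)
    (show zq * kq = kq * zq by decide +kernel)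
  have hz : χ (ι z1) = (∑ l, D l : ℤ) := by
    have := hD 0
    rw [show zq * kq ^ (0 : ZMod 5).val = zq from mul_one _, ← P.pz, ← (P.sec F).val hχ (mem_zpowers _)] at this
    simpa [zc] using this
  have hu : χ (ι u0) = loc π χ uq := by
    rw [uq, ← P.on u0]; exact (P.sec F).val hχ (c := iC ι u0) (by rw [P.on]; exact P.hu)
  obtain ⟨m0, h0⟩ := IsChar.dot_nat (IsChar.comp hc ι) (IsIrr.isChar (lin_irr (lam 0)))
  obtain ⟨m1, h1⟩ := IsChar.dot_nat (IsChar.comp hc ι) (IsIrr.isChar (lin_irr (lam 1)))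
  obtain ⟨m2, h2⟩ := IsChar.dot_nat (IsChar.comp hc (ι.comp fA)) (IsIrr.isChar (lin_irr phA))
  have k0 := h0
  have k1 := h1
  have k2 := h2
  rw [dot_lam] at k0 k1
  rw [show χ ∘ ι = fun t => ![χ 1, χ (ι z1), χ (ι u0)] (ty t) from funext (F.val1 (IsIrr.mem_CF hi))] at k0 k1
  rw [sum_ty ty, Fin.sum_univ_three] at k0 k1
  rw [show (∑ t, if ty t = 0 then sg 0 t else 0) = 1 by decide +kernel,
    show (∑ t, if ty t = 1 then sg 0 t else 0) = 3 by decide +kernel,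
    show (∑ t, if ty t = 2 then sg 0 t else 0) = 60 by decide +kernel] at k0
  rw [show (∑ t, if ty t = 0 then sg 1 t else 0) = 1 by decide +kernel,
    show (∑ t, if ty t = 1 then sg 1 t else 0) = 3 by decide +kernel,
    show (∑ t, if ty t = 2 then sg 1 t else 0) = -4 by decide +kernel] at k1
  rw [show χ ∘ ι.comp fA = (χ ∘ ι) ∘ fA from rfl, dot_phA _ _ fun a => F.val1 (IsIrr.mem_CF hi) _] at k2
  simp only [Matrix.cons_val_zero, Matrix.cons_val_one, Matrix.cons_val, hz, ← IsIrr.coe_deg hi] at k0 k1 k2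
  have ha : χ (ι u0) = -((m1 - m0 : ℤ) : ℂ) := by push_cast at k0 k1 ⊢; linear_combination k0 - k1
  rw [ha] at k0 k1
  refine ⟨m1 - m0, D, ![m0, m1, m2], hu ▸ ha, hD, hz, h0, h1, h2, ?_, ?_, ?_⟩ <;> apply Int.cast_injective (α := ℂ) <;>
    push_cast at k0 k1 k2 ⊢
  · linear_combination 64 * k0
  · linear_combination 64 * k1
  · linear_combination 16 * k2

namespace Row

variable {χ : G → ℂ} {a : ℤ} {D : ZMod 5 → ℤ} {m : Fin 3 → ℕ} (r : Row ι π χ a D m)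
include r

theorem x0 : loc π χ (xq 0) = (∑ l, D l : ℤ) := by rw [r.x]; simp

theorem Deq (k : ZMod 5) : (D k : ℂ) = 5⁻¹ * ∑ j, loc π χ (xq j) * E5 (-(k * j)) := D_inv r.x k

theorem Deq' (k : ZMod 5) : (D k : ℂ) = 5⁻¹ * ∑ j, conj (loc π χ (xq j)) * E5 (k * j) := by
  have := congrArg conj (r.Deq k)
  simpa [E5, ← AddChar.map_neg_eq_conj, map_ofNat] using this

theorem b_eq (k : ZMod 5) : ((4 * (m 1 : ℤ) - m 2 - D k : ℤ) : ℂ) = (loc π χ (xq 0) + a) / 4 - D k := by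
  have : ∑ l, D l + a = 4 * (4 * (m 1 : ℤ) - m 2) := by linarith [r.e1, r.e2]
  have := congrArg (Int.cast (R := ℂ)) this
  rw [r.x0]
  push_cast at this ⊢
  linear_combination -this / 4

end Row

theorem transfer {I : Type*} [Fintype I] {χ : I → G → ℂ} {a : I → ℤ} {D : I → ZMod 5 → ℤ} {m : I → Fin 3 → ℕ}
    (r : ∀ i, Row ι π (χ i) (a i) (D i) (m i)) (c : I → ℂ) {R : ZMod 5 → ℂ} {U : ℂ}
    (hx : ∀ j, ∑ i, c i * loc π (χ i) (xq j) = R j) (hu : ∑ i, c i * loc π (χ i) uq = U) :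
    ∑ i, c i * a i = -U ∧ ∀ k, ∑ i, c i * ((4 * (m i 1 : ℤ) - m i 2 - D i k : ℤ) : ℂ) =
      (R 0 - U) / 4 - 5⁻¹ * ∑ j, R j * E5 (-(k * j)) := by
  have h1 : ∑ i, c i * a i = -U := by
    rw [← hu, ← Finset.sum_neg_distrib]; exact Finset.sum_congr rfl fun i _ => by rw [(r i).u]; ring
  refine ⟨h1, fun k => ?_⟩
  have h2 : ∑ i, c i * D i k = 5⁻¹ * ∑ j, R j * E5 (-(k * j)) := by
    simp only [← hx, fun i => (r i).Deq k, Finset.sum_mul, Finset.mul_sum]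
    rw [Finset.sum_comm]
    exact Finset.sum_congr rfl fun j _ => Finset.sum_congr rfl fun i _ => by ring
  rw [← h2, sub_eq_add_neg (R 0), ← h1, ← hx, ← Finset.sum_add_distrib, Finset.sum_div, ← Finset.sum_sub_distrib]
  exact Finset.sum_congr rfl fun i _ => by rw [(r i).b_eq]; ring

theorem transfer0 {I : Type*} [Fintype I] {χ : I → G → ℂ} {a : I → ℤ} {D : I → ZMod 5 → ℤ} {m : I → Fin 3 → ℕ}
    (r : ∀ i, Row ι π (χ i) (a i) (D i) (m i)) (c : I → ℂ) {R : ℂ}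
    (hx : ∀ j, ∑ i, c i * loc π (χ i) (xq j) = if j = 0 then R else 0) (hu : ∑ i, c i * loc π (χ i) uq = 0) :
    ∑ i, c i * a i = 0 ∧ ∀ k, ∑ i, c i * ((4 * (m i 1 : ℤ) - m i 2 - D i k : ℤ) : ℂ) = R / 20 := by
  obtain ⟨h1, h2⟩ := transfer r c hx hu
  refine ⟨by simpa using h1, fun k => ?_⟩
  rw [h2]
  simp
  ring

/-- the number of ways to write an element above `q` as a product of two conjugates of `z` -/
noncomputable def cnt (ι : T64 →* G) (π : centralizer ({ι z1} : Set G) →* Q) (q : Q) : ℕ :=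
  Nat.card {x : G × G // ∃ hc, π ⟨x.1 * ι z1 * x.1⁻¹ * (x.2 * ι z1 * x.2⁻¹), hc⟩ = q}

theorem conj_sq {s : G} (hs : s * s = 1) (x : G) : x * s * x⁻¹ * (x * s * x⁻¹) = 1 := by
  simp [mul_assoc, ← mul_assoc s s, hs]

theorem Pi15.cnt_zero (F : Fus ι h 1) (P : Pi15 ι π) {q : Q} (hq : π (zc (ι z1)) ∈ zpowers q) (h2 : q * q ≠ 1) :
    cnt ι π q = 0 := by
  refine Nat.card_eq_zero.2 (Or.inl ⟨fun ⟨x, hc, e⟩ => h2 ?_⟩)
  have S := P.sec F
  obtain ⟨h1, h2⟩ := S.prod_mem (conj_sq S.zz _) (conj_sq S.zz _) hc (e ▸ hq)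
  have : π ⟨_, h1⟩ * π ⟨_, h2⟩ = q := by rw [← map_mul]; exact e
  rw [← this]
  refine Q_prod ?_ ?_ <;> rw [← map_mul, ← map_one π] <;> exact congrArg π (Subtype.ext (conj_sq S.zz _))

theorem Fus.z2_eq (F : Fus ι h 1) : h * ι z1 * h⁻¹ = ι z2 := by
  rw [F.conj]; exact congrArg ι (by decide +kernel)

theorem Fus.z3_eq (F : Fus ι h 1) : h ^ 2 * ι z1 * (h ^ 2)⁻¹ = ι z3 := by
  rw [F.conj_it]; exact congrArg ι (by decide +kernel)

theorem Pi15.cnt_pos (F : Fus ι h 1) (P : Pi15 ι π) : 0 < cnt ι π zq := by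
  have e : h * ι z1 * h⁻¹ * (h ^ 2 * ι z1 * (h ^ 2)⁻¹) = ι z1 := by
    rw [F.z2_eq, F.z3_eq, ← map_mul]; exact congrArg ι (by decide +kernel)
  have : Nonempty {x : G × G // ∃ hc, π ⟨x.1 * ι z1 * x.1⁻¹ * (x.2 * ι z1 * x.2⁻¹), hc⟩ = zq} :=
    ⟨⟨(h, h ^ 2), e.symm ▸ (zc _).2, by rw [← P.pz]; exact congrArg π (Subtype.ext e)⟩⟩
  exact Nat.card_pos

theorem map_mem_B0 {χ : G → ℂ} (hχ : χ ∈ B0 2 G) (τ : ℂ →+* ℂ) : τ ∘ χ ∈ B0 2 G := by
  obtain ⟨hi, h0⟩ := mem_B0.1 hχ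
  refine mem_B0.2 ⟨IsIrr.map hi τ, fun e => h0 ?_⟩
  have h1 : τ ∘ regI 2 G = regI 2 G := funext fun g => by simp [regI, apply_ite τ]
  rw [dot_eq_zero_comm, ← h1, ZIrr.dot_map (IsIrr.mem_ZIrr hi), map_eq_zero] at e
  exact dot_comm_zero e

end CA.Ly

theorem CA.realizeEqns_Ly_Dc : True := by
  have := @CA.Ly.cnt.eq_1.{0}
  have := @CA.Ly.cnt.eq_def.{0}
  have := @CA.Ly.cnt.congr_simp.{0}
  trivial
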