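/-
Lyons' theorem, package D3: an automizer of order 3 is impossible.
-/
import Cfsg.Agent.Ly.Dc

set_option autoImplicit false
set_option linter.unusedSectionVars false

open scoped ComplexConjugate

namespace CA.Ly

open Cfsg CA.Chr CA.Blk Subgroup

universe u

def rowP (a b c d e z : ℤ) : Prop := a + b + c + d = 0 ∨ a + b + c + d = 4 ∨ (a + b + c + d = -4 ∧ (z = 0 ∨
  (a + b + c + d + e = -5 ∧ (z = -1 ∨ z = 3 ∨ z = -5)) ∨ (a + b + c + d + e = -1 ∧ (z = -1 ∨ z = 3))))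

instance (a b c d e z : ℤ) : Decidable (rowP a b c d e z) := inferInstanceAs (Decidable (_ ∨ _ ∨ _ ∧ (_ ∨ _ ∨ _)))

def rg (n : ℕ) : List ℤ := (List.range (2 * n + 1)).map fun i : ℕ => (i : ℤ) - n

theorem mem_rg {n : ℕ} {x : ℤ} (h1 : -(n : ℤ) ≤ x) (h2 : x ≤ n) : x ∈ rg n :=
  List.mem_map.2 ⟨(x + n).toNat, List.mem_range.2 (by omega), by omega⟩

theorem row3_chk : ((rg 4).all fun a => (rg 4).all fun b => (a - b) % 4 != 0 || (rg 4).all fun c => (a - c) % 4 != 0 ||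
    (rg 4).all fun d => (a - d) % 4 != 0 || (rg 4).all fun e => (a - e) % 4 != 0 || (rg 8).all fun z =>
      (a - z) % 4 != 0 || decide (64 < z * z + 4 * (a * a + b * b + c * c + d * d + e * e)) ||
        decide (rowP a b c d e z)) = true := by
  decide +kernel

theorem row3 {a b c d e z : ℤ} (h1 : (a - b) % 4 = 0) (h2 : (a - c) % 4 = 0) (h3 : (a - d) % 4 = 0)
    (h4 : (a - e) % 4 = 0) (h5 : (a - z) % 4 = 0) (h : z * z + 4 * (a * a + b * b + c * c + d * d + e * e) ≤ 64) :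
    rowP a b c d e z ∧ -8 ≤ z := by
  have := row3_chk
  simp only [List.all_eq_true, Bool.or_eq_true, bne_iff_ne, ne_eq, decide_eq_true_eq] at this
  have r : ∀ x : ℤ, x * x ≤ 16 → x ∈ rg 4 := fun x hx => mem_rg (by push_cast; nlinarith) (by push_cast; nlinarith)
  have pa := mul_self_nonneg a
  have pb := mul_self_nonneg b
  have pc := mul_self_nonneg c
  have pd := mul_self_nonneg d
  have pe := mul_self_nonneg e
  have pz := mul_self_nonneg z
  have z1 : -8 ≤ z := by nlinarith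
  exact ⟨((((((this a (r a (by omega)) b (r b (by omega))).resolve_left (not_not.2 h1) c (r c (by omega))).resolve_left
    (not_not.2 h2) d (r d (by omega))).resolve_left (not_not.2 h3) e (r e (by omega))).resolve_left (not_not.2 h4)
    z (mem_rg (by push_cast; omega) (by push_cast; nlinarith))).resolve_left (by omega)), z1⟩

theorem ar3 {I : Type*} [DecidableEq I] (B : Finset I) (x : Fin 5 → I → ℤ) (ζ d : I → ℤ) (o : I) (ho : o ∈ B)
    (xx : ∀ k l, ∑ i ∈ B, x k i * x l i = if k = l then 16 else 0) (xz : ∀ k, ∑ i ∈ B, x k i * ζ i = 0)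
    (zz : ∑ i ∈ B, ζ i * ζ i = 64) (ox : ∀ k, x k o = 1) (oz : ζ o = 1) (od : d o = 1)
    (dz : ∀ i ∈ B, i ≠ o → |ζ i| < d i)
    (e0 : ∀ i ∈ B, ∃ m : ℕ, d i + 3 * ζ i + 12 * (x 0 i + x 1 i + x 2 i + x 3 i + x 4 i) = 64 * m)
    (e1 : ∀ i ∈ B, ∀ k, (x 0 i - x k i) % 4 = 0) (e2 : ∀ i ∈ B, 16 ∣ d i - ζ i)
    (r : ∀ k, ∑ i ∈ B, (x k i * ζ i ^ 2 / d i : ℚ) = 0) : False := by
  have bes : ∀ j ∈ B, ζ j * ζ j + 4 * (x 0 j * x 0 j + x 1 j * x 1 j + x 2 j * x 2 j + x 3 j * x 3 j + x 4 j * x 4 j)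
      ≤ 64 := fun j hj => by
    let w : I → ℤ := fun i => ζ j * ζ i + 4 * ∑ k, x k j * x k i
    have h1 := Finset.single_le_sum (f := fun i => w i * w i) (fun i _ => mul_self_nonneg _) hj
    have h2 : ∑ i ∈ B, w i * w i = 64 * w j := by
      have : ∀ i, w i * w i = ζ j * ζ j * (ζ i * ζ i) + 8 * ∑ k, ζ j * x k j * (x k i * ζ i) +
          16 * ∑ k, ∑ l, x k j * x l j * (x k i * x l i) := fun i => by
        simp only [w, Fin.sum_univ_five]; ring
      simp only [this, Finset.sum_add_distrib, ← Finset.mul_sum, zz]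
      rw [Finset.sum_comm, Finset.sum_comm (s := B)]
      simp only [Finset.sum_comm (s := B), ← Finset.mul_sum, xz, xx, w]
      simp [Fin.sum_univ_five]
      ring
    rw [h2] at h1
    simp only [w, Fin.sum_univ_five] at h1
    nlinarith
  let A : I → ℤ := fun i => x 0 i + x 1 i + x 2 i + x 3 i
  have pt : ∀ i ∈ B.erase o, (-17 / 240 * (A i * A i : ℤ) - 1 / 100 * (A i * ζ i : ℤ) : ℚ) ≤ A i * ζ i ^ 2 / d i :=
    fun i hi => by
    obtain ⟨ne, hi⟩ := Finset.mem_erase.1 hi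
    have h1 := abs_lt.1 (dz i hi ne)
    obtain ⟨m, hm⟩ := e0 i hi
    have h2 := e2 i hi
    have h3 := e1 i hi
    obtain ⟨h4, h5⟩ := row3 (h3 1) (h3 2) (h3 3) (h3 4) (by
      have := h3 1; have := h3 2; have := h3 3; have := h3 4; omega) (bes i hi)
    have d0 : 0 < d i := by omega
    rw [le_div_iff₀ (by exact_mod_cast d0)]
    have key : 0 ≤ 1200 * (A i * ζ i ^ 2) + (85 * (A i * A i) + 12 * (A i * ζ i)) * d i := by
      rcases h4 with e | e | ⟨e, e' | ⟨e', f | f | f⟩ | ⟨e', f | f⟩⟩ <;> rw [show A i = _ from e]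
      · simp
      · have := sq_nonneg (ζ i); nlinarith
      all_goals first | (rw [f] at hm h1 ⊢; rw [e'] at hm; norm_num; omega) | (rw [e']; omega)
    have : (0 : ℚ) ≤ ((1200 * (A i * ζ i ^ 2) + (85 * (A i * A i) + 12 * (A i * ζ i)) * d i : ℤ) : ℚ) := by
      exact_mod_cast key
    push_cast at this ⊢
    linarith
  have h1 := Finset.sum_le_sum pt
  have s1 : ∑ i ∈ B, A i * A i = 64 := by
    simp only [A, add_mul, mul_add, Finset.sum_add_distrib, xx]; simp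
  have s2 : ∑ i ∈ B, A i * ζ i = 0 := by
    simp only [A, add_mul, Finset.sum_add_distrib, xz]; simp
  have s3 : ∑ i ∈ B, (A i * ζ i ^ 2 / d i : ℚ) = 0 := by
    simp only [A, Int.cast_add, add_mul, add_div, Finset.sum_add_distrib, r]; simp
  rw [← Finset.sum_erase_add _ _ ho] at s1 s2 s3
  simp only [A, ox, oz, od] at s1 s2 s3
  rw [Finset.sum_sub_distrib, ← Finset.mul_sum, ← Finset.mul_sum, ← Int.cast_sum, ← Int.cast_sum,
    eq_sub_of_add_eq s1, eq_sub_of_add_eq s2, eq_sub_of_add_eq s3] at h1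
  norm_num at h1

def uu : Fin 5 → T64 := ![mk 1, mk 8, mk 44, mk 26, mk 63]
def lc : Fin 5 → Fin 16 := ![6, 2, 1, 4, 3]

def ty5 (t : T64) : Fin 7 :=
  if t = 1 then 0 else if t * t = 1 then 1 else ⟨(230680198507280 >>> (3 * (t.v.val % 16))) % 8 % 7, Nat.mod_lt _ (by decide)⟩

variable {G : Type u} [Group G] [Finite G] {ι : T64 →* G} {h : G} {π : centralizer ({ι z1} : Set G) →* T64}

theorem Fus.val5 (F : Fus ι h 5) {f : G → ℂ} (hf : f ∈ CF G) (t : T64) : f (ι t) =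
    ![f 1, f (ι z1), f (ι (uu 0)), f (ι (uu 1)), f (ι (uu 2)), f (ι (uu 3)), f (ι (uu 4))] (ty5 t) := by
  rw [F.val hf (allT_spec (p := fun t => (List.range 15).any fun j => (List.range 64).any fun y =>
    decide (Ly.mk y * tauF^[5 * j] (![1, z1, uu 0, uu 1, uu 2, uu 3, uu 4] (ty5 t)) * (Ly.mk y)⁻¹ = t))
      (by decide +kernel) t)]
  generalize ty5 t = i
  fin_cases i <;> simp

theorem Fus.row5 (F : Fus ι h 5) {χ : G → ℂ} (hi : IsIrrCharacter G χ) : ∃ (x : Fin 5 → ℤ) (ζ : ℤ),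
    (∀ k, χ (ι (uu k)) = x k) ∧ χ (ι z1) = ζ ∧ (∃ m : ℕ, deg χ + 3 * ζ + 12 * (x 0 + x 1 + x 2 + x 3 + x 4) = 64 * m) ∧
      (∀ k, (x 0 - x k) % 4 = 0) ∧ 16 ∣ deg χ - ζ := by
  have hc := IsIrr.isChar hi
  have hv := F.val5 (IsIrr.mem_CF hi)
  obtain ⟨m, k0⟩ := IsChar.dot_nat (IsChar.comp hc ι) (IsIrr.isChar (lin_irr (lam 0)))
  choose n k1 using fun k => IsChar.dot_nat (IsChar.comp hc ι) (IsIrr.isChar (lin_irr (lam (lc k))))
  obtain ⟨m2, k2⟩ := IsChar.dot_nat (IsChar.comp hc (ι.comp fA)) (IsIrr.isChar (lin_irr phA))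
  rw [show χ ∘ ι.comp fA = (χ ∘ ι) ∘ fA from rfl, dot_phA _ ![χ 1, χ (ι z1), χ (ι (uu 0))] fun a => by
    rw [Function.comp_apply, hv, (by decide +kernel : ∀ a, ty5 (fA a) = (ty (fA a)).castLE (by decide)) a]
    generalize ty (fA a) = i
    fin_cases i <;> rfl] at k2
  simp only [dot_lam, show χ ∘ ι = _ from funext hv, sum_ty ty5] at k0 k1
  simp only [(by decide +kernel : ∀ i, (∑ t, if ty5 t = i then sg 0 t else 0) = ![1, 3, 12, 12, 12, 12, 12] i)] at k0
  have k3 : ∀ k, 64⁻¹ * (χ 1 + 3 * χ (ι z1) + 16 * χ (ι (uu k)) - 4 * ∑ l, χ (ι (uu l))) = n k := fun k => by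
    rw [← k1 k]
    simp only [(by decide +kernel : ∀ k i, (∑ t, if ty5 t = i then sg (lc k) t else 0) =
        if i.val = 0 then 1 else if i.val = 1 then 3 else if i.val = k.val + 2 then 12 else -4)]
    fin_cases k <;> simp [Fin.sum_univ_succ] <;> ring
  simp only [Fin.sum_univ_seven, Fin.sum_univ_five, ← IsIrr.coe_deg hi] at k0 k2 k3
  simp at k0 k2
  have a0 := k3 0
  have a1 := k3 1
  have a2 := k3 2
  have a3 := k3 3
  have a4 := k3 4
  refine ⟨fun k => m + 4 * n k - (n 0 + n 1 + n 2 + n 3 + n 4), deg χ - 16 * m2, fun k => ?_, ?_, ⟨m, ?_⟩,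
    fun k => by beta_reduce; omega, ⟨m2, by ring⟩⟩
  · push_cast; linear_combination k0 + 4 * k3 k - a0 - a1 - a2 - a3 - a4
  · push_cast; linear_combination -16 * k2
  · apply Int.cast_injective (α := ℂ)
    push_cast
    linear_combination 64 * k0 + 48 * k2 - 12 * (5 * k0 - a0 - a1 - a2 - a3 - a4)

theorem card_subT {p : T64 → Prop} [DecidablePred p] {n : ℕ} (h : (Finset.univ.filter p).card = n) :
    Nat.card {y : T64 // p y} = n := by
  rw [Nat.card_eq_fintype_card, Fintype.card_subtype, h]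

theorem Fus.not3 [IsSimpleGroup G] (F : Fus ι h 5) (P : Pi3 ι π) : False := by
  classical
  have S : Sec (ι z1) π := ⟨F.two, fun t => ⟨_, P.on t⟩, P.odd, blk_of_two fun t => ⟨2, by
    rw [show t ^ 2 ^ 2 = t * t * (t * t) by simp [pow_succ, mul_assoc], pow_four]⟩⟩
  have pz : π (zc (ι z1)) = z1 := P.on z1
  have hu : ∀ k, π (zc (ι z1)) ∈ zpowers (uu k) := fun k => mem_zpowers_iff.2 ⟨2, by
    rw [zpow_two, pz]; revert k; decide +kernel⟩
  have hz : π (zc (ι z1)) ∈ zpowers z1 := by rw [pz]; exact mem_zpowers _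
  have lv : ∀ χ ∈ B0 2 G, ∀ t, π (zc (ι z1)) ∈ zpowers t → loc π χ t = χ (ι t) := fun χ hχ t ht => by
    conv_lhs => rw [← P.on t]
    exact (S.val hχ (c := iC ι t) (by rwa [P.on])).symm
  choose! x ζ hx hζ e0 e1 e2 using fun χ (hχ : χ ∈ B0 2 G) => F.row5 (B0_irr hχ)
  have o1 := one_mem_B0 (G := G) Nat.prime_two
  have orth : ∀ (s t : T64) (a b : (G → ℂ) → ℤ) (n : ℕ), π (zc (ι z1)) ∈ zpowers s → π (zc (ι z1)) ∈ zpowers t →
      (∀ χ ∈ B0 2 G, χ (ι s) = a χ) → (∀ χ ∈ B0 2 G, χ (ι t) = b χ) →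
      (Finset.univ.filter fun y => y * t * y⁻¹ = s).card = n → ∑ χ ∈ B0 2 G, a χ * b χ = n :=
    fun s t a b n hs ht ha hb hn => by
      have := S.orth hs ht
      rw [card_subT hn] at this
      apply Int.cast_injective (α := ℂ)
      rw [Int.cast_natCast, ← this, Int.cast_sum]
      exact Finset.sum_congr rfl fun χ hχ => by rw [lv χ hχ s hs, lv χ hχ t ht, ha χ hχ, hb χ hχ]; simp
  refine ar3 (B0 2 G) (fun k χ => x χ k) ζ (fun χ => deg χ) 1 o1
    (fun k l => (orth _ _ _ _ (if k = l then 16 else 0) (hu k) (hu l) (fun χ hχ => hx χ hχ k) (fun χ hχ => hx χ hχ l)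
      (by revert k l; decide +kernel)).trans (by split_ifs <;> rfl))
    (fun k => orth _ _ _ _ 0 (hu k) hz (fun χ hχ => hx χ hχ k) hζ (by revert k; decide +kernel))
    (orth _ _ _ _ 64 hz hz hζ hζ (by decide +kernel))
    (fun k => Int.cast_injective (α := ℂ) ((hx 1 o1 k).symm.trans (by simp)))
    (Int.cast_injective (α := ℂ) ((hζ 1 o1).symm.trans (by simp))) (by simp)
    (fun χ hχ ne => ?_) e0 e1 e2 fun k => ?_
  · have := norm_lt F.ncomm (B0_irr hχ) ne (g := ι z1) fun e => by have := F.two; simp [e] at this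
    rw [hζ χ hχ, Complex.norm_intCast] at this
    exact_mod_cast this
  · have h0 : Nat.card {x : G × G // ∃ hc, π ⟨x.1 * ι z1 * x.1⁻¹ * (x.2 * ι z1 * x.2⁻¹), hc⟩ = uu k} = 0 := by
      refine Nat.card_eq_zero.2 (Or.inl ⟨fun ⟨y, hc, e⟩ => ?_⟩)
      obtain ⟨h1, h2⟩ := S.prod_mem (conj_sq S.zz _) (conj_sq S.zz _) hc (e ▸ hu k)
      have e' : π ⟨_, h1⟩ * π ⟨_, h2⟩ = uu k := by rw [← map_mul]; exact e
      have q : ∀ (g : G) (hg), π ⟨g * ι z1 * g⁻¹, hg⟩ * π ⟨g * ι z1 * g⁻¹, hg⟩ = 1 := fun g hg => by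
        rw [← map_mul, ← map_one π]; exact congrArg π (Subtype.ext (conj_sq S.zz _))
      have : uu k * uu k = 1 := by
        have q1 := q _ h1
        have q2 := q _ h2
        generalize π ⟨_, h1⟩ = a, π ⟨_, h2⟩ = b at e' q1 q2
        rw [← e', mul_assoc, ← mul_assoc b, central q2, mul_assoc, q2, mul_one, q1]
      exact (by decide +kernel : ∀ k, uu k * uu k ≠ 1) k this
    have := S.prod (ι z1) (ι z1) (hu k)
    rw [h0, Nat.cast_zero, mul_zero, mul_eq_zero_iff_left card_ne_zero] at this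
    apply Rat.cast_injective (α := ℂ)
    rw [Rat.cast_zero, ← this, Rat.cast_sum]
    refine Finset.sum_congr rfl fun χ hχ => ?_
    rw [lv χ hχ _ (hu k), hx χ hχ, hζ χ hχ, ← IsIrr.coe_deg (B0_irr hχ)]
    simp
    ring

end CA.Ly

theorem CA.realizeEqns_Ly_D3 : True := by
  have := @CA.Ly.rowP.eq_1
  have := @CA.Ly.rowP.eq_def
  have := @CA.Ly.rowP.congr_simp
  have := @CA.Ly.uu.eq_1
  have := @CA.Ly.uu.eq_def
  have := @CA.Ly.uu.congr_simp
  have := @CA.Ly.rg.eq_1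
  have := @CA.Ly.rg.eq_def
  have := @CA.Ly.rg.congr_simp
  have := @CA.Ly.lc.eq_1
  have := @CA.Ly.lc.eq_def
  have := @CA.Ly.lc.congr_simp
  have := @CA.Ly.ty5.eq_1
  have := @CA.Ly.ty5.eq_def
  have := @CA.Ly.ty5.congr_simp
  trivial
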