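/-
Lyons' theorem: the arithmetic data of the principal 2-block in the case of an automizer of order 15.
-/
import Cfsg.Agent.Ly.Dc

set_option autoImplicit false
set_option linter.unusedSectionVars false

open scoped ComplexConjugate

namespace CA.Ly

open Cfsg CA.Chr CA.Blk Subgroup SemidirectProduct

universe u

variable {G : Type u} [Group G] [Finite G] {ι : T64 →* G} {h : G} {π : centralizer ({ι z1} : Set G) →* Q}

theorem Row.unique {χ : G → ℂ} {a : ℤ} {D : ZMod 5 → ℤ} {m : Fin 3 → ℕ} (r : Row ι π χ a D m) {D' : ZMod 5 → ℤ}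
    (e : ∀ j, loc π χ (xq j) = ∑ l, D' l * E5 (l * j)) (k : ZMod 5) : D k = D' k :=
  Int.cast_injective (α := ℂ) ((r.Deq k).trans (D_inv e k).symm)

/-- multiplication by 2 -/
def dbl : ZMod 5 ≃ ZMod 5 := ⟨fun l => 2 * l, fun l => 3 * l, by decide, by decide⟩

theorem loc_one (hπ : Function.Surjective π) : loc π (1 : G → ℂ) = 1 := ind_comp_surj_self hπ (one_mem _)

theorem Pi15.real (F : Fus ι h 1) (P : Pi15 ι π) {χ : G → ℂ} (hχ : χ ∈ B0 2 G) (hr : ∀ g, χ g⁻¹ = χ g) (j : ZMod 5) :
    loc π χ (xq (-j)) = loc π χ (xq j) := by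
  obtain ⟨c, hc⟩ := P.surj (xq j)
  have e : π c⁻¹ = xq (-j) := by rw [map_inv, hc]; exact (by decide +kernel : ∀ j, (xq j)⁻¹ = xq (-j)) j
  rw [← e, ← hc, ← (P.sec F).val hχ (e.symm ▸ P.hx _), ← (P.sec F).val hχ (hc.symm ▸ P.hx j)]
  exact hr c

theorem Pi15.ar [IsSimpleGroup G] (fs : FS.{u}) (F : Fus ι h 1) (P : Pi15 ι π) :
    ∃ (a : B0 2 G → ℤ) (b : Fin 5 → B0 2 G → ℤ) (ν : B0 2 G → ℤ) (σ : Equiv.Perm (B0 2 G)) (o : B0 2 G),
      Ar a b (fun i => deg i.1) ν σ o (cnt ι π zq / (20 * Nat.card G * Nat.card π.ker)) ∧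
        ∀ i, i.1 (ι z1) = zeta a b i := by
  classical
  cases nonempty_fintype G
  have S := P.sec F
  choose a D m r using fun i : B0 2 G => P.row F i.2
  have hi : ∀ i : B0 2 G, IsIrrCharacter G i.1 := fun i => B0_irr i.2
  have hν : ∀ i : B0 2 G, ∃ n : ℤ, nu i.1 = n ∧ (n = 0 ∨ n = 1 ∨ n = -1) := fun i => by
    rcases (fs G _ (hi i)).1 with e | e | e
    exacts [⟨0, by simp [e]⟩, ⟨1, by simp [e]⟩, ⟨-1, by simp [e]⟩]
  choose ν hν hν' using hν
  obtain ⟨τ, hτ⟩ := exists_aut_pow (n := 5) (k := 3) (by norm_num) (by norm_num)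
  let σ : Equiv.Perm (B0 2 G) := Equiv.ofBijective (fun i => ⟨(τ : ℂ →+* ℂ) ∘ i.1, map_mem_B0 i.2 _⟩)
    (Finite.injective_iff_bijective.1 fun i j e => Subtype.ext (map_comp_injective _ (congrArg Subtype.val e)))
  have hσ : ∀ i q, loc π (σ i).1 q = τ (loc π i.1 q) := fun i q => congrFun (ind_map (τ : ℂ →+* ℂ) π _) q
  let o : B0 2 G := ⟨1, one_mem_B0 Nat.prime_two⟩
  let b : ZMod 5 → B0 2 G → ℤ := fun k i => 4 * (m i 1 : ℤ) - m i 2 - D i k
  have hz : ∀ i, zeta a b i = ∑ l, D i l := fun i => by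
    have := (r i).e1; have := (r i).e2
    simp only [zeta, b, Fin.sum_univ_five, sum5] at *
    omega
  have sm : ∀ f : (G → ℂ) → ℂ, ∑ i : B0 2 G, f i.1 = ∑ χ ∈ B0 2 G, f χ := fun f => Finset.sum_coe_sort _ f
  have oxx : ∀ j k, ∑ i : B0 2 G, conj (loc π i.1 (xq k)) * loc π i.1 (xq j) =
      if j = k then if j = 0 then 320 else 20 else 0 := fun j k => by
    rw [sm fun χ => conj (loc π χ (xq k)) * loc π χ (xq j)]
    simp only [mul_comm (conj _)]
    rw [S.orth (P.hx j) (P.hx k), c_xx]; simp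
  have oxu : ∀ j, ∑ i : B0 2 G, (a i : ℂ) * loc π i.1 (xq j) = 0 := fun j => by
    have := S.orth (P.hx j) P.hu
    rw [c_xu, ← sm fun χ => loc π χ (xq j) * conj (loc π χ uq)] at this
    simpa [fun i => (r i).u, mul_comm] using this
  have ouu : ∑ i : B0 2 G, (a i : ℂ) * loc π i.1 uq = -16 := by
    have := S.orth P.hu P.hu
    rw [c_uu, ← sm fun χ => loc π χ uq * conj (loc π χ uq)] at this
    simp only [fun i => (r i).u] at this ⊢
    simpa [neg_eq_iff_eq_neg] using this
  obtain ⟨aa, ab⟩ := transfer r (fun i => a i) (R := fun _ => 0) oxu ouu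
  have ab' : ∀ k, ∑ i, (a i : ℂ) * b k i = 4 := fun k => (ab k).trans (by norm_num)
  have oo : ∀ k, D o k = if k = 0 then 1 else 0 := (r o).unique fun j => by simp [o, loc_one P.surj]
  have oa : a o = -1 := Int.cast_injective (α := ℂ) (by
    have := (r o).u
    simp only [o, loc_one P.surj, Pi.one_apply] at this
    push_cast; linear_combination this)
  have od : deg o.1 = 1 := deg_one
  have cz : ∀ i : B0 2 G, i.1 (ι z1) = zeta a b i := fun i => by rw [hz, (r i).z]
  obtain ⟨la, lb⟩ := transfer0 r (fun i => i.1 1) (R := 0)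
    (fun j => by rw [sm fun χ => χ 1 * loc π χ (xq j)]; simpa [mul_comm] using S.deg_orth (P.hx j))
    (by rw [sm fun χ => χ 1 * loc π χ uq]; simpa [mul_comm] using S.deg_orth P.hu)
  have hp : ∀ q, π (zc (ι z1)) ∈ zpowers q → ∑ i : B0 2 G, (zeta a b i : ℂ) ^ 2 / deg i.1 * loc π i.1 q =
      (Nat.card G : ℂ)⁻¹ * ((Nat.card π.ker : ℂ)⁻¹ * cnt ι π q) := fun q hq => by
    rw [cnt, ← S.prod _ _ hq, inv_mul_cancel_left₀ card_ne_zero, ← sm fun χ => conj (χ _ * χ _) / χ 1 * loc π χ q]
    exact Finset.sum_congr rfl fun i _ => by simp [cz, IsIrr.coe_deg (hi i), sq]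
  obtain ⟨ra, rb⟩ := transfer0 r (fun i => (zeta a b i : ℂ) ^ 2 / deg i.1)
    (R := (Nat.card G : ℂ)⁻¹ * ((Nat.card π.ker : ℂ)⁻¹ * cnt ι π zq))
    (fun j => by
      rw [hp _ (P.hx j)]
      split_ifs with e
      · rw [e, xq_zero]
      · simp [P.cnt_zero F (P.hx j) ((by decide +kernel : ∀ j, j ≠ 0 → xq j * xq j ≠ 1) j e)])
    (by rw [hp _ P.hu]; simp [P.cnt_zero F P.hu (by decide +kernel)])
  have hq : ∀ q, π (zc (ι z1)) ∈ zpowers q → ∑ i : B0 2 G, (ν i : ℂ) * loc π i.1 q = Nat.card {y : Q // y * y = q} :=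
    fun q hq => by
      rw [← S.sqrt hq, ← sm fun χ => conj ((Nat.card G : ℂ)⁻¹ * ∑ x, χ (x * x)) * loc π χ q]
      exact Finset.sum_congr rfl fun i _ => by rw [← nu, hν, map_intCast]
  obtain ⟨fa, fb⟩ := transfer0 r (fun i => ν i) (R := 20) (fun j => by rw [hq _ (P.hx j), s_x]; simp)
    (by rw [hq _ P.hu, s_u]; simp)
  have par : ∀ (i : B0 2 G) (c : Fin 16), ν i = -1 → ∃ k : ℕ, ⟪i.1 ∘ ι, lin (lam c)⟫ = 2 * k := fun i c e =>
    (fs G _ (hi i)).2.2 T64 ι (lam c) 1 1 (by simp) (fun x => ⟨x, by simp, lam_sq c x⟩) (by simp [hν, e])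
  have nc : ∀ {x y : ℕ}, (x : ℂ) = 2 * y → x = 2 * y := fun e => by exact_mod_cast e
  have sa : ∀ i, a (σ i) = a i := fun i => Int.cast_injective (α := ℂ) (by
    have := hσ i uq
    rw [(r i).u, (r _).u] at this
    simpa using this)
  have sd : ∀ i, (deg (σ i).1 : ℤ) = deg i.1 := fun i => Int.cast_injective (α := ℂ) (by
    simp only [Int.cast_natCast, IsIrr.coe_deg (hi _)]
    change τ (i.1 1) = _
    rw [← IsIrr.coe_deg (hi i), map_natCast])
  have h5 : (5 : ZMod 5) = 0 := rfl
  refine ⟨a, b, ν, σ, o, ⟨?_, fun k => ?_, fun (k l : ZMod 5) => ?_, oa, fun (k : ZMod 5) => ?_, by simp only [od]; rfl, ?_,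
    fun i e => ?_, fun i e => ?_, fun i => ?_, fun i => ?_, fun i => ?_, sa, sd, fun i => ?_,
    fun (k : ZMod 5) i => ?_, ?_, fun k => ?_, ?_, fun k => ?_, ?_, ?_, fun k => ?_, hν', fun i e => ?_, fun i e => ?_,
    fun i e => ?_⟩, cz⟩
  · exact_mod_cast aa.trans (neg_neg _)
  · exact_mod_cast ab' k
  · have h1 := (transfer r (fun i => conj (loc π i.1 (xq 0))) (fun j => oxx j 0) (U := 0) (by
      simpa [fun i => (r i).u, fun i => (r i).x0, mul_comm] using oxu 0)).2 l
    have h2 := (transfer r (fun i => D i k) (R := fun j => 5⁻¹ * (if j = 0 then 320 else 20) * E5 (k * j)) (U := 0)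
      (fun j => by
        simp only [fun i => (r i).Deq' k, Finset.mul_sum, Finset.sum_mul]
        rw [Finset.sum_comm, Finset.sum_congr rfl (g := fun j' => 5⁻¹ * E5 (k * j') *
          if j = j' then if j = 0 then 320 else 20 else 0) fun j' _ => by
            rw [← oxx, Finset.mul_sum]; exact Finset.sum_congr rfl fun i _ => by ring]
        simp; split_ifs <;> ring)
      (by
        simp only [fun i => (r i).Deq k, fun i => (r i).u, Finset.mul_sum, Finset.sum_mul]
        rw [Finset.sum_comm]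
        refine Finset.sum_eq_zero fun j _ => ?_
        rw [← mul_zero (-5⁻¹ * E5 (-(k * j))), ← oxu j, Finset.mul_sum]
        exact Finset.sum_congr rfl fun i _ => by ring)).2 l
    have h3 : ∑ j : ZMod 5, 5⁻¹ * (if j = 0 then 320 else 20) * E5 (k * j) * E5 (-(l * j)) =
        60 + 4 * if k = l then 5 else 0 := by
      rw [← if_congr (sub_eq_zero (a := (k : ZMod 5)) (b := l)) rfl rfl, ← E5_sum, Finset.mul_sum,
        Finset.sum_congr rfl (g := fun j => (if j = 0 then 60 else 0) + 4 * E5 (j * (k - l))) fun j _ => by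
          rw [mul_assoc, ← AddChar.map_add_eq_mul, show k * j + -(l * j) = j * (k - l) by ring]
          split_ifs with e
          · simp [e]; norm_num
          · ring, Finset.sum_add_distrib]
      simp
    rw [h3] at h2
    change _ = if k = l then 5 else 1
    apply Int.cast_injective (α := ℂ)
    rw [Int.cast_sum, Finset.sum_congr rfl (g := fun i => (conj (loc π i.1 (xq 0)) * b l i + a i * b l i) / 4 -
      D i k * b l i) fun i _ => by
        rw [Int.cast_mul, (r i).b_eq k, (r i).x0, map_intCast]; ring, Finset.sum_sub_distrib, ← Finset.sum_div,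
      Finset.sum_add_distrib, h1, h2, ab']
    by_cases e : k = l <;> simp [e] <;> norm_num
  · have := (r o).e1; have := (r o).e2
    have h3 : ∑ l, D o l = 1 := by simp [oo]
    have h4 := oo k
    change b k o = if k = 0 then -1 else 0
    simp only [b]
    split_ifs at h4 ⊢ <;> omega
  · apply Int.cast_injective (α := ℂ)
    rw [← hν]; simp [nu, o]
  · exact_mod_cast one_lt_deg F.ncomm (hi i) fun e' => e (Subtype.ext e')
  · have := norm_lt F.ncomm (hi i) (fun e' => e (Subtype.ext e')) (g := ι z1) fun e => by simpa [e] using F.two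
    rw [cz, Complex.norm_intCast] at this
    exact_mod_cast this
  · rw [hz, (r i).e0]; exact dvd_mul_right _ _
  · rw [hz, (r i).e0]; positivity
  · rw [hz, (r i).e1]; positivity
  · apply Int.cast_injective (α := ℂ)
    rw [← hν, ← map_intCast τ, ← hν]
    simp [nu, σ]
  · have h1 := (r (σ i)).unique (D' := fun l => D i (2 * l)) (fun j => by
      rw [hσ, (r i).x, map_sum]
      refine (Fintype.sum_equiv dbl _ _ fun l => ?_).symm
      rw [map_mul τ, map_intCast, hτ _ (by rw [← AddChar.map_nsmul_eq_pow]; simp [h5]),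
        ← AddChar.map_nsmul_eq_pow]
      congr 2
      simp only [dbl, Equiv.coe_fn_mk, nsmul_eq_mul, Nat.cast_ofNat]
      linear_combination (-(l * j)) * h5)
    have h2 : ∑ l, D (σ i) l = ∑ l, D i l := by
      simp only [h1]; exact Fintype.sum_equiv dbl _ _ fun l => rfl
    have := (r i).e1; have := (r i).e2; have := (r (σ i)).e1; have := (r (σ i)).e2
    have := sa i; have := sd i
    have := h1 k
    change b k _ = b (2 * k) _
    simp only [b]
    omega
  · apply Int.cast_injective (α := ℂ)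
    simpa [IsIrr.coe_deg (hi _), mul_comm] using la
  · apply Int.cast_injective (α := ℂ)
    simpa [IsIrr.coe_deg (hi _), mul_comm, b] using lb k
  · apply Rat.cast_injective (α := ℂ)
    push_cast
    rw [← ra]
    exact Finset.sum_congr rfl fun i _ => by ring
  · apply Rat.cast_injective (α := ℂ)
    refine Eq.trans ?_ ((rb k).trans (by push_cast; ring))
    push_cast
    exact Finset.sum_congr rfl fun i _ => by simp only [b]; push_cast; ring
  · have := P.cnt_pos F
    have := Nat.card_pos (α := G)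
    have := Nat.card_pos (α := π.ker)
    positivity
  · exact_mod_cast fa
  · apply Int.cast_injective (α := ℂ)
    simpa [b] using fb k
  · have h1 := (r i).unique (D' := fun l => D i (-l)) fun j => by
      rw [← P.real F i.2 ((fs G _ (hi i)).2.1 (by rw [hν]; exact_mod_cast e)), (r i).x]
      exact Fintype.sum_equiv (Equiv.neg _) _ _ fun l => by simp
    exact ⟨congrArg (_ - ·) (h1 1), congrArg (_ - ·) (h1 2)⟩
  · obtain ⟨k, hk⟩ := (fs G _ (hi i)).2.2 A4 (ι.comp fA) phA (ι (Ly.mk 10)) (Multiplicative.ofAdd (2, 0))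
      (by rw [← map_mul]; exact congrArg ι (by decide +kernel))
      (fun x => by
        obtain ⟨y, h1, h2⟩ := phA_inv x
        exact ⟨y, by rw [MonoidHom.comp_apply, MonoidHom.comp_apply, ← h1]; simp, h2⟩)
      (by rw [hν, e]; exact (by simp : ((1 : ℤ) : ℂ) * Complex.I ^ 2 = -1))
    have h1 := nc ((r i).m2.symm.trans hk)
    have := (r i).e0; have := (r i).e1; have := (r i).e2
    simp only [b, Fin.sum_univ_five, sum5] at *
    omega
  · obtain ⟨k, hk⟩ := par i 0 e
    obtain ⟨l, hl⟩ := par i 1 e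
    have h1 := nc ((r i).m0.symm.trans hk)
    have h2 := nc ((r i).m1.symm.trans hl)
    have := (r i).e0; have := (r i).e1
    omega

end CA.Ly

theorem CA.realizeEqns_Ly_Dd : True := by
  have := @CA.Ly.dbl.eq_1
  have := @CA.Ly.dbl.eq_def
  have := @CA.Ly.dbl.congr_simp
  trivial
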