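/-
Lyons' theorem: a character of degree 12 forces `C(z) = Q` and `|G| = 62400`.
-/
import Cfsg.Agent.Ly.Dd
import Cfsg.Agent.Blk.Q8a

set_option autoImplicit false
set_option linter.unusedSectionVars false

open scoped ComplexConjugate

namespace CA.Ly

open Cfsg CA.Chr CA.Blk Subgroup SemidirectProduct

universe u

theorem plus_char {H : Type u} [Group H] [Finite H] {t : H} (tt : t * t = 1) (hc : ∀ g, t * g = g * t) {θ : H → ℂ}
    (h : IsCharacter H θ) : IsCharacter H fun g => (θ g + θ (t * g)) / 2 := by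
  obtain ⟨s, hs, rfl⟩ := IsChar.exists_multiset h
  clear h
  induction s using Multiset.induction_on with
  | empty => convert IsChar.zero (G := H) using 2; simp
  | cons ψ s ih =>
    have h1 := hs ψ (Multiset.mem_cons_self _ _)
    have h2 := ih fun χ hχ => hs χ (Multiset.mem_cons_of_mem hχ)
    rcases central_sign tt hc h1 with e | e
    · convert IsChar.add (IsIrr.isChar h1) h2 using 2; simp [e]; ring
    · convert h2 using 2; simp [e]; ring

theorem eq_one_odd {H : Type*} [Group H] {x : H} {n : ℕ} (hn : Odd n) (h1 : x ^ n = 1) (h2 : x ^ 4 = 1) : x = 1 :=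
  orderOf_eq_one_iff.1 (Nat.eq_one_of_dvd_coprimes (Nat.Coprime.pow_right 2 (Nat.coprime_two_right.2 hn))
    (orderOf_dvd_of_pow_eq_one h1) (orderOf_dvd_of_pow_eq_one h2))

variable {G : Type u} [Group G] [Finite G] {ι : T64 →* G} {h : G} {π : centralizer ({ι z1} : Set G) →* Q}

theorem Pi15.pow_ker {y : centralizer ({ι z1} : Set G)} (hy : π y = 1) : y ^ Nat.card π.ker = 1 :=
  congrArg Subtype.val (pow_card_eq_one' (x := (⟨y, hy⟩ : π.ker)))

theorem Pi15.conj_ker (F : Fus ι h 1) (P : Pi15 ι π) (j : ℕ) {y : centralizer ({ι z1} : Set G)} (hy : π y = 1)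
    (hc : (h ^ j)⁻¹ * y * h ^ j ∈ centralizer ({ι z1} : Set G)) : π ⟨_, hc⟩ = 1 := by
  obtain ⟨q1, q2⟩ := Q_comm (π ⟨_, hc⟩)
  have e : ∀ w : centralizer ({ι z1} : Set G), π w = 1 → ∀ w' : centralizer ({ι z1} : Set G),
      (w' : G) = (h ^ j)⁻¹ * w * h ^ j → π w' ^ Nat.card π.ker = 1 := fun w hw w' e => by
    rw [← map_pow, ← map_one π]
    refine congrArg π (Subtype.ext ?_)
    have := congrArg Subtype.val (Pi15.pow_ker hw)
    push_cast at this ⊢
    rw [e, show (h ^ j)⁻¹ * w * h ^ j = (h ^ j)⁻¹ * w * (h ^ j)⁻¹⁻¹ by rw [inv_inv], conj_pow, this]; simp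
  refine eq_one_odd P.odd (e y hy _ rfl) (q2 (eq_one_odd P.odd ?_ q1))
  rw [uq, ← P.on, ← map_inv, ← map_inv, ← map_mul, ← map_mul, ← map_mul]
  refine e (y * iC ι (tauF^[1 * j] u0) * y⁻¹ * (iC ι (tauF^[1 * j] u0))⁻¹) (by simp [hy]) _ ?_
  change _ * ι u0 * _ * (ι u0)⁻¹ = _ * (y * ι _ * (y : G)⁻¹ * (ι _)⁻¹) * _
  rw [← F.conj_it]
  simp [mul_assoc]

theorem Pi15.inj [IsSimpleGroup G] (F : Fus ι h 1) (P : Pi15 ι π) {χ : G → ℂ} (hχ : χ ∈ B0 2 G) (hd : χ 1 = 12)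
    (hz : χ (ι z1) = -4) : Function.Injective π := by
  have S := P.sec F
  have hi := B0_irr hχ
  have k1 : ∀ g, χ g = 12 → g = 1 := fun g e => by
    have := (IsIrr.mem_cfker hi).2 (e.trans hd.symm)
    rwa [ker_bot hi (fun e => by simp [e] at hd), mem_bot] at this
  have hp := plus_char (t := zc (ι z1)) (Subtype.ext S.zz)
    (fun g => Subtype.ext (mem_centralizer_singleton_iff.1 g.2).symm) (IsChar.comp (IsIrr.isChar hi) (Subgroup.subtype _))
  have v2 : χ (ι z2) = -4 := (F.val1 (IsIrr.mem_CF hi) z2).trans (by rw [show ty z2 = 1 by decide +kernel]; exact hz)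
  have v3 : χ (ι z3) = -4 := (F.val1 (IsIrr.mem_CF hi) z3).trans (by rw [show ty z3 = 1 by decide +kernel]; exact hz)
  have m12 : ι z1 * ι z2 = ι z3 := by rw [← map_mul]; exact congrArg ι (by decide +kernel)
  have hn : ‖(fun g => ((χ ∘ Subgroup.subtype _) g + (χ ∘ Subgroup.subtype _) (zc (ι z1) * g)) / 2) (iC ι z2)‖ =
      deg fun g => ((χ ∘ Subgroup.subtype _) g + (χ ∘ Subgroup.subtype _) (zc (ι z1) * g)) / 2 := by
    rw [deg_eq (n := 4) (by simp [zc, hd, hz]; norm_num)]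
    change ‖(χ (ι z2) + χ (ι z1 * ι z2)) / 2‖ = _
    rw [m12, v2, v3]; norm_num
  have kz : ∀ y : centralizer ({ι z1} : Set G), π y = 1 → χ (ι z1 * y) = -4 := fun y hy => by
    have e : π (zc (ι z1) * y) = π (zc (ι z1)) := by rw [map_mul, hy, mul_one]
    exact (S.val hχ (c := zc (ι z1) * y) (e.symm ▸ mem_zpowers _)).trans
      (by rw [e, ← S.val hχ (mem_zpowers _)]; exact hz)
  refine (injective_iff_map_eq_one π).2 fun y hy => Subtype.ext (k1 _ ?_)
  have c2 : ι z2 * y * (ι z2)⁻¹ * (y : G)⁻¹ = 1 := k1 _ (by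
    have h1 := comm_ker hp hn y
    have h2 := kz (iC ι z2 * y * (iC ι z2)⁻¹ * y⁻¹) (by simp [hy])
    change (χ (ι z2 * y * (ι z2)⁻¹ * (y : G)⁻¹) + χ (ι z1 * _)) / 2 = (χ 1 + χ (ι z1 * 1)) / 2 at h1
    rw [mul_one, hd, hz] at h1
    linear_combination 2 * h1 - h2)
  rw [mul_inv_eq_one, mul_inv_eq_iff_eq_mul] at c2
  have kj : ∀ (j : ℕ) (t : G), h ^ j * ι z1 * (h ^ j)⁻¹ = t → t * y = y * t → χ (t * y) = -4 := fun j t e c => by
    have hc : (h ^ j)⁻¹ * y * h ^ j ∈ centralizer ({ι z1} : Set G) := mem_centralizer_singleton_iff.2 (by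
      rw [← mul_left_inj (h ^ j)⁻¹, ← mul_right_inj (h ^ j)]
      simpa [← e, mul_assoc] using c.symm)
    rw [← kz _ (P.conj_ker F j hy hc), ← CF_conj (IsIrr.mem_CF hi) (_ * (_ * _ * _)) (h ^ j), ← e]
    simp [mul_assoc]
  have w2 := kj 1 _ (by rw [pow_one, F.z2_eq]) c2
  have w3 := kj 2 _ F.z3_eq (by
    rw [← m12, mul_assoc, c2, ← mul_assoc, ← mem_centralizer_singleton_iff.1 y.2, mul_assoc])
  obtain ⟨c, -, hc⟩ := IsChar.exists_scalar_of_norm hp hn
  have a1 := hc 1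
  have a2 := hc y
  change (χ (ι z2 * 1) + χ (ι z1 * (ι z2 * 1))) / 2 = c * ((χ 1 + χ (ι z1 * 1)) / 2) at a1
  change (χ (ι z2 * y) + χ (ι z1 * (ι z2 * y))) / 2 = c * ((χ y + χ (ι z1 * y)) / 2) at a2
  rw [mul_one, mul_one, m12, v2, v3, hd, hz] at a1
  rw [← mul_assoc, m12, w2, w3, kz y hy, show c = -1 by linear_combination -a1 / 4] at a2
  linear_combination 2 * a2

theorem Pi15.cnt_eq (F : Fus ι h 1) (P : Pi15 ι π) (hi : Function.Injective π) : cnt ι π zq = 2 * 320 ^ 2 := by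
  classical
  have S := P.sec F
  have hC : Nat.card (centralizer ({ι z1} : Set G)) = 320 :=
    (Nat.card_congr (Equiv.ofBijective π ⟨hi, P.surj⟩)).trans card_Q
  have n2 := (card_conjugators (isConj_iff.2 ⟨h, F.z2_eq⟩)).trans hC
  have n3 := (card_conjugators (isConj_iff.2 ⟨h ^ 2, F.z3_eq⟩)).trans hC
  have back : ∀ (s : G) (hs : s ∈ centralizer ({ι z1} : Set G)) (t : T64), π ⟨s, hs⟩ = inl t → s = ι t :=
    fun s hs t e => congrArg Subtype.val (hi (e.trans (P.on t).symm))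
  have fw : ∀ s t : T64, s * t = z1 → ∃ hc, π ⟨ι s * ι t, hc⟩ = zq := fun s t e =>
    ⟨mul_mem (mem_cent ι s) (mem_cent ι t), by
      rw [← P.pz]; exact congrArg π (Subtype.ext ((map_mul ι s t).symm.trans (congrArg ι e)))⟩
  rw [cnt, Nat.card_congr (Equiv.subtypeEquivRight (q := fun x : G × G =>
      (x.1 * ι z1 * x.1⁻¹ = ι z2 ∧ x.2 * ι z1 * x.2⁻¹ = ι z3) ∨ (x.1 * ι z1 * x.1⁻¹ = ι z3 ∧ x.2 * ι z1 * x.2⁻¹ = ι z2))
      fun x => ⟨?_, ?_⟩),
    Nat.card_congr (subtypeOrEquiv _ _ ?_), Nat.card_sum,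
    Nat.card_congr (Equiv.subtypeProdEquivProd (p := fun x => x * ι z1 * x⁻¹ = ι z2) (q := fun x => x * ι z1 * x⁻¹ = ι z3)),
    Nat.card_congr (Equiv.subtypeProdEquivProd (p := fun x => x * ι z1 * x⁻¹ = ι z3) (q := fun x => x * ι z1 * x⁻¹ = ι z2)),
    Nat.card_prod, Nat.card_prod, n2, n3]
  · norm_num
  · rw [Pi.disjoint_iff]
    exact fun x => Prop.disjoint_iff.2 fun e => (by decide +kernel : z2 ≠ z3) (F.inj (e.1.1.symm.trans e.2.1))
  · rintro ⟨hc, e⟩
    obtain ⟨h1, h2⟩ := S.prod_mem (conj_sq S.zz _) (conj_sq S.zz _) hc (by rw [e, P.pz]; exact mem_zpowers _)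
    have e' : π ⟨_, h1⟩ * π ⟨_, h2⟩ = zq := by rw [← map_mul]; exact e
    have sq : ∀ (x : G) hx, π ⟨x * ι z1 * x⁻¹, hx⟩ * π ⟨_, hx⟩ = 1 ∧ π ⟨_, hx⟩ ≠ 1 := fun x hx =>
      ⟨by rw [← map_mul, ← map_one π]; exact congrArg π (Subtype.ext (conj_sq S.zz _)), fun e => by
        have := back _ hx 1 (by rw [e, map_one])
        rw [map_one, conj_eq_one_iff] at this
        simpa [this] using F.two⟩
    rcases Q_inv _ (sq _ h1).1 with a | a | a | a <;> rcases Q_inv _ (sq _ h2).1 with b | b | b | b <;>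
      first
        | exact absurd a (sq _ h1).2
        | exact absurd b (sq _ h2).2
        | exact Or.inl ⟨back _ _ _ a, back _ _ _ b⟩
        | exact Or.inr ⟨back _ _ _ a, back _ _ _ b⟩
        | (rw [a, b] at e'; exact absurd e' (by decide +kernel))
  · rintro (⟨a, b⟩ | ⟨a, b⟩) <;> simp only [a, b] <;> exact fw _ _ (by decide +kernel)

/-- package D15 -/
theorem Fus.card15 [IsSimpleGroup G] (fs : FS.{u}) (ar : ArMain.{u}) (F : Fus ι h 1) (P : Pi15 ι π) :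
    Nat.card G = 62400 ∧ Function.Injective π := by
  obtain ⟨a, b, ν, σ, o, A, cz⟩ := P.ar fs F
  obtain ⟨hs, i, hd, hz⟩ := ar _ _ _ _ _ _ _ _ A
  have hi := P.inj F i.2 (by rw [← IsIrr.coe_deg (B0_irr i.2)]; exact_mod_cast hd) (by rw [cz, hz]; simp)
  refine ⟨?_, hi⟩
  rw [P.cnt_eq F hi, (MonoidHom.ker_eq_bot_iff π).2 hi, card_bot, div_eq_iff (by
    have := Nat.card_pos (α := G); positivity)] at hs
  apply Nat.cast_injective (R := ℚ)
  push_cast at hs ⊢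
  linarith

end CA.Ly
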