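/-
The rank one `BN`-pair of `U₃(4)`: normal form of the Borel subgroup.
-/
import Cfsg.Agent.Ly.E1
import Cfsg.Agent.Dih.Rk2A
set_option autoImplicit false
set_option maxRecDepth 100000
set_option linter.unusedSectionVars false

namespace CA.Ly.E
open CA.TC Subgroup

section zech
variable {Q : Type*} [CommGroup Q]

/-- product over a mask -/
def pm (q : ℕ → Q) (m : ℕ) : Q := ∏ i ∈ Finset.range 15, if m.testBit i then q i else 1

theorem pm_xor {q : ℕ → Q} (h2 : ∀ i, q i * q i = 1) (a b : ℕ) : pm q (a ^^^ b) = pm q a * pm q b := by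
  unfold pm
  rw [← Finset.prod_mul_distrib]
  refine Finset.prod_congr rfl fun i _ => ?_
  rw [Nat.testBit_xor]
  cases a.testBit i <;> cases b.testBit i <;> simp [h2]

theorem pm_pow (q : ℕ → Q) {i : ℕ} (hi : i < 15) : pm q (2 ^ i) = q i := by
  unfold pm
  rw [Finset.prod_eq_single i]
  · simp
  · intro j _ hj
    rw [Nat.testBit_two_pow_of_ne (Ne.symm hj)]; simp
  · intro h; exact absurd (Finset.mem_range.2 hi) h

/-- sum of shifted relations -/
def zs (k : ℕ) (l : List ℕ) : ℕ := l.foldr (fun i a => (2 ^ i ^^^ 2 ^ ((i + 1) % 15) ^^^ 2 ^ ((i + k) % 15)) ^^^ a) 0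

def zc : List (List ℕ) := [[14], [0], [0, 1], [0, 1, 2, 4], [], [1, 3, 4, 5, 8, 10, 11, 12], [0, 4, 5, 10],
  [5, 12, 13, 14], [0, 8], [4, 5, 6, 13], [3, 8, 13, 14], [0, 1, 6, 11], [], [2, 4, 5, 6], [1, 2]]

theorem zc_spec : ∀ k < 15, k = 4 ∨ k = 12 ∨ ((∀ i ∈ zc.getD k [], i < 15) ∧
    (zs k (zc.getD k []) = 2 ^ 0 ∨ ∃ j < 15, 0 < j ∧ zs k (zc.getD k []) = 2 ^ 0 ^^^ 2 ^ j)) := by decide +kernel

theorem zech {q : ℕ → Q} (h2 : ∀ i, q i * q i = 1) (h1 : q 0 ≠ 1) (hd : ∀ j < 15, 0 < j → q 0 ≠ q j) {k : ℕ}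
    (hk : k < 15) (h : ∀ i < 15, q i * q ((i + 1) % 15) = q ((i + k) % 15)) : k = 4 ∨ k = 12 := by
  have hz : ∀ l : List ℕ, (∀ i ∈ l, i < 15) → pm q (zs k l) = 1 := by
    intro l hl
    induction l with
    | nil => simp [zs, pm]
    | cons i l ih =>
      have hi := hl i List.mem_cons_self
      show pm q ((2 ^ i ^^^ 2 ^ ((i + 1) % 15) ^^^ 2 ^ ((i + k) % 15)) ^^^ zs k l) = 1
      rw [pm_xor h2, pm_xor h2, pm_xor h2, ih fun j hj => hl j (List.mem_cons_of_mem _ hj), pm_pow q hi,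
        pm_pow q (Nat.mod_lt _ (by norm_num)), pm_pow q (Nat.mod_lt _ (by norm_num)), h i hi, h2, mul_one]
  rcases zc_spec k hk with e | e | ⟨e1, e2 | ⟨j, hj, j0, e2⟩⟩
  · exact Or.inl e
  · exact Or.inr e
  · have := hz _ e1
    rw [e2, pm_pow q (by norm_num)] at this
    exact absurd this h1
  · have := hz _ e1
    rw [e2, pm_xor h2, pm_pow q (by norm_num), pm_pow q hj, ← h2 j] at this
    exact absurd (mul_right_cancel this) (hd j hj j0)

end zech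

variable {G : Type*} [Group G]

/-- The hypotheses of the identification of `U₃(4)`. -/
structure E0 (T V : Subgroup G) (g : G) : Prop where
  card : Nat.card G = 62400
  cT : Nat.card T = 64
  VT : V ≤ T
  cV : ∀ v ∈ V, ∀ x ∈ T, v * x = x * v
  h4 : Nat.card V = 4
  sq : ∀ v ∈ V, v * v = 1
  inv : ∀ x ∈ T, x * x = 1 → x ∈ V
  sqV : ∀ x ∈ T, x * x ∈ V
  nT : ∀ x ∈ T, g * x * g⁻¹ ∈ T
  g15 : g ^ 15 = 1
  f3 : ∀ v ∈ V, g ^ 5 * v = v * g ^ 5 → v = 1
  f5 : ∀ x ∈ T, g ^ 3 * x = x * g ^ 3 → x ∈ V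
  ti : ∀ x, ∀ t ∈ T, t ≠ 1 → x * t * x⁻¹ ∈ T → ∃ s ∈ T, ∃ i : ℕ, x = s * g ^ i

/-- conjugation by a power -/
def cj (g : G) (j : ℕ) : G →* G := (MulAut.conj (g ^ j)).toMonoidHom

theorem cj_apply (g : G) (j : ℕ) (x : G) : cj g j x = g ^ j * x * (g ^ j)⁻¹ := rfl

theorem cj_add (g : G) (i j : ℕ) (x : G) : cj g (i + j) x = cj g i (cj g j x) := by
  simp only [cj_apply, pow_add]; group

theorem cj_zero (g x : G) : cj g 0 x = x := by simp [cj_apply]

theorem cj_inj {g : G} {j : ℕ} {x y : G} (h : cj g j x = cj g j y) : x = y := (MulAut.conj (g ^ j)).injective h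

theorem cj_fix {g : G} {j : ℕ} {x : G} (h : cj g j x = x) (n : ℕ) : cj g (j * n) x = x := by
  induction n with
  | zero => exact cj_zero g x
  | succ n ih => rw [Nat.mul_succ, cj_add, h, ih]

theorem cj_comm {g : G} {j : ℕ} {x : G} (h : cj g j x = x) : g ^ j * x = x * g ^ j := by
  rw [cj_apply] at h
  exact mul_inv_eq_iff_eq_mul.1 h

variable {T V : Subgroup G} {g : G}

namespace E0

theorem cj_mod (h : E0 T V g) (j : ℕ) (x : G) : cj g (j % 15) x = cj g j x := by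
  rw [cj_apply, cj_apply, ← pow_eq_pow_mod j h.g15]

theorem cjT (h : E0 T V g) (j : ℕ) {x : G} (hx : x ∈ T) : cj g j x ∈ T := by
  induction j with
  | zero => rwa [cj_zero]
  | succ j ih => rw [Nat.add_comm, cj_add, cj_apply, pow_one]; exact h.nT _ ih

theorem cjV (h : E0 T V g) (j : ℕ) {x : G} (hx : x ∈ V) : cj g j x ∈ V :=
  h.inv _ (h.cjT j (h.VT hx)) (by rw [← map_mul, h.sq x hx, map_one])

theorem cjV' (h : E0 T V g) (j : ℕ) {x : G} (hx : cj g j x ∈ V) : x ∈ V := by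
  have := h.cjV (j * 14) hx
  rwa [← cj_add, show j * 14 + j = 15 * j by ring, cj_fix (by rw [← h.cj_mod]; exact cj_zero g x)] at this

theorem symm (h : E0 T V g) : E0 T V g⁻¹ := by
  have e : g⁻¹ = g ^ 14 := inv_eq_of_mul_eq_one_right (by rw [← pow_succ', h.g15])
  refine { h with nT := fun x hx => ?_, g15 := by rw [inv_pow, h.g15, inv_one], f3 := fun v hv c => ?_,
                  f5 := fun v hv c => ?_, ti := fun x t ht t1 c => ?_ }
  · rw [e]; exact h.cjT 14 hx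
  · rw [inv_pow] at c
    exact h.f3 v hv (Commute.inv_left_iff.1 c)
  · rw [inv_pow] at c
    exact h.f5 v hv (Commute.inv_left_iff.1 c)
  · obtain ⟨s, hs, i, rfl⟩ := h.ti x t ht t1 c
    refine ⟨s, hs, 14 * i, ?_⟩
    rw [pow_mul, inv_pow, ← e, inv_inv]

variable [Finite G]

theorem two (h : E0 T V g) {v : G} (hv : v ∈ V) (v1 : v ≠ 1) : cj g 1 v ≠ v ∧ cj g 2 v = v * cj g 1 v := by
  have n1 : cj g 1 v ≠ v := fun e => v1 (h.f3 v hv (cj_comm (cj_fix e 5)))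
  have n0 : ∀ j, cj g j v ≠ 1 := fun j e => v1 (cj_inj (e.trans (map_one _).symm))
  refine ⟨n1, ?_⟩
  rcases CA.Dih.four_cases h.h4 h.sq hv (h.cjV 1 hv) v1 (n0 1) n1.symm (h.cjV 2 hv) with e | e | e | e
  · exact absurd e (n0 2)
  · have := cj_fix e 8
    rw [← h.cj_mod] at this
    exact absurd this n1
  · rw [show 2 = 1 + 1 by rfl, cj_add] at e
    exact absurd (cj_inj e) n1
  · exact e

theorem three (h : E0 T V g) {v : G} (hv : v ∈ V) : cj g 3 v = v := by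
  by_cases v1 : v = 1
  · rw [v1, map_one]
  rw [show 3 = 1 + 2 by rfl, cj_add, (h.two hv v1).2, map_mul, ← cj_add, (h.two hv v1).2, ← mul_assoc,
    ← h.cV v hv _ (h.cjT 1 (h.VT hv)), mul_assoc, h.sq _ (h.cjV 1 hv), mul_one]

theorem dist (h : E0 T V g) {x : G} (hx : x ∈ T) (xV : x ∉ V) {k : ℕ} (hk : k < 15) (k0 : 0 < k) :
    cj g k x * x⁻¹ ∉ V := by
  intro c
  have hm : ∀ m, cj g (k * m) x * x⁻¹ ∈ V := by
    intro m
    induction m with
    | zero => simp [cj_zero]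
    | succ m ih =>
      have := mul_mem (h.cjV k ih) c
      rw [map_mul, map_inv, ← cj_add, show k + k * m = k * (m + 1) by ring] at this
      simpa [mul_assoc] using this
  obtain ⟨m, e | e⟩ : ∃ m, k * m % 15 = 3 ∨ k * m % 15 = 5 := by
    have : ∀ k < 15, 0 < k → ∃ m < 15, k * m % 15 = 3 ∨ k * m % 15 = 5 := by decide +kernel
    obtain ⟨m, -, e⟩ := this k hk k0
    exact ⟨m, e⟩
  · have c3 := hm m
    rw [← h.cj_mod, e] at c3
    generalize hv : cj g 3 x * x⁻¹ = v at c3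
    have e1 : cj g 3 x = v * x := by rw [← hv]; group
    have e2 : ∀ n, cj g (3 * n) x = v ^ n * x := by
      intro n
      induction n with
      | zero => simp [cj_zero]
      | succ n ih => rw [Nat.mul_succ, Nat.add_comm, cj_add, ih, map_mul, h.three (pow_mem c3 n), e1, pow_succ, mul_assoc]
    have e3 := e2 5
    rw [← h.cj_mod, show 3 * 5 % 15 = 0 by rfl, cj_zero, show 5 = 2 * 2 + 1 by rfl, pow_succ, pow_mul, pow_two v,
      h.sq v c3, one_pow, one_mul] at e3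
    rw [← e3] at e1
    exact xV (h.f5 x hx (cj_comm e1))
  · have c5 := hm m
    rw [← h.cj_mod, e] at c5
    generalize hv : cj g 5 x * x⁻¹ = v at c5
    have e1 : cj g 5 x = v * x := by rw [← hv]; group
    have e2 : cj g 5 (x * x) = x * x := by
      rw [map_mul, e1, mul_assoc, ← mul_assoc x, ← h.cV v c5 x hx, ← mul_assoc, ← mul_assoc, h.sq v c5, one_mul]
    exact xV (h.inv x hx (h.f3 _ (h.sqV x hx) (cj_comm e2)))

theorem cover (h : E0 T V g) {u : G} (hu : u ∈ T) (uV : u ∉ V) {x : G} (hx : x ∈ T) :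
    x ∈ V ∨ ∃ k < 15, x * (cj g k u)⁻¹ ∈ V := by
  let F : Option (Fin 15) × V → T := fun p => match p.1 with
    | none => ⟨p.2, h.VT p.2.2⟩
    | some k => ⟨p.2 * cj g k u, mul_mem (h.VT p.2.2) (h.cjT k hu)⟩
  have nV : ∀ (k : ℕ) (v w : V), (v : G) * cj g k u ≠ w := fun k v w e =>
    uV (h.cjV' k (by rw [eq_inv_mul_of_mul_eq e]; exact mul_mem (inv_mem v.2) w.2))
  have lt : ∀ (k l : Fin 15) (v w : V), (v : G) * cj g k u = w * cj g l u → ¬ (k : ℕ) < l := by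
    intro k l v w e hl
    refine h.dist (h.cjT k hu) (fun c => uV (h.cjV' k c)) (k := l - k) (by omega) (by omega) ?_
    rw [← cj_add, show (l : ℕ) - k + k = l by omega, ← inv_mul_eq_of_eq_mul e.symm.symm, mul_assoc, mul_assoc,
      mul_inv_cancel, mul_one]
    exact mul_mem (inv_mem w.2) v.2
  have hF : Function.Injective F := by
    rintro ⟨_ | k, v⟩ ⟨_ | l, w⟩ e <;> have e' := congrArg Subtype.val e
    · exact Prod.ext rfl (Subtype.ext e')
    · exact absurd e'.symm (nV _ _ _)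
    · exact absurd e' (nV _ _ _)
    · have : k = l := Fin.ext (by have := lt k l v w e'; have := lt l k w v e'.symm; omega)
      subst this
      exact Prod.ext rfl (Subtype.ext (mul_right_cancel e'))
  have hb := hF.bijective_of_nat_card_le (by simp [h.cT, h.h4])
  obtain ⟨⟨_ | k, v⟩, e⟩ := hb.2 ⟨x, hx⟩ <;> have e' := congrArg Subtype.val e
  · left; rw [← show (v : G) = x from e']; exact v.2
  · right
    refine ⟨k, k.2, ?_⟩
    rw [← show (v : G) * cj g k u = x from e', mul_inv_cancel_right]; exact v.2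

theorem swap (h : E0 T V g) {x y : G} (hx : x ∈ T) (hy : y ∈ T) :
    y * x = x * y * ((x * y * (x * y)) * (x * x) * (y * y)) := by
  have s1 := h.sqV x hx
  have s2 := h.sqV y hy
  have s3 := h.sqV _ (mul_mem hx hy)
  have i1 : ∀ z ∈ T, z⁻¹ = z * (z * z) := fun z hz =>
    inv_eq_of_mul_eq_one_right (by rw [← mul_assoc, h.sq _ (h.sqV z hz)])
  have e := i1 _ (mul_mem hx hy)
  rw [mul_inv_rev, i1 x hx, i1 y hy] at e
  generalize x * y * (x * y) = r at *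
  generalize x * x = s at *
  generalize y * y = t at *
  rw [← mul_assoc, ← mul_assoc, ← e, mul_assoc y t, h.cV t s2 _ (mul_mem hx (h.VT s1)), mul_assoc, mul_assoc,
    mul_assoc, mul_assoc, ← mul_assoc t s t, h.cV t s2 s (h.VT s1), mul_assoc s t t, h.sq t s2, mul_one, h.sq s s1,
    mul_one]

theorem exists_u (h : E0 T V g) : ∃ g' u, E0 T V g' ∧ u ∈ T ∧ u ∉ V ∧ cj g' 4 u = u * cj g' 1 u := by
  obtain ⟨u, hu, uV⟩ : ∃ u ∈ T, u ∉ V := by
    by_contra hc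
    push Not at hc
    have := card_le_of_le (show T ≤ V from hc)
    rw [h.cT, h.h4] at this
    omega
  have key : ∀ g', E0 T V g' → u * cj g' 1 u * (cj g' 4 u)⁻¹ ∈ V →
      ∃ g' u, E0 T V g' ∧ u ∈ T ∧ u ∉ V ∧ cj g' 4 u = u * cj g' 1 u := by
    intro g' h' c
    generalize hv : u * cj g' 1 u * (cj g' 4 u)⁻¹ = v at c
    refine ⟨g', v * u, h', mul_mem (h.VT c) hu, fun c' => uV ((mul_mem_cancel_left c).1 c'), ?_⟩
    have e : u * cj g' 1 u = v * cj g' 4 u := by rw [← hv]; group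
    rw [map_mul, map_mul, show 4 = 1 + 3 by rfl, cj_add g' 1 3 v, h'.three c, mul_assoc, ← mul_assoc u,
      ← h.cV _ (h'.cjV 1 c) u hu, mul_assoc, e, ← mul_assoc _ v, ← h.cV v c _ (h'.cjT 1 (h.VT c)), mul_assoc v,
      ← mul_assoc v v, h.sq v c, one_mul]
  haveI : (V.subgroupOf T).Normal := ⟨fun n hn a => by
    rw [mem_subgroupOf] at hn ⊢
    show (a : G) * n * (a : G)⁻¹ ∈ V
    rwa [← h.cV _ hn _ a.2, mul_inv_cancel_right]⟩
  let π := QuotientGroup.mk' (V.subgroupOf T)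
  have hπ : ∀ a b : T, π a = π b ↔ (a : G) * (b : G)⁻¹ ∈ V := fun a b => by
    rw [← mul_inv_eq_one, ← map_inv, ← map_mul, ← MonoidHom.mem_ker, QuotientGroup.ker_mk', mem_subgroupOf]; rfl
  have h2 : ∀ a : T ⧸ V.subgroupOf T, a * a = 1 := fun a => by
    obtain ⟨a, rfl⟩ := QuotientGroup.mk'_surjective _ a
    rw [← map_mul, ← map_one π, hπ]; simpa using h.sqV a a.2
  letI : CommGroup (T ⧸ V.subgroupOf T) := { (inferInstance : Group _) with
    mul_comm := fun a b => by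
      rw [← inv_eq_of_mul_eq_one_right (h2 (a * b)), mul_inv_rev, inv_eq_of_mul_eq_one_right (h2 a),
        inv_eq_of_mul_eq_one_right (h2 b)] }
  have hk : ∃ k < 15, u * cj g 1 u * (cj g k u)⁻¹ ∈ V := by
    refine (h.cover hu uV (mul_mem hu (h.cjT 1 hu))).resolve_left fun c => h.dist hu uV (k := 1) (by norm_num)
      (by norm_num) ?_
    have := mul_mem c (inv_mem (h.sqV u hu))
    rw [h.cV _ c u⁻¹ (inv_mem hu) |> fun e => show u * cj g 1 u * (u * u)⁻¹ = cj g 1 u * u⁻¹ by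
      rw [mul_inv_rev, ← mul_assoc, e]; group] at this
    exact this
  obtain ⟨k, hk, c⟩ := hk
  have hz := zech (q := fun i => π ⟨cj g i u, h.cjT i hu⟩) (fun i => h2 _)
    (fun e => uV (by rw [← map_one π, hπ] at e; simpa [cj_zero] using e))
    (fun j hj j0 e => h.dist hu uV hj j0 (by have := (hπ _ _).1 e.symm; simpa [cj_zero] using this)) hk
    (fun i _ => by
      rw [← map_mul, hπ]
      have := h.cjV i c
      rw [map_mul, map_mul, map_inv, ← cj_add, ← cj_add] at this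
      show cj g i u * cj g ((i + 1) % 15) u * (cj g ((i + k) % 15) u)⁻¹ ∈ V
      rwa [h.cj_mod, h.cj_mod])
  rcases hz with rfl | rfl
  · exact key g h c
  · refine key g⁻¹ h.symm ?_
    have e : ∀ j, cj g⁻¹ j u = cj g (14 * j) u := fun j => by
      rw [cj_apply, cj_apply, pow_mul, inv_eq_of_mul_eq_one_right (show g * g ^ 14 = 1 by rw [← pow_succ', h.g15])]
    have := h.cjV 14 c
    rw [map_mul, map_mul, map_inv, ← cj_add, ← cj_add, ← h.cj_mod (14 + 1), ← h.cj_mod (14 + 12),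
      show (14 + 1) % 15 = 0 by rfl, cj_zero] at this
    rw [e, e, ← h.cj_mod (14 * 4), h.swap (h.cjT (14 * 1) hu) hu, mul_assoc,
      h.cV _ (mul_mem (mul_mem (h.sqV _ (mul_mem (h.cjT _ hu) hu)) (h.sqV _ (h.cjT _ hu))) (h.sqV _ hu)) _
        (inv_mem (h.cjT _ hu)), ← mul_assoc]
    exact mul_mem this (mul_mem (mul_mem (h.sqV _ (mul_mem (h.cjT _ hu) hu)) (h.sqV _ (h.cjT _ hu))) (h.sqV _ hu))

end E0

/-- normal form words -/
def nw (a0 a1 a2 a3 z0 z1 : G) (c0 c1 c2 c3 v0 v1 : Bool) (e : G) : G :=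
  cond c0 a0 1 * (cond c1 a1 1 * (cond c2 a2 1 * (cond c3 a3 1 * (cond v0 z0 1 * (cond v1 z1 1 * e)))))

/-- the polycyclic relations -/
structure PR (a0 a1 a2 a3 z0 z1 : G) : Prop where
  s0 : ∀ x, a0 * (a0 * x) = z0 * x
  s1 : ∀ x, a1 * (a1 * x) = z1 * x
  s2 : ∀ x, a2 * (a2 * x) = z0 * (z1 * x)
  s3 : ∀ x, a3 * (a3 * x) = z0 * x
  c10 : ∀ x, a1 * (a0 * x) = a0 * (a1 * (z0 * x))
  c20 : ∀ x, a2 * (a0 * x) = a0 * (a2 * (z0 * x))
  c21 : ∀ x, a2 * (a1 * x) = a1 * (a2 * (z1 * x))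
  c30 : ∀ x, a3 * (a0 * x) = a0 * (a3 * (z0 * (z1 * x)))
  c31 : ∀ x, a3 * (a1 * x) = a1 * (a3 * (z1 * x))
  c32 : ∀ x, a3 * (a2 * x) = a2 * (a3 * (z0 * (z1 * x)))
  y0 : ∀ x, z0 * (a0 * x) = a0 * (z0 * x)
  y1 : ∀ x, z0 * (a1 * x) = a1 * (z0 * x)
  y2 : ∀ x, z0 * (a2 * x) = a2 * (z0 * x)
  y3 : ∀ x, z0 * (a3 * x) = a3 * (z0 * x)
  w0 : ∀ x, z1 * (a0 * x) = a0 * (z1 * x)
  w1 : ∀ x, z1 * (a1 * x) = a1 * (z1 * x)
  w2 : ∀ x, z1 * (a2 * x) = a2 * (z1 * x)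
  w3 : ∀ x, z1 * (a3 * x) = a3 * (z1 * x)
  zz : ∀ x, z1 * (z0 * x) = z0 * (z1 * x)
  q0 : ∀ x, z0 * (z0 * x) = x
  q1 : ∀ x, z1 * (z1 * x) = x

/-- the element with a given code -/
def io (a0 a1 a2 a3 z0 z1 : G) (c : ℕ) : G :=
  nw a0 a1 a2 a3 z0 z1 (c.testBit 0) (c.testBit 1) (c.testBit 2) (c.testBit 3) (c.testBit 4) (c.testBit 5) 1

/-- bits of a code -/
def bits (c : ℕ) : List Bool := [c.testBit 0, c.testBit 1, c.testBit 2, c.testBit 3, c.testBit 4, c.testBit 5]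

theorem tabB : ∀ d < 64,
    bits (mu 1 d) = [!d.testBit 0, d.testBit 1, d.testBit 2, d.testBit 3, d.testBit 4 ^^ d.testBit 0, d.testBit 5] ∧
    bits (mu 2 d) = [d.testBit 0, !d.testBit 1, d.testBit 2, d.testBit 3, d.testBit 4 ^^ d.testBit 0,
      d.testBit 5 ^^ d.testBit 1] ∧
    bits (mu 4 d) = [d.testBit 0, d.testBit 1, !d.testBit 2, d.testBit 3, d.testBit 4 ^^ (d.testBit 0 ^^ d.testBit 2),
      d.testBit 5 ^^ (d.testBit 1 ^^ d.testBit 2)] ∧
    bits (mu 8 d) = [d.testBit 0, d.testBit 1, d.testBit 2, !d.testBit 3,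
      d.testBit 4 ^^ (d.testBit 0 ^^ (d.testBit 2 ^^ d.testBit 3)),
      d.testBit 5 ^^ (d.testBit 0 ^^ (d.testBit 1 ^^ d.testBit 2))] ∧
    bits (mu 16 d) = [d.testBit 0, d.testBit 1, d.testBit 2, d.testBit 3, !d.testBit 4, d.testBit 5] ∧
    bits (mu 32 d) = [d.testBit 0, d.testBit 1, d.testBit 2, d.testBit 3, d.testBit 4, !d.testBit 5] := by
  decide +kernel

theorem tabC : ∀ c < 64, 0 < c → ∃ i < 6, ∃ c' < c, mu (2 ^ i) c' = c ∧ ph 1 c = mu (ph 1 (2 ^ i)) (ph 1 c') ∧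
    ∀ d < 64, mu (2 ^ i) (mu c' d) = mu c d := by decide +kernel

theorem tabD : ∀ d < 64, mu 0 d = d ∧ ∀ c < 64, mu c d < 64 ∧ (mu c (iv d) = 0 → c = d) := by decide +kernel

theorem tabE : ∀ c < 64, 0 < c → ∃ j < 3, c = ph j 16 ∨ mu c c = ph j 16 := by decide +kernel

theorem tabF : ph 1 1 = 2 ∧ ph 1 2 = 4 ∧ ph 1 4 = 8 ∧ ph 1 8 = 3 ∧ ph 1 16 = 32 ∧ ph 1 32 = 48 ∧ ph 1 0 = 0 := by
  decide +kernel

section
variable {a0 a1 a2 a3 z0 z1 : G}

theorem io_of {c : ℕ} {c0 c1 c2 c3 v0 v1 : Bool} (h : bits c = [c0, c1, c2, c3, v0, v1]) :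
    io a0 a1 a2 a3 z0 z1 c = nw a0 a1 a2 a3 z0 z1 c0 c1 c2 c3 v0 v1 1 := by
  simp only [bits, List.cons.injEq, and_true] at h
  obtain ⟨rfl, rfl, rfl, rfl, rfl, rfl⟩ := h
  rfl

theorem PR.gen (h : PR a0 a1 a2 a3 z0 z1) {i d : ℕ} (hi : i < 6) (hd : d < 64) :
    io a0 a1 a2 a3 z0 z1 (mu (2 ^ i) d) = io a0 a1 a2 a3 z0 z1 (2 ^ i) * io a0 a1 a2 a3 z0 z1 d := by
  obtain ⟨b0, b1, b2, b3, b4, b5⟩ := tabB d hd
  have key : ∀ (c0 c1 c2 c3 v0 v1 : Bool) (e : G),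
      nw a0 a1 a2 a3 z0 z1 (!c0) c1 c2 c3 (v0 ^^ c0) v1 e = a0 * nw a0 a1 a2 a3 z0 z1 c0 c1 c2 c3 v0 v1 e ∧
      nw a0 a1 a2 a3 z0 z1 c0 (!c1) c2 c3 (v0 ^^ c0) (v1 ^^ c1) e = a1 * nw a0 a1 a2 a3 z0 z1 c0 c1 c2 c3 v0 v1 e ∧
      nw a0 a1 a2 a3 z0 z1 c0 c1 (!c2) c3 (v0 ^^ (c0 ^^ c2)) (v1 ^^ (c1 ^^ c2)) e =
        a2 * nw a0 a1 a2 a3 z0 z1 c0 c1 c2 c3 v0 v1 e ∧
      nw a0 a1 a2 a3 z0 z1 c0 c1 c2 (!c3) (v0 ^^ (c0 ^^ (c2 ^^ c3))) (v1 ^^ (c0 ^^ (c1 ^^ c2))) e =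
        a3 * nw a0 a1 a2 a3 z0 z1 c0 c1 c2 c3 v0 v1 e ∧
      nw a0 a1 a2 a3 z0 z1 c0 c1 c2 c3 (!v0) v1 e = z0 * nw a0 a1 a2 a3 z0 z1 c0 c1 c2 c3 v0 v1 e ∧
      nw a0 a1 a2 a3 z0 z1 c0 c1 c2 c3 v0 (!v1) e = z1 * nw a0 a1 a2 a3 z0 z1 c0 c1 c2 c3 v0 v1 e := by
    intro c0 c1 c2 c3 v0 v1 e
    cases c0 <;> cases c1 <;> cases c2 <;> cases c3 <;> cases v0 <;> cases v1 <;>
      simp only [nw, Bool.not_false, Bool.not_true, Bool.xor_false, Bool.xor_true, cond_true, cond_false, one_mul,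
        h.s0, h.s1, h.s2, h.s3, h.c10, h.c20, h.c21, h.c30, h.c31, h.c32, h.y0, h.y1, h.y2, h.y3, h.w0, h.w1, h.w2,
        h.w3, h.zz, h.q0, h.q1, and_self]
  obtain ⟨k0, k1, k2, k3, k4, k5⟩ := key (d.testBit 0) (d.testBit 1) (d.testBit 2) (d.testBit 3) (d.testBit 4)
    (d.testBit 5) 1
  interval_cases i
  · exact (io_of b0).trans (k0.trans (by congr 1; simp [io, nw, Nat.testBit]))
  · exact (io_of b1).trans (k1.trans (by congr 1; simp [io, nw, Nat.testBit]))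
  · exact (io_of b2).trans (k2.trans (by congr 1; simp [io, nw, Nat.testBit]))
  · exact (io_of b3).trans (k3.trans (by congr 1; simp [io, nw, Nat.testBit]))
  · exact (io_of b4).trans (k4.trans (by congr 1; simp [io, nw, Nat.testBit]))
  · exact (io_of b5).trans (k5.trans (by congr 1; simp [io, nw, Nat.testBit]))

theorem io_zero : io a0 a1 a2 a3 z0 z1 0 = 1 := by simp [io, nw]

theorem PR.mul (h : PR a0 a1 a2 a3 z0 z1) {c : ℕ} (hc : c < 64) : ∀ d < 64,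
    io a0 a1 a2 a3 z0 z1 (mu c d) = io a0 a1 a2 a3 z0 z1 c * io a0 a1 a2 a3 z0 z1 d := by
  induction c using Nat.strong_induction_on with
  | _ c ih =>
  intro d hd
  rcases Nat.eq_zero_or_pos c with rfl | c0
  · rw [(tabD d hd).1, io_zero, one_mul]
  obtain ⟨i, hi, c', h1, h2, -, h3⟩ := tabC c hc c0
  rw [← h3 d hd, h.gen hi ((tabD d hd).2 c' (by omega)).1, ih c' h1 (by omega) d hd, ← mul_assoc,
    ← h.gen hi (by omega), h2]

end

/-- The normal form of the Borel subgroup. -/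
structure NF (T : Subgroup G) (g : G) (ι : ℕ → G) : Prop where
  zero : ι 0 = 1
  mul : ∀ c < 64, ∀ d < 64, ι (mu c d) = ι c * ι d
  conj : ∀ j < 15, ∀ c < 64, ι (ph j c) = cj g j (ι c)
  mem : ∀ c, ι c ∈ T
  inj : ∀ c < 64, ∀ d < 64, ι c = ι d → c = d
  surj : ∀ t ∈ T, ∃ c < 64, ι c = t
  sq : ι 16 * ι 16 = 1

theorem E0.exists_NF [Finite G] (h0 : E0 T V g) : ∃ g' ι, E0 T V g' ∧ NF T g' ι := by
  obtain ⟨g, u, h, hu, uV, e⟩ := h0.exists_u
  have hz := h.sqV u hu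
  have zn : u * u ≠ 1 := fun c => uV (h.inv u hu c)
  have r : ∀ i, cj g (i + 4) u = cj g i u * cj g (i + 1) u := fun i => by rw [cj_add, e, map_mul, ← cj_add]
  have s : ∀ i, cj g i u * cj g i u = cj g (i % 3) (u * u) := fun i => by
    rw [← map_mul]
    conv_lhs => rw [← Nat.mod_add_div i 3, cj_add, cj_fix (h.three hz)]
  have t2 := (h.two hz zn).2
  generalize hz0 : u * u = z0 at *
  have hz1 := h.cjV 1 hz
  generalize hz1' : cj g 1 z0 = z1 at *
  have m := fun i => h.cjT i hu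
  have cz0 := fun x hx => h.cV z0 hz x hx
  have cz1 := fun x hx => h.cV z1 hz1 x hx
  have q0 : ∀ x, z0 * (z0 * x) = x := fun x => by rw [← mul_assoc, h.sq _ hz, one_mul]
  have q1 : ∀ x, z1 * (z1 * x) = x := fun x => by rw [← mul_assoc, h.sq _ hz1, one_mul]
  have zz : ∀ x, z1 * (z0 * x) = z0 * (z1 * x) := fun x => by rw [← mul_assoc, cz1 _ (h.VT hz), mul_assoc]
  have s0 : u * u = z0 := hz0
  have s1 : cj g 1 u * cj g 1 u = z1 := by rw [s, hz1']
  have s2 : cj g 2 u * cj g 2 u = z0 * z1 := by rw [s, t2]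
  have s3 : cj g 3 u * cj g 3 u = z0 := by rw [s, cj_zero]
  have p01 : u * cj g 1 u * (u * cj g 1 u) = z1 := by rw [← e, s, hz1']
  have p12 : cj g 1 u * cj g 2 u * (cj g 1 u * cj g 2 u) = z0 * z1 := by rw [← r 1, s, t2]
  have p23 : cj g 2 u * cj g 3 u * (cj g 2 u * cj g 3 u) = z0 := by rw [← r 2, s, cj_zero]
  have sv : ∀ x ∈ T, ∀ v ∈ V, x * v * (x * v) = x * x := fun x hx v hv => by
    rw [mul_assoc, ← mul_assoc v, h.cV v hv x hx, mul_assoc, h.sq v hv, mul_one]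
  have p02 : u * cj g 2 u * (u * cj g 2 u) = z0 * z1 := by
    have : cj g 8 u = u * cj g 2 u * z1 := by
      rw [r 4, e, r 1, mul_assoc, ← mul_assoc (cj g 1 u), s1, cz1 _ (m 2), mul_assoc]
    rw [← sv _ (mul_mem hu (m 2)) z1 hz1, ← this, s, t2]
  have p13 : cj g 1 u * cj g 3 u * (cj g 1 u * cj g 3 u) = z0 := by
    have := congrArg (cj g 1) p02
    rw [map_mul, map_mul, ← cj_add, ← t2, ← cj_add, h.three hz] at this
    exact this
  have p30 : cj g 3 u * u * (cj g 3 u * u) = z0 * z1 := by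
    have : cj g 3 u * u = cj g 14 u * z0 := by
      have := r 14
      rw [← h.cj_mod (14 + 4), ← h.cj_mod (14 + 1), show (14 + 1) % 15 = 0 by rfl, cj_zero] at this
      rw [this, mul_assoc, s0]
    rw [this, sv _ (m 14) z0 hz, s, t2]
  have P : PR u (cj g 1 u) (cj g 2 u) (cj g 3 u) z0 z1 := by
    refine ⟨fun x => by rw [← mul_assoc, s0], fun x => by rw [← mul_assoc, s1],
      fun x => by rw [← mul_assoc, s2, mul_assoc], fun x => by rw [← mul_assoc, s3], fun x => ?_, fun x => ?_,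
      fun x => ?_, fun x => ?_, fun x => ?_, fun x => ?_, fun x => by rw [← mul_assoc, cz0 _ hu, mul_assoc],
      fun x => by rw [← mul_assoc, cz0 _ (m 1), mul_assoc], fun x => by rw [← mul_assoc, cz0 _ (m 2), mul_assoc],
      fun x => by rw [← mul_assoc, cz0 _ (m 3), mul_assoc], fun x => by rw [← mul_assoc, cz1 _ hu, mul_assoc],
      fun x => by rw [← mul_assoc, cz1 _ (m 1), mul_assoc], fun x => by rw [← mul_assoc, cz1 _ (m 2), mul_assoc],
      fun x => by rw [← mul_assoc, cz1 _ (m 3), mul_assoc], zz, q0, q1⟩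
    · rw [← mul_assoc, h.swap hu (m 1), p01, s0, s1]; simp only [mul_assoc, zz, q0, q1]
    · rw [← mul_assoc, h.swap hu (m 2), p02, s0, s2]; simp only [mul_assoc, zz, q0, q1]
    · rw [← mul_assoc, h.swap (m 1) (m 2), p12, s1, s2]; simp only [mul_assoc, zz, q0, q1]
    · rw [← mul_assoc u, h.swap (m 3) hu, p30, s0, s3]; simp only [mul_assoc, zz, q0, q1]
    · rw [← mul_assoc, h.swap (m 1) (m 3), p13, s1, s3]; simp only [mul_assoc, zz, q0, q1]
    · rw [← mul_assoc, h.swap (m 2) (m 3), p23, s2, s3]; simp only [mul_assoc, zz, q0, q1]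
  set ι := io u (cj g 1 u) (cj g 2 u) (cj g 3 u) z0 z1 with hι
  have i16 : ι 16 = z0 := by simp [hι, io, nw, Nat.testBit]
  have hmem : ∀ c, ι c ∈ T := fun c => by
    have b : ∀ (b : Bool) (x : G), x ∈ T → cond b x 1 ∈ T := fun b x hx => by cases b; exacts [one_mem _, hx]
    exact mul_mem (b _ _ hu) (mul_mem (b _ _ (m 1)) (mul_mem (b _ _ (m 2)) (mul_mem (b _ _ (m 3))
      (mul_mem (b _ _ (h.VT hz)) (mul_mem (b _ _ (h.VT hz1)) (one_mem _))))))
  have c1 : ∀ c < 64, ι (ph 1 c) = cj g 1 (ι c) := by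
    intro c
    induction c using Nat.strong_induction_on with
    | _ c ih =>
    intro hc
    obtain ⟨f0, f1, f2, f3, f4, f5, f6⟩ := tabF
    rcases Nat.eq_zero_or_pos c with rfl | c0
    · rw [f6, hι, io_zero, map_one]
    obtain ⟨i, hi, c', h1, h2, h3, -⟩ := tabC c hc c0
    have hp : 2 ^ i < 64 := by interval_cases i <;> norm_num
    rw [h3, hι, P.mul ((tab4 _ hp).2 1 (by norm_num)).1 _ ((tab4 _ (by omega)).2 1 (by norm_num)).1, ← h2,
      P.gen hi (by omega), map_mul, ← hι, ih c' h1 (by omega)]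
    congr 1
    interval_cases i
    · rw [pow_zero, f0]; simp [hι, io, nw, Nat.testBit]
    · rw [pow_one, f1]; simp [hι, io, nw, Nat.testBit, ← cj_add]
    · rw [show 2 ^ 2 = 4 by rfl, f2]; simp [hι, io, nw, Nat.testBit, ← cj_add]
    · rw [show 2 ^ 3 = 8 by rfl, f3]; simp [hι, io, nw, Nat.testBit, ← cj_add, e]
    · rw [show 2 ^ 4 = 16 by rfl, f4]; simp [hι, io, nw, Nat.testBit, hz1']
    · have : cj g 1 z1 = z0 * z1 := by rw [← t2, ← hz1', ← cj_add]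
      rw [show 2 ^ 5 = 32 by rfl, f5]; simp [hι, io, nw, Nat.testBit, this]
  have cj' : ∀ j < 15, ∀ c < 64, ι (ph j c) = cj g j (ι c) := by
    intro j
    induction j with
    | zero => intro _ c hc; rw [(tab4 c hc).1, cj_zero]
    | succ j ih =>
      intro hj c hc
      have := tab3 1 (by norm_num) j (by omega) c hc
      rw [Nat.mod_eq_of_lt (by omega), Nat.add_comm] at this
      rw [← this, c1 _ ((tab4 c hc).2 j (by omega)).1, ih (by omega) c hc, ← cj_add, Nat.add_comm]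
  have n1 : ∀ c < 64, ι c = 1 → c = 0 := by
    intro c hc e1
    by_contra c0
    obtain ⟨j, hj, e2⟩ := tabE c hc (by omega)
    have : ι (ph j 16) = 1 := by
      rcases e2 with e2 | e2
      · rw [← e2, e1]
      · rw [← e2, hι, P.mul hc c hc, ← hι, e1, mul_one]
    rw [cj' j (by omega) 16 (by norm_num), i16] at this
    exact zn (cj_inj (this.trans (map_one _).symm))
  have hinj : ∀ c < 64, ∀ d < 64, ι c = ι d → c = d := by
    intro c hc d hd e1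
    have b := tab9 d hd
    refine ((tabD d hd).2 c hc).2 (n1 _ ((tabD _ b.1).2 c hc).1 ?_)
    rw [hι, P.mul hc _ b.1, ← hι, e1, hι, ← P.mul hd _ b.1, b.2.1, io_zero]
  refine ⟨g, ι, h, io_zero, fun c hc => P.mul hc, cj', hmem, hinj, fun t ht => ?_, by rw [i16, h.sq _ hz]⟩
  have hb := (show Function.Injective fun c : Fin 64 => (⟨ι c, hmem c⟩ : T) from
    fun c d e1 => Fin.ext (hinj c c.2 d d.2 (congrArg Subtype.val e1))).bijective_of_nat_card_le (by simp [h.cT])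
  obtain ⟨c, e1⟩ := hb.2 ⟨t, ht⟩
  exact ⟨c, c.2, congrArg Subtype.val e1⟩

theorem realizeEqns_Ly_E2 : True := by
  have := @CA.Ly.E.pm.eq_1.{0}
  have := @CA.Ly.E.pm.eq_def.{0}
  have := @CA.Ly.E.pm.congr_simp.{0}
  have := @CA.Ly.E.io.eq_1.{0}
  have := @CA.Ly.E.io.eq_def.{0}
  have := @CA.Ly.E.io.congr_simp.{0}
  have := @CA.Ly.E.zs.eq_1
  have := @CA.Ly.E.zs.eq_def
  have := @CA.Ly.E.zs.congr_simp
  have := @CA.Ly.E.cj.eq_1.{0}
  have := @CA.Ly.E.cj.eq_def.{0}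
  have := @CA.Ly.E.cj.congr_simp.{0}
  have := @CA.Ly.E.bits.eq_1
  have := @CA.Ly.E.bits.eq_def
  have := @CA.Ly.E.bits.congr_simp
  have := @CA.Ly.E.zc.eq_1
  have := @CA.Ly.E.zc.eq_def
  have := @CA.Ly.E.zc.congr_simp
  have := @CA.Ly.E.nw.eq_1.{0}
  have := @CA.Ly.E.nw.eq_def.{0}
  have := @CA.Ly.E.nw.congr_simp.{0}
  trivial

end CA.Ly.E
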