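/-
The rank one `BN`-pair of `U₃(4)`: the action on 65 points.
-/
import Cfsg.Agent.Ly.E2
set_option autoImplicit false
set_option maxRecDepth 100000
set_option linter.unusedSectionVars false

namespace CA.Ly.E
open CA.TC Subgroup

/-- The permutation model. -/
def Model : Subgroup (Equiv.Perm (Fin 65)) :=
  closure {π | (∃ c < 64, ∀ x, (π x : ℕ) = aL c x) ∨ (∀ x, (π x : ℕ) = aK 1 x) ∨ ∀ x, (π x : ℕ) = w0 x}

theorem tabG : (∀ c < 64, (∃ d < 64, mu (ph 1 d) c = d) ∧ aL c 0 = c ∧ aL c 64 = 64 ∧ ∀ d < 64, aL c d = mu c d ∧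
    (mu c d = 0 → d = iv c)) ∧ (∀ k < 15, aK k 0 = 0 ∧ aK k 64 = 64 ∧ ∀ d < 64, aK k d = ph k d) ∧ w0 64 = 0 ∧
    ∀ x < 65, w0 x < 65 := by decide +kernel

variable {G : Type*} [Group G] {T V : Subgroup G} {g : G}

namespace E0

/-- The Borel subgroup. -/
def B (h : E0 T V g) : Subgroup G where
  carrier := {x | ∃ s ∈ T, ∃ i : ℕ, x = s * g ^ i}
  one_mem' := ⟨1, one_mem _, 0, by simp⟩
  mul_mem' := by
    rintro _ _ ⟨s, hs, i, rfl⟩ ⟨t, ht, j, rfl⟩
    exact ⟨s * cj g i t, mul_mem hs (h.cjT i ht), i + j, by rw [cj_apply, pow_add]; group⟩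
  inv_mem' := by
    rintro _ ⟨s, hs, i, rfl⟩
    refine ⟨cj g (14 * i) s⁻¹, h.cjT _ (inv_mem hs), 14 * i, ?_⟩
    rw [cj_apply, inv_mul_cancel_right, mul_inv_rev, pow_mul, ← inv_pow,
      inv_eq_of_mul_eq_one_right (show g * g ^ 14 = 1 by rw [← pow_succ', h.g15])]

theorem TB (h : E0 T V g) {t : G} (ht : t ∈ T) : t ∈ h.B := ⟨t, ht, 0, by simp⟩

theorem gB (h : E0 T V g) (i : ℕ) : g ^ i ∈ h.B := ⟨1, one_mem _, i, by simp⟩

theorem p4 (h : E0 T V g) {t : G} (ht : t ∈ T) : t ^ 4 = 1 := by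
  rw [show 4 = 2 + 2 by rfl, pow_add, pow_two, h.sq _ (h.sqV t ht)]

variable [Finite G]

theorem dvd_of (h : E0 T V g) {k : ℕ} (hk : g ^ k ∈ T) : k % 15 = 0 := by
  obtain ⟨u, hu, uV⟩ : ∃ u ∈ T, u ∉ V := by
    by_contra hc
    push Not at hc
    have := card_le_of_le (show T ≤ V from hc)
    rw [h.cT, h.h4] at this
    omega
  have e : g ^ k = 1 := by
    have := congrArg (· ^ 4) (h.p4 hk)
    simp only [← pow_mul, one_pow] at this
    rwa [show k * 4 * 4 = 15 * k + k by ring, pow_add, pow_mul, h.g15, one_pow, one_mul] at this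
  by_contra c
  refine h.dist hu uV (k := k % 15) (Nat.mod_lt _ (by norm_num)) (by omega) ?_
  rw [h.cj_mod, cj_apply, e]; simp

theorem memT (h : E0 T V g) {x : G} (hx : x ∈ h.B) (h4 : x ^ 4 = 1) : x ∈ T := by
  obtain ⟨s, hs, i, rfl⟩ := hx
  have e : ∀ n, ∃ t ∈ T, (s * g ^ i) ^ n = t * g ^ (i * n) := by
    intro n
    induction n with
    | zero => exact ⟨1, one_mem _, by simp⟩
    | succ n ih =>
      obtain ⟨t, ht, e⟩ := ih
      exact ⟨t * cj g (i * n) s, mul_mem ht (h.cjT _ hs), by rw [pow_succ, e, cj_apply, Nat.mul_succ, pow_add]; group⟩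
  obtain ⟨t, ht, e⟩ := e 4
  have := h.dvd_of (k := i * 4) (by rw [eq_inv_of_mul_eq_one_right (e.symm.trans h4)]; exact inv_mem ht)
  rw [pow_eq_pow_mod i h.g15, show i % 15 = 0 by omega, pow_zero, mul_one]; exact hs

theorem cardB (h : E0 T V g) : Nat.card (G ⧸ h.B) = 65 := by
  let F : T × Fin 15 → h.B := fun p => ⟨p.1 * g ^ (p.2 : ℕ), p.1, p.1.2, p.2, rfl⟩
  have hF : Function.Bijective F := by
    constructor
    · rintro ⟨s, i⟩ ⟨t, j⟩ e
      have e' : (s : G) * g ^ (i : ℕ) = t * g ^ (j : ℕ) := congrArg Subtype.val e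
      have e2 : g ^ ((i : ℕ) + 14 * j) = (s : G)⁻¹ * t := by
        rw [pow_add, eq_inv_mul_of_mul_eq e', mul_assoc, mul_assoc, ← pow_add, show (j : ℕ) + 14 * j = 15 * j by ring,
          pow_mul, h.g15, one_pow, mul_one]
      have := h.dvd_of (k := i + 14 * j) (by rw [e2]; exact mul_mem (inv_mem s.2) t.2)
      have hij : i = j := Fin.ext (by have := i.2; have := j.2; omega)
      subst hij
      exact Prod.ext (Subtype.ext (mul_right_cancel e')) rfl
    · rintro ⟨_, s, hs, i, rfl⟩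
      exact ⟨(⟨s, hs⟩, ⟨i % 15, Nat.mod_lt _ (by norm_num)⟩), Subtype.ext (by
        show s * g ^ (i % 15) = s * g ^ i
        rw [← pow_eq_pow_mod i h.g15])⟩
  have h1 := card_eq_card_quotient_mul_card_subgroup h.B
  rw [← Nat.card_congr (Equiv.ofBijective F hF), Nat.card_prod, h.cT, Nat.card_fin, h.card] at h1
  omega

theorem ti' (h : E0 T V g) {x t : G} (ht : t ∈ T) (t1 : t ≠ 1) (c : x * t * x⁻¹ ∈ h.B) : x ∈ h.B :=
  h.ti x t ht t1 (h.memT c (by rw [conj_pow, h.p4 ht]; simp))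

/-- The points. -/
def pt (h : E0 T V g) (ι : ℕ → G) (w : G) (x : ℕ) : G ⧸ h.B := if x = 64 then ((1 : G) : G ⧸ h.B) else (ι x * w : G)

variable {ι : ℕ → G} {w : G}

theorem pt_inf (h : E0 T V g) : h.pt ι w 64 = ((1 : G) : G ⧸ h.B) := if_pos rfl

theorem pt_lt (h : E0 T V g) {x : ℕ} (hx : x < 64) : h.pt ι w x = (ι x * w : G) := if_neg (by omega)

theorem pt_bij (h : E0 T V g) (n : NF T g ι) (hw : w ∉ h.B) : Function.Bijective fun x : Fin 65 => h.pt ι w x := by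
  have ne : ∀ c < 64, h.pt ι w c ≠ h.pt ι w 64 := fun c hc e => by
    rw [h.pt_lt hc, h.pt_inf, eq_comm, QuotientGroup.eq, inv_one, one_mul] at e
    exact hw ((mul_mem_cancel_left (h.TB (n.mem c))).1 e)
  refine Function.Injective.bijective_of_nat_card_le (fun x y e => Fin.ext ?_) (by simp [h.cardB])
  have e : h.pt ι w x = h.pt ι w y := e
  by_cases hx : (x : ℕ) = 64 <;> by_cases hy : (y : ℕ) = 64
  · rw [hx, hy]
  · rw [hx] at e; exact absurd e.symm (ne _ (by omega))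
  · rw [hy] at e; exact absurd e (ne _ (by omega))
  rw [h.pt_lt (by omega), h.pt_lt (by omega), QuotientGroup.eq] at e
  refine n.inj _ (by omega) _ (by omega) (by_contra fun c => hw (inv_mem_iff.1 (h.ti' (t := (ι x)⁻¹ * ι y)
    (mul_mem (inv_mem (n.mem _)) (n.mem _)) (fun e' => c (inv_mul_eq_one.1 e')) ?_)))
  rwa [mul_inv_rev, mul_assoc, ← mul_assoc (ι x)⁻¹, ← mul_assoc, ← inv_inv w, inv_inv w⁻¹] at e

theorem pt_inj (h : E0 T V g) (n : NF T g ι) (hw : w ∉ h.B) {x y : ℕ} (hx : x < 65) (hy : y < 65)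
    (e : h.pt ι w x = h.pt ι w y) : x = y :=
  congrArg Fin.val ((h.pt_bij n hw).1 (a₁ := ⟨x, hx⟩) (a₂ := ⟨y, hy⟩) e)

theorem pt_surj (h : E0 T V g) (n : NF T g ι) (hw : w ∉ h.B) (p : G ⧸ h.B) : ∃ x < 65, h.pt ι w x = p :=
  let ⟨x, e⟩ := (h.pt_bij n hw).2 p; ⟨x, x.2, e⟩

theorem smul_inf (h : E0 T V g) (a : G) : a • h.pt ι w 64 = (a : G ⧸ h.B) := by
  rw [h.pt_inf]; show ((a * 1 : G) : G ⧸ h.B) = _; rw [mul_one]

theorem fix_inf (h : E0 T V g) {a : G} (ha : a ∈ h.B) : a • h.pt ι w 64 = h.pt ι w 64 := by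
  rw [h.smul_inf, h.pt_inf, eq_comm, QuotientGroup.eq]; simpa using ha

theorem smul_L (h : E0 T V g) (n : NF T g ι) {c x : ℕ} (hc : c < 64) (hx : x < 65) :
    ι c • h.pt ι w x = h.pt ι w (aL c x) := by
  obtain ⟨-, -, t1, t2⟩ := tabG.1 c hc
  by_cases e : x = 64
  · rw [e, t1, h.fix_inf (h.TB (n.mem c))]
  rw [(t2 x (by omega)).1, h.pt_lt (by omega), h.pt_lt ((tabD x (by omega)).2 c hc).1, n.mul c hc x (by omega),
    mul_assoc]
  rfl

theorem exists_w (h : E0 T V g) (n : NF T g ι) : ∃ w, w * w = 1 ∧ w ∉ h.B ∧ ((g * w : G) : G ⧸ h.B) = w := by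
  obtain ⟨y, hy⟩ : ∃ y, y ∉ h.B := by
    by_contra hc
    push Not at hc
    have := h.cardB
    rw [← index_eq_card, (eq_top_iff' _).2 hc, index_top] at this
    omega
  have z1 : ι 16 ≠ 1 := fun e => absurd (n.inj 16 (by norm_num) 0 (by norm_num) (e.trans n.zero.symm)) (by norm_num)
  have hs : y * ι 16 * y⁻¹ ∉ h.B := fun c => hy (h.ti' (n.mem 16) z1 c)
  have s2 : y * ι 16 * y⁻¹ * (y * ι 16 * y⁻¹) = 1 := by rw [conj_mul, n.sq]; simp
  generalize y * ι 16 * y⁻¹ = s at hs s2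
  obtain ⟨x, hx, e⟩ := h.pt_surj n hs ((g * s : G) : G ⧸ h.B)
  have x64 : x ≠ 64 := by
    rintro rfl
    rw [h.pt_inf, QuotientGroup.eq, inv_one, one_mul] at e
    exact hs ((mul_mem_cancel_left (by simpa using h.gB 1)).1 e)
  obtain ⟨d, hd, e2⟩ := (tabG.1 x (by omega)).1
  have e3 : ∀ a : G, ((a * (ι d * s * (ι d)⁻¹) : G) : G ⧸ h.B) = (a * ι d * s : G) := fun a => by
    rw [QuotientGroup.eq]
    simpa [mul_assoc] using h.TB (n.mem d)
  refine ⟨ι d * s * (ι d)⁻¹, by rw [conj_mul, s2]; simp, fun c => hs ?_, ?_⟩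
  · exact (mul_mem_cancel_left (h.TB (n.mem d))).1 ((mul_mem_cancel_right (inv_mem (h.TB (n.mem d)))).1 c)
  · have e4 := e3 1
    rw [one_mul, one_mul] at e4
    have e5 : ι (ph 1 d) • h.pt ι s x = ι (ph 1 d) • ((g * s : G) : G ⧸ h.B) := congrArg (ι (ph 1 d) • ·) e
    rw [h.smul_L n ((tab4 d hd).2 1 (by norm_num)).1 hx, ((tabG.1 _ ((tab4 d hd).2 1 (by norm_num)).1).2.2.2 x
      (by omega)).1, e2, h.pt_lt hd, n.conj 1 (by norm_num) d hd, cj_apply, pow_one] at e5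
    rw [e3, e4, e5]
    show _ = ((g * ι d * g⁻¹ * (g * s) : G) : G ⧸ h.B)
    congr 1; group

theorem smul_K (h : E0 T V g) (n : NF T g ι) (hg : ((g * w : G) : G ⧸ h.B) = w) {k x : ℕ} (hk : k < 15)
    (hx : x < 65) : g ^ k • h.pt ι w x = h.pt ι w (aK k x) := by
  obtain ⟨-, t1, t2⟩ := tabG.2.1 k hk
  by_cases e : x = 64
  · rw [e, t1, h.fix_inf (h.gB k)]
  have e1 : ∀ k : ℕ, g ^ k • (w : G ⧸ h.B) = w := fun k => by
    induction k with
    | zero => simp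
    | succ k ih => rw [pow_succ, mul_smul]; exact (congrArg _ hg).trans ih
  rw [t2 x (by omega), h.pt_lt (by omega), h.pt_lt ((tab4 x (by omega)).2 k hk).1, n.conj k hk x (by omega), cj_apply]
  have := congrArg ((g ^ k * ι x * (g ^ k)⁻¹) • ·) (e1 k)
  simp only [← mul_smul, inv_mul_cancel_right] at this
  rw [show ((g ^ k * ι x * (g ^ k)⁻¹ * w : G) : G ⧸ h.B) = (g ^ k * ι x * (g ^ k)⁻¹) • (w : G ⧸ h.B) from rfl, ← this]
  show ((g ^ k * (ι x * w) : G) : G ⧸ h.B) = (g ^ k * ι x * w : G)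
  rw [mul_assoc]

theorem normB (h : E0 T V g) (n : NF T g ι) {b : G} (hb : b ∈ h.B) : ∃ c < 64, ∃ k < 15, b = ι c * g ^ k := by
  obtain ⟨s, hs, i, rfl⟩ := hb
  obtain ⟨c, hc, rfl⟩ := n.surj s hs
  exact ⟨c, hc, i % 15, Nat.mod_lt _ (by norm_num), by rw [← pow_eq_pow_mod i h.g15]⟩

theorem exists_w0 (h : E0 T V g) (n : NF T g ι) (w2 : w * w = 1) (hw : w ∉ h.B)
    (hg : ((g * w : G) : G ⧸ h.B) = w) : ∃ w' : G, ∀ x < 65, w' • h.pt ι w x = h.pt ι w (w0 x) := by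
  choose W hW hW' using fun x => h.pt_surj n hw (w • h.pt ι w x)
  have inj := fun {x y : ℕ} => h.pt_inj n hw (x := x) (y := y)
  have p0 : h.pt ι w 0 = w := by rw [h.pt_lt (by norm_num), n.zero, one_mul]
  have wi : w⁻¹ = w := inv_eq_of_mul_eq_one_right w2
  have h0 : W 64 = 0 := inj (hW _) (by norm_num) (by rw [hW', h.smul_inf, p0])
  have hinv : ∀ x < 65, W (W x) = x := fun x hx => inj (hW _) hx (by rw [hW', hW', ← mul_smul, w2, one_smul])
  have h0' : W 0 = 64 := by rw [← h0, hinv 64 (by norm_num)]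
  have hlt : ∀ t < 64, 0 < t → 0 < W t ∧ W t < 64 := by
    intro t ht t0
    have h1 := hinv t (by omega)
    have h2 := hW t
    have h3 : W t ≠ 0 := fun e => by rw [e, h0'] at h1; omega
    have h4 : W t ≠ 64 := fun e => by rw [e, h0] at h1; omega
    omega
  obtain ⟨e, he, hwe⟩ : ∃ e < 15, w * g * w = g ^ e := by
    have : w * g * w ∈ h.B := by
      rw [eq_comm, QuotientGroup.eq, wi, ← mul_assoc] at hg; exact hg
    obtain ⟨c, hc, e, he, e1⟩ := h.normB n this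
    refine ⟨e, he, ?_⟩
    have e2 : (w * g * w) • h.pt ι w 0 = h.pt ι w 0 := by
      rw [mul_smul, mul_smul, ← hW', h0', h.fix_inf (by simpa using h.gB 1), ← hW', h0]
    rw [e1, mul_smul, h.smul_K n hg he (by norm_num), (tabG.2.1 e he).1, h.smul_L n hc (by norm_num),
      (tabG.1 c hc).2.1] at e2
    rw [e1, inj (by omega) (by norm_num) e2, n.zero, one_mul]
  have hwj : ∀ j, w * g ^ j = g ^ (e * j % 15) * w := fun j => by
    rw [← pow_eq_pow_mod _ h.g15, pow_mul, ← hwe, ← wi, wi]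
    conv_rhs => rw [show w * g * w = w * g * w⁻¹ by rw [wi], conj_pow, mul_assoc, inv_mul_cancel, mul_one]
  have he2 : e * e % 15 = 1 := by
    have h1 : g ^ (e * e % 15) = g := by
      rw [← mul_left_inj w, ← hwj, ← hwe, ← mul_assoc, ← mul_assoc, w2, one_mul]
    have := h.dvd_of (k := e * e % 15 + 14) (by rw [pow_add, h1, ← pow_succ', h.g15]; exact one_mem _)
    omega
  obtain ⟨j, hj, hs⟩ := search he he2 h0 h0' hlt (fun j hj t ht t0 => by
      have b := hlt t ht t0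
      have m : e * j % 15 < 15 := Nat.mod_lt _ (by norm_num)
      refine inj (hW _) (by have := ((tab4 _ b.2).2 _ m).1; omega) ?_
      rw [hW', ← (tabG.2.1 j hj).2.2 t ht, ← h.smul_K n hg hj (by omega), ← mul_smul, hwj, mul_smul, ← hW',
        h.smul_K n hg m (hW _), (tabG.2.1 _ m).2.2 _ b.2])
    (fun t ht _ => hinv t (by omega)) (fun t ht _ t' ht' _ e1 e2 => by
      have f : ∀ t < 64, W t = t → (ι t * w)⁻¹ * w * (ι t * w) ∈ h.B := fun t ht e1 => by
        have := hW' t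
        rw [e1, h.pt_lt ht] at this
        rw [mul_assoc]
        exact QuotientGroup.eq.1 this
      have f1 := h.memT (f t ht e1) (by
        rw [← inv_inv (ι t * w), inv_inv (ι t * w)⁻¹, conj_pow, show 4 = 2 * 2 by rfl, pow_mul, pow_two w, w2]; simp)
      have f2 := h.ti' (x := (ι t' * w)⁻¹ * (ι t * w)) f1 (fun c => hw (by
        rw [mul_assoc, inv_mul_eq_one, eq_comm, mul_eq_right] at c; rw [c]; exact one_mem _)) (by
        have := f t' ht' e2
        rwa [show (ι t' * w)⁻¹ * (ι t * w) * ((ι t * w)⁻¹ * w * (ι t * w)) * ((ι t' * w)⁻¹ * (ι t * w))⁻¹ =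
          (ι t' * w)⁻¹ * w * (ι t' * w) by group])
      refine inj (by omega) (by omega) ?_
      rw [h.pt_lt ht, h.pt_lt ht', eq_comm]
      exact QuotientGroup.eq.2 f2)
    (fun t ht t0 => by
      have b := hlt t ht t0
      have e1 := hW' t
      rw [h.pt_lt b.2, h.pt_lt ht] at e1
      obtain ⟨c, hc, k, hk, e2⟩ := h.normB n (QuotientGroup.eq.1 e1)
      have e3 : w * ι t * w = ι (W t) * (w * (ι c * g ^ k)) := by rw [← e2]; simp [mul_assoc]
      have e4 : ∀ x < 65, W (aL t (W x)) = aL (W t) (W (aL c (aK k x))) := fun x hx => by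
        refine inj (hW _) (tab7 _ (hW _) _ b.2) ?_
        rw [hW', ← h.smul_L n ht (hW _), hW', ← mul_smul, ← mul_smul, e3, mul_smul, mul_smul, mul_smul,
          h.smul_K n hg hk hx, h.smul_L n hc (tab8 x hx k hk), ← hW', h.smul_L n b.2 (hW _)]
      have e5 := e4 0 (by norm_num)
      rw [h0', (tabG.1 t ht).2.2.1, h0, (tabG.2.1 k hk).1, (tabG.1 c hc).2.1] at e5
      have e6 : W c ≠ 64 := fun e => by rw [e, (tabG.1 _ b.2).2.2.1] at e5; omega
      have b2 := (tabG.1 _ b.2).2.2.2 (W c) (by have := hW c; omega)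
      rw [b2.1] at e5
      refine ⟨k, hk, ?_⟩
      rw [← b2.2 e5.symm, hinv c (by omega)]
      exact e4)
  refine ⟨g ^ j * w * g ^ ((15 - j) % 15), fun x hx => ?_⟩
  rw [mul_smul, mul_smul, h.smul_K n hg (Nat.mod_lt _ (by norm_num)) hx, ← hW', h.smul_K n hg (by omega) (hW _),
    hs x hx]

theorem model [IsSimpleGroup G] (h0 : E0 T V g) :
    ∃ f : G →* Equiv.Perm (Fin 65), Function.Injective f ∧ f.range = Model := by
  obtain ⟨g, ι, h, n⟩ := h0.exists_NF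
  obtain ⟨w, w2, hw, hg⟩ := h.exists_w n
  obtain ⟨w', hw'⟩ := h.exists_w0 n w2 hw hg
  let e := Equiv.ofBijective _ (h.pt_bij n hw)
  let f : G →* Equiv.Perm (Fin 65) := e.symm.permCongrHom.toMonoidHom.comp (MulAction.toPermHom G (G ⧸ h.B))
  have hf : ∀ (a : G) (x : Fin 65), h.pt ι w (f a x) = a • h.pt ι w x := fun a x => e.apply_symm_apply _
  have hf' : ∀ (a : G) (x : Fin 65) (y : ℕ), y < 65 → a • h.pt ι w x = h.pt ι w y → (f a x : ℕ) = y :=
    fun a x y hy c => h.pt_inj n hw (f a x).2 hy ((hf a x).trans c)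
  have fL : ∀ c < 64, ∀ x, (f (ι c) x : ℕ) = aL c x := fun c hc x =>
    hf' _ x _ (tab7 _ x.2 c hc) (h.smul_L n hc x.2)
  have fK : ∀ x, (f g x : ℕ) = aK 1 x := fun x => hf' _ x _ (tab8 _ x.2 1 (by norm_num))
    (by rw [← h.smul_K n hg (by norm_num) x.2, pow_one])
  have fW : ∀ x, (f w' x : ℕ) = w0 x := fun x => hf' _ x _ (tabG.2.2.2 _ x.2) (hw' _ x.2)
  have mL : ∀ c < 64, f (ι c) ∈ Model := fun c hc => subset_closure (Or.inl ⟨c, hc, fL c hc⟩)
  have mB : ∀ b ∈ h.B, f b ∈ Model := fun b hb => by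
    obtain ⟨c, hc, k, -, rfl⟩ := h.normB n hb
    rw [map_mul, map_pow]
    exact mul_mem (mL c hc) (pow_mem (Subgroup.subset_closure (Or.inr (Or.inl fK)) : f g ∈ Model) k)
  refine ⟨f, ?_, le_antisymm ?_ ((closure_le _).2 ?_)⟩
  · rw [← MonoidHom.ker_eq_bot_iff]
    refine (IsSimpleGroup.eq_bot_or_eq_top_of_normal f.ker inferInstance).resolve_right fun c => ?_
    have := fW ⟨64, by norm_num⟩
    rw [MonoidHom.mem_ker.1 (c ▸ mem_top w' : w' ∈ f.ker), tabG.2.2.1] at this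
    exact absurd this (by simp)
  · rintro _ ⟨a, rfl⟩
    obtain ⟨x, hx, e1⟩ := h.pt_surj n hw (a : G ⧸ h.B)
    by_cases c : x = 64
    · rw [c, h.pt_inf, QuotientGroup.eq, inv_one, one_mul] at e1
      exact mB a e1
    have e2 : ((ι x * w' : G) : G ⧸ h.B) = a := by
      rw [← h.smul_inf (ι := ι) (w := w), mul_smul, hw' 64 (by norm_num), tabG.2.2.1,
        h.smul_L n (by omega) (by norm_num), (tabG.1 x (by omega)).2.1, e1]
    have := mul_mem (mul_mem (mL x (by omega)) (subset_closure (Or.inr (Or.inr fW)) : f w' ∈ Model))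
      (mB _ (QuotientGroup.eq.1 e2))
    rwa [← map_mul, ← map_mul, mul_inv_cancel_left] at this
  · rintro π (⟨c, hc, e1⟩ | e1 | e1)
    · exact ⟨ι c, Equiv.ext fun x => Fin.ext ((fL c hc x).trans (e1 x).symm)⟩
    · exact ⟨g, Equiv.ext fun x => Fin.ext ((fK x).trans (e1 x).symm)⟩
    · exact ⟨w', Equiv.ext fun x => Fin.ext ((fW x).trans (e1 x).symm)⟩

end E0

theorem realizeEqns_Ly_E3 : True := by
  have := @CA.Ly.E.E0.pt.eq_1.{0}
  have := @CA.Ly.E.E0.pt.eq_def.{0}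
  have := @CA.Ly.E.E0.pt.congr_simp.{0}
  have := @CA.Ly.E.E0.B.eq_1.{0}
  have := @CA.Ly.E.E0.B.eq_def.{0}
  have := @CA.Ly.E.E0.B.congr_simp.{0}
  have := @CA.Ly.E.Model.eq_1
  have := @CA.Ly.E.Model.eq_def
  have := @CA.Ly.E.Model.congr_simp
  trivial

end CA.Ly.E
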