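/-
Lyons' theorem, package E: a simple group of order 62400 with the local structure of `U₃(4)` is the permutation model.
-/
import Cfsg.Agent.Ly.E3
import Cfsg.Agent.Ly.Base
set_option autoImplicit false
set_option maxRecDepth 100000

namespace CA.Ly
open Subgroup

/-- the involutions of `T64` and `1` -/
def V4 : Subgroup T64 where
  carrier := {x | x * x = 1}
  one_mem' := mul_one 1
  mul_mem' {a b} ha hb := by
    show a * b * (a * b) = 1
    rw [mul_assoc a b, ← mul_assoc b, ← central ha b, mul_assoc a b, show b * b = 1 from hb, mul_one]; exact ha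
  inv_mem' {a} ha := by
    show a⁻¹ * a⁻¹ = 1
    rw [← mul_inv_rev, show a * a = 1 from ha, inv_one]

theorem card_V4 : Nat.card V4 = 4 := by
  have : Nat.card V4 = Nat.card {x : T64 // x * x = 1} := rfl
  rw [this, Nat.card_eq_fintype_card, Fintype.card_subtype]
  decide +kernel

theorem e4_tab : (∀ k : Fin 5, allT (fun b => decide (b * tauF^[3 * k.val] u0 * b⁻¹ = tauF^[3] u0 → k.val = 1)) = true) ∧
    allT (fun c => decide (c * c = 1 → tauF^[5] c = c → c = 1)) = true ∧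
    allT (fun c => decide (tauF^[3] c = c → c * c = 1)) = true ∧
    allT (fun c => decide (c * c = 1 → c ≠ 1 → ∃ i : Fin 3, c = tauF^[i.val] z1)) = true ∧ tauF^[3] z1 = z1 := by
  decide +kernel

variable {G : Type*} [Group G] {ι : T64 →* G} {h : G} {π : centralizer ({ι z1} : Set G) →* Q}

theorem Fus.conj_pow1 (F : Fus ι h 1) (n : ℕ) (t : T64) : h ^ n * ι t * (h ^ n)⁻¹ = ι (tauF^[n] t) := by
  induction n with
  | zero => simp
  | succ n ih =>
    rw [Function.iterate_succ_apply', ← show (tau ^ 1) (tauF^[n] t) = tauF (tauF^[n] t) from rfl, ← F.conj, ← ih,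
      pow_succ']
    group

theorem Fus.cent_z1 (F : Fus ι h 1) (P : Pi15 ι π) (hi : Function.Injective π) {y : G}
    (hy : y ∈ centralizer ({ι z1} : Set G)) : ∃ s, ∃ n < 5, y = ι s * h ^ (3 * n) := by
  have h3 : h ^ 3 ∈ centralizer ({ι z1} : Set G) := mem_centralizer_singleton_iff.2 (by
    have := F.conj_pow1 3 z1
    rw [e4_tab.2.2.2.2] at this
    exact mul_inv_eq_iff_eq_mul.1 this)
  have e1 : (π ⟨h ^ 3, h3⟩).right = Multiplicative.ofAdd 1 := by
    have e : (⟨h ^ 3, h3⟩ : centralizer ({ι z1} : Set G)) * iC ι u0 * (⟨h ^ 3, h3⟩ : centralizer ({ι z1} : Set G))⁻¹ =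
        iC ι (tauF^[3] u0) := Subtype.ext (F.conj_pow1 3 u0)
    have e2 := congrArg π e
    rw [map_mul, map_mul, map_inv, P.on, P.on] at e2
    generalize π ⟨h ^ 3, h3⟩ = q at e2
    have e3 : q * SemidirectProduct.inl u0 * q⁻¹ = SemidirectProduct.inl (q.left * phi5 q.right u0 * q.left⁻¹) := by
      conv_lhs => rw [← SemidirectProduct.inl_left_mul_inr_right q]
      rw [map_mul, map_mul, SemidirectProduct.inl_aut, map_inv, map_inv]; group
    rw [e3] at e2
    have e4 := SemidirectProduct.inl_injective e2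
    rw [phi5_apply] at e4
    have e5 := of_decide_eq_true (allT_spec (e4_tab.1 ⟨q.right.toAdd.val, ZMod.val_lt _⟩) q.left) e4
    have e6 : q.right.toAdd = 1 := by
      rw [← ZMod.natCast_zmod_val q.right.toAdd, show q.right.toAdd.val = 1 from e5, Nat.cast_one]
    rw [← e6]; rfl
  set n := (π ⟨y, hy⟩).right.toAdd.val with hn
  set c : centralizer ({ι z1} : Set G) := ⟨y, hy⟩ * ((⟨h ^ 3, h3⟩ : centralizer ({ι z1} : Set G)) ^ n)⁻¹ with hc
  have e2 : (π c).right = 1 := by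
    have : SemidirectProduct.rightHom (π c) = 1 := by
      rw [hc, map_mul, map_mul, map_inv, map_inv, map_pow, map_pow, mul_inv_eq_one, SemidirectProduct.rightHom_eq_right,
        e1, ← ofAdd_nsmul, nsmul_eq_mul, mul_one, hn, ZMod.natCast_zmod_val]
      rfl
    exact this
  have e3 : c = iC ι (π c).left := hi (by
    rw [P.on]
    conv_lhs => rw [← SemidirectProduct.inl_left_mul_inr_right (π c), e2, map_one, mul_one])
  refine ⟨(π c).left, n, ZMod.val_lt _, ?_⟩
  have e4 : y * ((h ^ 3) ^ n)⁻¹ = ι (π c).left := congrArg Subtype.val e3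
  rw [pow_mul, ← e4]; group

theorem Fus.h15 (F : Fus ι h 1) (P : Pi15 ι π) (hi : Function.Injective π) : h ^ 15 = 1 := by
  have t15 : ∀ t, tauF^[15] t = t := fun t => by rw [← tau_pow, tau15]; rfl
  obtain ⟨s, n, hn, e⟩ := F.cent_z1 P hi (y := h ^ 15) (mem_centralizer_singleton_iff.2 (by
    have := F.conj_pow1 15 z1
    rw [t15] at this
    exact mul_inv_eq_iff_eq_mul.1 this))
  have e1 : h ^ (15 - 3 * n) = ι s := by
    rw [← mul_right_cancel_iff (a := h ^ (3 * n)), ← pow_add, ← e]; congr 1; omega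
  have e2 : (h ^ (15 - 3 * n)) ^ 4 = 1 := by
    rw [e1, ← map_pow, show s ^ 4 = s * s * (s * s) by simp only [pow_succ, pow_zero, one_mul, mul_assoc], pow_four, map_one]
  have e3 : h ^ (15 - 3 * n) = 1 := by
    have o1 := orderOf_dvd_of_pow_eq_one e2
    have o2 : Odd (orderOf (h ^ (15 - 3 * n))) := F.hodd.of_dvd_nat (orderOf_pow_dvd _)
    rw [← orderOf_eq_one_iff]
    exact Nat.Coprime.eq_one_of_dvd ((Nat.coprime_two_right.2 o2).pow_right 2) o1
  have e4 := F.conj_pow1 (15 - 3 * n) u0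
  rw [e3, one_mul, inv_one, mul_one] at e4
  have e5 := F.inj e4
  have n0 : n = 0 := by
    by_contra c
    have : ∀ n < 5, n ≠ 0 → u0 ≠ tauF^[15 - 3 * n] u0 := by decide +kernel
    exact this n hn c e5
  simpa [n0] using e3

theorem Fus.e0 (F : Fus ι h 1) (c : Nat.card G = 62400) (P : Pi15 ι π) (hi : Function.Injective π) :
    E.E0 ι.range (V4.map ι) h := by
  have g15 := F.h15 P hi
  have ti0 : ∀ (x : G) (a b : T64), a * a = 1 → a ≠ 1 → x * ι a * x⁻¹ = ι b →
      ∃ s ∈ ι.range, ∃ i : ℕ, x = s * h ^ i := by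
    intro x a b a2 a1 e
    have b2 : b * b = 1 := F.inj (by rw [map_mul, ← e, conj_mul, ← map_mul, a2]; simp)
    have b1 : b ≠ 1 := by
      rintro rfl
      rw [map_one, conj_eq_one_iff] at e
      exact a1 (F.inj (e.trans ι.map_one.symm))
    obtain ⟨⟨i, i3⟩, hi'⟩ := of_decide_eq_true (allT_spec e4_tab.2.2.2.1 a) a2 a1
    obtain ⟨⟨j, j3⟩, hj⟩ := of_decide_eq_true (allT_spec e4_tab.2.2.2.1 b) b2 b1
    rw [hi', hj, ← F.conj_pow1, ← F.conj_pow1] at e
    obtain ⟨s, n, -, e2⟩ := F.cent_z1 P hi (y := (h ^ j)⁻¹ * x * h ^ i) (mem_centralizer_singleton_iff.2 (by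
      calc (h ^ j)⁻¹ * x * h ^ i * ι z1 = (h ^ j)⁻¹ * (x * (h ^ i * ι z1 * (h ^ i)⁻¹) * x⁻¹) * x * h ^ i := by group
        _ = _ := by rw [e]; group))
    refine ⟨ι (tauF^[j] s), ⟨_, rfl⟩, j + 3 * n + 14 * i, ?_⟩
    have e3 : h ^ (14 * i) = (h ^ i)⁻¹ := by
      rw [eq_inv_iff_mul_eq_one, ← pow_add, show 14 * i + i = 15 * i by ring, pow_mul, g15, one_pow]
    rw [← F.conj_pow1, pow_add, pow_add, e3]
    calc x = h ^ j * ((h ^ j)⁻¹ * x * h ^ i) * (h ^ i)⁻¹ := by group
      _ = _ := by rw [e2]; group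
  refine ⟨c, ?_, map_le_range _ _, ?_, ?_, ?_, ?_, ?_, ?_, g15, ?_, ?_, ?_⟩
  · rw [← card_T64]; exact (Nat.card_congr (MonoidHom.ofInjective F.inj).toEquiv).symm
  · rintro _ ⟨v, hv, rfl⟩ _ ⟨x, rfl⟩
    rw [← map_mul, ← map_mul, central hv]
  · rw [card_map_of_injective F.inj, card_V4]
  · rintro _ ⟨v, hv, rfl⟩
    rw [← map_mul, show v * v = 1 from hv, map_one]
  · rintro _ ⟨x, rfl⟩ e
    exact ⟨x, F.inj (by rw [map_mul, e, map_one]), rfl⟩
  · rintro _ ⟨x, rfl⟩
    exact ⟨x * x, pow_four x, map_mul _ _ _⟩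
  · rintro _ ⟨x, rfl⟩
    exact ⟨_, (F.conj x).symm⟩
  · rintro _ ⟨v, hv, rfl⟩ e
    have := F.conj_pow1 5 v
    rw [e, mul_inv_cancel_right] at this
    rw [of_decide_eq_true (allT_spec e4_tab.2.1 v) hv (F.inj this).symm, map_one]
  · rintro _ ⟨x, rfl⟩ e
    have := F.conj_pow1 3 x
    rw [e, mul_inv_cancel_right] at this
    exact ⟨x, of_decide_eq_true (allT_spec e4_tab.2.2.1 x) (F.inj this).symm, rfl⟩
  · rintro x _ ⟨a, rfl⟩ a1 ⟨b, e⟩
    by_cases a2 : a * a = 1
    · exact ti0 x a b a2 (fun c => a1 (by rw [c, map_one])) e.symm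
    · exact ti0 x (a * a) (b * b) (pow_four a) a2 (by rw [map_mul, map_mul, e, conj_mul])

/-- Package E: the permutation model. -/
theorem Fus.model [Finite G] [IsSimpleGroup G] (F : Fus ι h 1) (c : Nat.card G = 62400) (P : Pi15 ι π)
    (hi : Function.Injective π) : ∃ f : G →* Equiv.Perm (Fin 65), Function.Injective f ∧ f.range = E.Model :=
  (F.e0 c P hi).model

/-- Package E: uniqueness. -/
theorem Fus.iso [Finite G] [IsSimpleGroup G] (F : Fus ι h 1) (c : Nat.card G = 62400) (P : Pi15 ι π)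
    (hi : Function.Injective π) {G' : Type*} [Group G'] [Finite G'] [IsSimpleGroup G'] {ι' : T64 →* G'} {h' : G'}
    {π' : centralizer ({ι' z1} : Set G') →* Q} (F' : Fus ι' h' 1) (c' : Nat.card G' = 62400) (P' : Pi15 ι' π')
    (hi' : Function.Injective π') : Nonempty (G ≃* G') := by
  obtain ⟨f, f1, f2⟩ := F.model c P hi
  obtain ⟨f', f1', f2'⟩ := F'.model c' P' hi'
  exact ⟨((MonoidHom.ofInjective f1).trans (MulEquiv.subgroupCongr (f2.trans f2'.symm))).trans
    (MonoidHom.ofInjective f1').symm⟩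

theorem realizeEqns_Ly_E4 : True := by
  have := @CA.Ly.V4.eq_1
  have := @CA.Ly.V4.eq_def
  have := @CA.Ly.V4.congr_simp
  trivial

end CA.Ly
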