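/-
Lyons' theorem, package FS: the Frobenius-Schur indicator.
-/
import Cfsg.Agent.Ly.FSDef
set_option autoImplicit false

namespace CA.Ly
open Cfsg CA.Chr Matrix Module

theorem even_of_skew {W : Type*} [AddCommGroup W] [Module ℂ W] [FiniteDimensional ℂ W] (C : W →ₗ[ℂ] W →ₗ[ℂ] ℂ)
    (hs : ∀ u v, C v u = -C u v) (hn : ∀ u, (∀ v, C u v = 0) → u = 0) : Even (finrank ℂ W) := by
  have h1 := (LinearMap.separatingLeft_iff_det_ne_zero (B := C) (finBasis ℂ W)).1 hn
  set A := LinearMap.toMatrix₂ (finBasis ℂ W) (finBasis ℂ W) C with hA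
  have h2 : Aᵀ = -A := by
    ext i j
    rw [transpose_apply, neg_apply, hA, LinearMap.toMatrix₂_apply, LinearMap.toMatrix₂_apply, hs]
  have h3 := det_transpose A
  rw [h2, det_neg, Fintype.card_fin] at h3
  by_contra c
  rw [(Nat.not_even_iff_odd.1 c).neg_one_pow] at h3
  exact h1 (by linear_combination (-1 / 2 : ℂ) * h3)

section
variable {G : Type*} [Group G] {n : Type} [Fintype n] [DecidableEq n] (M : G →* Matrix n n ℂ)

/-- invariant bilinear forms -/
def InvF (Y : Matrix n n ℂ) : Prop := ∀ g, (M g)ᵀ * Y * M g = Y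

variable {M}

theorem InvF.mul {Y : Matrix n n ℂ} (h : InvF M Y) (g : G) : Y * M g = (M g⁻¹)ᵀ * Y := by
  conv_rhs => rw [← h g, ← mul_assoc, ← mul_assoc, ← transpose_mul, ← map_mul, mul_inv_cancel, map_one, transpose_one,
    one_mul]

theorem InvF.scalar (hi : ∀ Y, InvF M Y → Y ≠ 0 → IsUnit Y) {X Y : Matrix n n ℂ} (hX : InvF M X) (h0 : X ≠ 0)
    (hY : InvF M Y) : ∃ c : ℂ, Y = c • X := by
  haveI : Nontrivial (Matrix n n ℂ) := ⟨X, 0, h0⟩
  obtain ⟨u, rfl⟩ := hi X hX h0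
  obtain ⟨c, hc⟩ := spectrum.nonempty_of_isAlgClosed_of_finiteDimensional ℂ (Y * (u⁻¹ : (Matrix n n ℂ)ˣ))
  refine ⟨c, ?_⟩
  by_contra e
  have h1 := hi (c • (u : Matrix n n ℂ) - Y) (fun g => by
    rw [mul_sub, sub_mul, Matrix.mul_smul, Matrix.smul_mul, hX g, hY g]) (fun c => e (sub_eq_zero.1 c).symm)
  refine hc ?_
  have h2 := h1.mul (u⁻¹).isUnit
  rwa [sub_mul, Matrix.smul_mul, Units.mul_inv, ← Algebra.algebraMap_eq_smul_one] at h2

theorem exists_form [Fintype G] (hi : ∀ Y, InvF M Y → Y ≠ 0 → IsUnit Y) {ν : ℂ}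
    (hν : ν = (Nat.card G : ℂ)⁻¹ * ∑ g, trace (M (g * g))) (h0 : ν ≠ 0) :
    ∃ Ω, IsUnit Ω ∧ InvF M Ω ∧ Ωᵀ = ν • Ω ∧ ν * ν = 1 := by
  let A : Matrix n n ℂ →ₗ[ℂ] Matrix n n ℂ := (Nat.card G : ℂ)⁻¹ • ∑ g, LinearMap.mulLeftRight ℂ ((M g)ᵀ, M g)
  have hA : ∀ Y, A Y = (Nat.card G : ℂ)⁻¹ • ∑ g, (M g)ᵀ * Y * M g := fun Y => by
    simp only [A, LinearMap.smul_apply, LinearMap.sum_apply, LinearMap.mulLeftRight_apply]
  have h1 : ∀ Y, InvF M (A Y) := fun Y x => by
    rw [hA, Matrix.mul_smul, Matrix.smul_mul, Finset.mul_sum, Finset.sum_mul]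
    congr 1
    refine Fintype.sum_equiv (Equiv.mulRight x) _ _ fun g => ?_
    simp only [Equiv.coe_mulRight, map_mul, transpose_mul, mul_assoc]
  have h2 : ∀ Y, InvF M Y → A Y = Y := fun Y hY => by
    rw [hA, Finset.sum_congr rfl fun g _ => hY g, Finset.sum_const, Finset.card_univ, ← Nat.card_eq_fintype_card,
      ← Nat.cast_smul_eq_nsmul ℂ, smul_smul, inv_mul_cancel₀ card_ne_zero, one_smul]
  have h3 : ν = ∑ i, ∑ j, A (single j i 1) i j := by
    rw [hν]
    simp only [hA, Matrix.smul_apply, Matrix.sum_apply, smul_eq_mul, ← Finset.mul_sum]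
    congr 1
    rw [Finset.sum_congr rfl fun i _ => Finset.sum_comm, Finset.sum_comm]
    refine Finset.sum_congr rfl fun g _ => ?_
    rw [map_mul, trace, Finset.sum_comm]
    refine Finset.sum_congr rfl fun i _ => ?_
    rw [diag_apply, mul_apply]
    refine Finset.sum_congr rfl fun j _ => ?_
    rw [mul_apply, Finset.sum_eq_single j, mul_single_apply_same, mul_one, transpose_apply]
    · intro b _ hb
      rw [mul_single_apply_of_ne _ _ _ _ _ hb, zero_mul]
    · simp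
  obtain ⟨i0, j0, h4⟩ : ∃ i j, A (single j i 1) ≠ 0 := by
    by_contra c
    push Not at c
    exact h0 (by simp [h3, c])
  set Ω := A (single j0 i0 1) with hΩ
  choose l hl using fun i j => InvF.scalar hi (h1 _) h4 (h1 (single j i 1))
  have h5 : InvF M Ωᵀ := fun g => by
    have := congrArg transpose (h1 (single j0 i0 1) g)
    simpa only [transpose_mul, transpose_transpose, mul_assoc] using this
  have h6 : Ωᵀ = ν • Ω := by
    rw [← h2 _ h5, matrix_eq_sum_single Ωᵀ, map_sum, h3, Finset.sum_comm, Finset.sum_smul]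
    refine Finset.sum_congr rfl fun j _ => ?_
    rw [map_sum, Finset.sum_smul]
    refine Finset.sum_congr rfl fun i _ => ?_
    rw [show single j i (Ωᵀ j i) = Ω i j • single j i (1 : ℂ) by simp, map_smul, hl, ← hΩ, smul_smul, Matrix.smul_apply,
      smul_eq_mul, mul_comm]
  refine ⟨Ω, hi _ (h1 _) h4, h1 _, h6, ?_⟩
  have h7 : (ν * ν - 1) • Ω = 0 := by
    rw [sub_smul, one_smul, mul_smul, ← h6, ← transpose_smul, ← h6, transpose_transpose, sub_self]
  exact sub_eq_zero.1 ((smul_eq_zero.1 h7).resolve_right h4)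

theorem InvF.trace_inv {Ω : Matrix n n ℂ} (h : InvF M Ω) (u : IsUnit Ω) (g : G) : trace (M g⁻¹) = trace (M g) := by
  obtain ⟨u, rfl⟩ := u
  rw [← trace_transpose, ← Units.mul_inv_cancel_right (M g⁻¹)ᵀ u, ← h.mul, trace_mul_cycle, Units.inv_mul, one_mul]

theorem InvF.parity {Ω : Matrix n n ℂ} (h : InvF M Ω) (u : IsUnit Ω) {ν : ℂ} (hν : Ωᵀ = ν • Ω) {H : Type*} [Group H]
    [Fintype H] (f : H →* G) (φ : H →* ℂˣ) (j : G) (s : H) (hs : f s = j * j)
    (hj : ∀ x, ∃ y, j * f x * j⁻¹ = f y ∧ φ y = (φ x)⁻¹) (e : ν * φ s = -1) :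
    ∃ m : ℕ, (Nat.card H : ℂ)⁻¹ * ∑ x, trace (M (f x)) * φ x⁻¹ = 2 * m := by
  let W : Submodule ℂ (n → ℂ) := ⨅ x, LinearMap.ker (toLin' (M (f x) - (φ x : ℂ) • 1))
  have hW : ∀ v, v ∈ W ↔ ∀ x, M (f x) *ᵥ v = (φ x : ℂ) • v := fun v => by
    simp only [W, Submodule.mem_iInf, LinearMap.mem_ker, toLin'_apply, sub_mulVec, smul_mulVec, one_mulVec, sub_eq_zero]
  let P : Matrix n n ℂ := (Nat.card H : ℂ)⁻¹ • ∑ x, (φ x⁻¹ : ℂ) • M (f x)
  have hP : ∀ v, P *ᵥ v = (Nat.card H : ℂ)⁻¹ • ∑ x, (φ x⁻¹ : ℂ) • M (f x) *ᵥ v := fun v => by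
    simp only [P, smul_mulVec, sum_mulVec]
  have av : ∀ {V : Type} [AddCommGroup V] [Module ℂ V] (v : V), (Nat.card H : ℂ)⁻¹ • ∑ _x : H, v = v := fun v => by
    rw [Finset.sum_const, Finset.card_univ, ← Nat.card_eq_fintype_card, ← Nat.cast_smul_eq_nsmul ℂ, smul_smul,
      inv_mul_cancel₀ card_ne_zero, one_smul]
  have pr : LinearMap.IsProj W (toLin' P) := ⟨fun v => (hW _).2 fun y => by
      rw [toLin'_apply, hP, mulVec_smul, smul_comm (φ y : ℂ), mulVec_sum]
      congr 1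
      rw [Finset.smul_sum]
      refine Fintype.sum_equiv (Equiv.mulLeft y) _ _ fun x => ?_
      rw [Equiv.coe_mulLeft, mulVec_smul, mulVec_mulVec, map_mul, map_mul, smul_smul, ← Units.val_mul, ← map_mul φ,
        _root_.mul_inv_rev, map_mul φ y, map_mul φ, mul_comm (φ x⁻¹), ← mul_assoc, ← map_mul φ, mul_inv_cancel, map_one,
        one_mul],
    fun v hv => by
      rw [toLin'_apply, hP]
      conv_rhs => rw [← av v]
      congr 1
      refine Finset.sum_congr rfl fun x _ => ?_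
      rw [(hW v).1 hv, smul_smul, ← Units.val_mul, ← map_mul, inv_mul_cancel, map_one, Units.val_one, one_smul]⟩
  let B := toBilin' Ω
  have B1 : ∀ g v w, B v (M g *ᵥ w) = B (M g⁻¹ *ᵥ v) w := fun g v w => by
    simp only [B, toBilin'_apply']
    rw [mulVec_mulVec, h.mul, ← mulVec_mulVec, dotProduct_mulVec, vecMul_transpose]
  have B2 : ∀ v w, B w v = ν * B v w := fun v w => by
    simp only [B, toBilin'_apply']
    rw [dotProduct_mulVec, dotProduct_comm, ← mulVec_transpose, hν, smul_mulVec, dotProduct_smul, smul_eq_mul]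
  have ev := even_of_skew (B.compl₁₂ W.subtype (toLin' (M j) ∘ₗ W.subtype)) (fun v w => by
      show B w (M j *ᵥ v) = -B v (M j *ᵥ w)
      rw [B2, B1 j v, ← neg_one_mul, ← e]
      have : M j *ᵥ (v : n → ℂ) = (φ s : ℂ) • M j⁻¹ *ᵥ v := by
        rw [← mulVec_smul, ← (hW v).1 v.2, mulVec_mulVec, ← map_mul, hs, inv_mul_cancel_left]
      rw [this, map_smul, LinearMap.smul_apply, smul_eq_mul, mul_assoc])
    (fun v hv => by
      have h1 : ∀ w, B v (M j *ᵥ w) = 0 := fun w => by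
        rw [← hv ⟨_, pr.1 w⟩]
        show _ = B v (M j *ᵥ P *ᵥ w)
        rw [hP, mulVec_smul, mulVec_sum, map_smul, map_sum]
        conv_lhs => rw [← av (B v (M j *ᵥ w))]
        congr 1
        refine Finset.sum_congr rfl fun x _ => ?_
        obtain ⟨y, e1, e2⟩ := hj x
        rw [mulVec_smul, map_smul, mulVec_mulVec, ← map_mul, mul_inv_eq_iff_eq_mul.1 e1, map_mul, ← mulVec_mulVec,
          B1 (f y), ← map_inv f, (hW v).1 v.2, map_smul, LinearMap.smul_apply, smul_smul, ← Units.val_mul, map_inv,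
          map_inv, e2, inv_inv, inv_mul_cancel, Units.val_one, one_smul]
      have h2 : (v : n → ℂ) ᵥ* Ω = 0 := by
        refine dotProduct_eq_zero _ fun w => ?_
        have := h1 (M j⁻¹ *ᵥ w)
        rw [mulVec_mulVec, ← map_mul, mul_inv_cancel, map_one, one_mulVec] at this
        rwa [← dotProduct_mulVec, ← toBilin'_apply']
      exact Subtype.ext (vecMul_injective_iff_isUnit.2 u (h2.trans (zero_vecMul Ω).symm)))
  obtain ⟨m, hm⟩ := ev
  refine ⟨m, ?_⟩
  have := pr.trace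
  rw [hm, trace_toLin'_eq] at this
  rw [two_mul, ← Nat.cast_add, ← this]
  simp only [P, trace_smul, trace_sum, smul_eq_mul, mul_comm]
end

/-- Package FS. -/
theorem fs.{u} : FS.{u} := by
  rintro G _ _ _ ⟨n, ρ, hρ, rfl⟩
  let M : G →* Matrix (Fin n) (Fin n) ℂ :=
    (LinearMap.toMatrixAlgEquiv' (R := ℂ) (n := Fin n)).toMulEquiv.toMonoidHom.comp ρ
  have hM : ∀ g v, M g *ᵥ v = ρ g v := fun g v => LinearMap.toMatrix'_mulVec _ _
  have ht : ∀ g, ρ.character g = trace (M g) := fun g => by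
    rw [← trace_toLin'_eq]
    exact congrArg _ (LinearMap.ext fun v => (hM g v).symm)
  have hi : ∀ Y, InvF M Y → Y ≠ 0 → IsUnit Y := fun Y hY h0 => by
    let U : Subrepresentation ρ := ⟨LinearMap.ker (toLin' Y), fun g v hv => by
      rw [LinearMap.mem_ker, toLin'_apply] at hv ⊢
      rw [← hM, mulVec_mulVec, hY.mul, ← mulVec_mulVec, hv, mulVec_zero]⟩
    rcases eq_bot_or_eq_top U with e | e
    · exact mulVec_injective_iff_isUnit.1 (LinearMap.ker_eq_bot.1 (congrArg Subrepresentation.toSubmodule e))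
    · exact absurd (toLin'.map_eq_zero_iff.1 (LinearMap.ker_eq_top.1 (congrArg Subrepresentation.toSubmodule e))) h0
  have key : nu ρ.character ≠ 0 → _ := exists_form hi (ν := nu ρ.character) (by simp only [nu, ht])
  refine ⟨?_, fun h g => ?_, fun H _ _ f φ j s hs hj e => ?_⟩
  · by_cases h : nu ρ.character = 0
    · exact Or.inl h
    · obtain ⟨-, -, -, -, e⟩ := key h
      exact Or.inr (mul_self_eq_one_iff.1 e)
  · obtain ⟨Ω, u, h1, -⟩ := key h
    rw [ht, ht, h1.trace_inv u]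
  · obtain ⟨Ω, u, h1, h2, -⟩ := key (fun c => by simp [c] at e)
    have := Fintype.ofFinite H
    obtain ⟨m, hm⟩ := h1.parity u h2 f φ j s hs hj e
    refine ⟨m, ?_⟩
    rw [← hm, dot_def]
    simp only [Function.comp_apply, ht, ← lin_inv_apply]
    rfl

theorem realizeEqns_Ly_FS : True := by
  have := @CA.Ly.InvF.eq_1.{0}
  have := @CA.Ly.InvF.eq_def.{0}
  have := @CA.Ly.InvF.congr_simp.{0}
  trivial

end CA.Ly
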