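/-
Lyons' theorem: assembling the packages.
-/
import Cfsg.Agent.Ly.B2
import Cfsg.Agent.Ly.D3
import Cfsg.Agent.Ly.De
import Cfsg.Agent.Ly.E4
import Cfsg.Agent.Ly.FS
import Cfsg.Agent.S0283
import Cfsg.Agent.S0280

set_option autoImplicit false

namespace CA.Ly

open Cfsg Subgroup

universe u v

theorem main_data (ar : ArMain.{u}) {G : Type u} [Group G] [Finite G] [IsSimpleGroup G] {F : Type v} [Field F]
    [Fintype F] (hF : Fintype.card F = 16) (S : Sylow 2 G) (P : Sylow 2 (PSU 3 F 4))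
    (e : (S : Subgroup G) ≃* (P : Subgroup (PSU 3 F 4))) : ∃ (ι : T64 →* G) (h : G)
      (π : centralizer ({ι z1} : Set G) →* Q), Fus ι h 1 ∧ Nat.card G = 62400 ∧ Pi15 ι π ∧ Function.Injective π := by
  obtain ⟨ι₀, inj, odd⟩ := exists_emb hF S P e
  obtain ⟨ι, h, D | D⟩ := exists_fus ι₀ inj odd
  · obtain ⟨π, p⟩ := D.pi15
    exact ⟨ι, h, π, D, (D.card15 fs ar p).1, p, (D.card15 fs ar p).2⟩
  · obtain ⟨π, p⟩ := D.pi3
    exact (D.not3 p).elim

theorem s0486_of (ar : ArMain.{u}) (ar' : ArMain.{v}) {G : Type u} [Group G] [Finite G] [IsSimpleGroup G]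
    {F : Type v} [Field F] [Fintype F] (hF : Fintype.card F = 16) (S : Sylow 2 G) (P : Sylow 2 (PSU 3 F 4))
    (hS : Nonempty ((S : Subgroup G) ≃* (P : Subgroup (PSU 3 F 4)))) : Nonempty (G ≃* PSU 3 F 4) := by
  obtain ⟨e⟩ := hS
  have h1 := Cfsg.Agent.S0280.result (q := 4) hF 3 (by norm_num)
  haveI : Finite (PSU 3 F 4) := Nat.finite_of_card_ne_zero fun h => by
    rw [h] at h1
    norm_num [Finset.prod_range_succ] at h1
  haveI := Cfsg.Agent.S0283.result (q := 4) hF 3 le_rfl (by omega)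
  obtain ⟨ι, h, π, a, b, c, d⟩ := main_data ar hF S P e
  obtain ⟨ι', h', π', a', b', c', d'⟩ := main_data ar' hF P P (MulEquiv.refl _)
  exact a.iso b c d a' b' c' d'

end CA.Ly

theorem CA.realizeEqns_Ly_Fin : True := by

  trivial
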